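import Cfsg.Agent.S5438
import Cfsg.Agent.GT.Transfer
import Cfsg.Agent.GT.Hall
import Cfsg.Agent.PF.OddOrder
import Cfsg.Agent.M24.Tools

/-! # Involutions fixing a unique coset -/

set_option autoImplicit false

namespace Cfsg.Agent.XL

open Cfsg Cfsg.Agent.GT Cfsg.Agent.TT Cfsg.Agent.M24 Subgroup MulAction
open scoped commutatorElement

variable {G : Type*} [Group G]

theorem ncard_cj (D : Subgroup G) (z : G) :
    {x : G | ∃ d ∈ D, x = d * z * d⁻¹}.ncard = (C1[z]).relIndex D := by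
  rw [← stabilizer_toCj, relIndex,
    show (stabilizer G (toCj z)).subgroupOf D = stabilizer D (toCj z) from rfl, index_stabilizer]
  congr 1
  ext x
  exact ⟨fun ⟨d, hd, e⟩ => ⟨⟨d, hd⟩, e.symm⟩, fun ⟨d, e⟩ => ⟨d.1, d.2, e.symm⟩⟩

theorem comm_zp {a b x : G} (h : Commute a b) (hx : x ∈ zpowers b) : Commute a x :=
  let ⟨n, e⟩ := hx; e ▸ h.zpow_right n

theorem se_abs [Finite G] {H : Subgroup G} {z : G} (zz : z * z = 1) (hz : z ∈ H)
    (hf : ∀ g, g⁻¹ * z * g ∈ H → g ∈ H) (hc : ∀ t ∈ H, t * t = 1 → t ≠ 1 → ∃ h ∈ H, t = h * z * h⁻¹)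
    (hne : H ≠ ⊤) : ∃ D ≤ H, Odd (Nat.card D) ∧ (C1[z]).relIndex H ∣ Nat.card D := by
  classical
  have hC : ∀ g, Commute g z → g ∈ H := fun g e => hf g (by rwa [mul_assoc, ← e.eq, inv_mul_cancel_left])
  set m := (C1[z]).relIndex H with hm
  have m0 : 0 < m := Nat.pos_of_ne_zero index_ne_zero_of_finite
  let I : Subgroup G → Set G := fun D => {x : G | ∃ d ∈ D, x = d * z * d⁻¹}
  have hI : I ⊤ ∩ H = I H := Set.ext fun x =>
    ⟨fun ⟨⟨d, _, e⟩, hx⟩ => ⟨d, (inv_mem_iff.1 (hf d⁻¹ (by simpa [← e] using hx))), e⟩,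
      fun ⟨d, hd, e⟩ => ⟨⟨d, trivial, e⟩, e ▸ mul_mem (mul_mem hd hz) (inv_mem hd)⟩⟩
  have h1 := Set.ncard_inter_add_ncard_diff_eq_ncard (I ⊤) H
  rw [hI, ncard_cj, ncard_cj, relIndex_top_right,
    ← relIndex_mul_index (show C1[z] ≤ H from fun g e => hC g (mem_centralizer_singleton_iff.1 e)), ← hm] at h1
  haveI := Fintype.ofFinite (G ⧸ H)
  have h2 : 1 < Fintype.card (G ⧸ H) := by
    rw [← Nat.card_eq_fintype_card]; exact one_lt_index_of_ne_top hne
  obtain ⟨β, -, h3⟩ := Finset.exists_le_card_fiber_of_mul_le_card_of_maps_to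
    (s := (Set.toFinite (I ⊤ \ H)).toFinset) (t := Finset.univ.erase ((1 : G) : G ⧸ H))
    (f := fun j : G => (j : G ⧸ H)) (n := m)
    (fun j hj => by
      rw [Set.Finite.mem_toFinset] at hj
      simpa [QuotientGroup.eq] using hj.2)
    (Finset.card_pos.1 (by rw [Finset.card_erase_of_mem (Finset.mem_univ _), Finset.card_univ]; omega))
    (by
      rw [Finset.card_erase_of_mem (Finset.mem_univ _), Finset.card_univ,
        ← Set.ncard_eq_toFinset_card _ (Set.toFinite _), ← Nat.card_eq_fintype_card, ← index,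
        Nat.sub_mul, mul_comm]
      omega)
  set F := Finset.filter (fun j : G => (j : G ⧸ H) = β) (Set.toFinite (I ⊤ \ H)).toFinset
  have hF : ∀ j ∈ F, j * j = 1 ∧ j ∉ H ∧ (j : G ⧸ H) = β := fun j hj => by
    obtain ⟨a, b⟩ := Finset.mem_filter.1 hj
    rw [Set.Finite.mem_toFinset] at a
    obtain ⟨⟨d, -, e⟩, c⟩ := a
    exact ⟨e ▸ conj_mul_self d zz, c, b⟩
  obtain ⟨u, hu⟩ := Finset.card_pos.1 (m0.trans_le h3)
  obtain ⟨uu, uH, uβ⟩ := hF u hu
  have hD : ∀ j ∈ F, u * j ∈ H ⊓ cj[u] H := fun j hj => by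
    obtain ⟨a, -, c⟩ := hF j hj
    have k1 := QuotientGroup.eq.1 (uβ.trans c.symm)
    have k2 := QuotientGroup.eq.1 (c.trans uβ.symm)
    rw [inv_of_sq uu] at k1
    rw [inv_of_sq a] at k2
    exact ⟨k1, mem_conj.2 (by simpa using k2)⟩
  have hodd : Odd (Nat.card (H ⊓ cj[u] H : Subgroup G)) := Nat.not_even_iff_odd.1 fun e => by
    obtain ⟨⟨t, t0⟩, ht⟩ := exists_prime_orderOf_dvd_card' 2 (even_iff_two_dvd.1 e)
    rw [orderOf_mk] at ht
    obtain ⟨t1, t2⟩ := t0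
    obtain ⟨h, hh, rfl⟩ := hc t t1 (mul_self_of_orderOf ht) (ne_one_of_orderOf ht)
    exact uH ((mul_mem_cancel_left (inv_mem hh)).1 (hf (h⁻¹ * u) (by
      simpa [mul_assoc] using mem_conj.1 t2)))
  refine ⟨_, inf_le_left, hodd, ?_⟩
  have h4 : F.card ≤ (I (H ⊓ cj[u] H)).ncard := by
    rw [← Set.ncard_coe_finset]
    refine Set.ncard_le_ncard_of_injOn (fun j => u * j * z * (u * j)⁻¹) (fun j hj => ⟨_, hD j hj, rfl⟩)
      fun j hj j' hj' e => ?_
    obtain ⟨a, b, -⟩ := hF j hj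
    obtain ⟨a', -, -⟩ := hF j' hj'
    have c1 : j * j' ∈ H ⊓ cj[u] H := by
      simpa [mul_assoc, inv_of_sq a] using mul_mem (inv_mem (hD j hj)) (hD j' hj')
    have c2 : Commute z (j * j') := by
      have := congrArg (fun x => j * u⁻¹ * x * u * j') e
      simp only [mul_inv_rev, mul_assoc, inv_mul_cancel_left, inv_of_sq a, inv_of_sq a', sq_cancel a,
        inv_mul_cancel, mul_one, a'] at this
      simpa [Commute, SemiconjBy, mul_assoc] using this
    have c3 : j * (j * j') * j⁻¹ = (j * j')⁻¹ := by simp [inv_of_sq a, inv_of_sq a', sq_cancel a]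
    rcases Nat.even_or_odd (orderOf (z * j)) with o | o
    · obtain ⟨k, -, w1, w2, w3, w4⟩ := exists_central_of_even zz a o
      obtain ⟨h, hh, e1⟩ := hc _ (hC _ w3.symm) w2 w1
      rw [e1] at w4
      have := hC (h⁻¹ * j * h) (by simpa [mul_assoc] using (commute_conj_iff h⁻¹).2 w4)
      exact absurd ((mul_mem_cancel_left (inv_mem hh)).1 ((mul_mem_cancel_right hh).1 this)) b
    · obtain ⟨k, e1⟩ := conj_of_odd zz a o (pow_orderOf_eq_one _)
      have c4 : ∀ k : ℕ, (z * j) ^ k ∈ N[zpowers (j * j')] := fun k => pow_mem (mul_mem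
        (mem_normalizer_of_conj fun x hx => by
          rw [commute_iff_conj.1 (comm_zp c2 hx)]; exact hx)
        (mem_normalizer_of_conj (by
          rintro _ ⟨n, rfl⟩; rw [← conj_zpow, c3]; exact zpow_mem (inv_mem (mem_zpowers _)) n))) k
      have c5 := (mem_normalizer_iff''.1 (c4 k) _).1 (mem_zpowers _)
      have c6 := comm_zp c2 c5
      have c7 : Commute j (j * j') := (commute_conj_iff ((z * j) ^ k)⁻¹).1 (by rwa [inv_inv, e1])
      have c8 : j * j' = 1 := eq_one_of_odd_card hodd c1 (k := 1) (by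
        rw [commute_iff_conj.1 c7] at c3
        rw [pow_one, sq]; exact mul_eq_one_iff_eq_inv.2 c3)
      rw [← inv_of_sq a', eq_inv_iff_mul_eq_one.2 c8]
  have h5 : (I (H ⊓ cj[u] H)).ncard ≤ (I H).ncard :=
    Set.ncard_le_ncard fun x ⟨d, hd, e⟩ => ⟨d, hd.1, e⟩
  rw [ncard_cj] at h4 h5 h5
  rw [show m = (C1[z]).relIndex (H ⊓ cj[u] H) by omega]
  exact relIndex_dvd_card _ _

theorem pq_comm [Finite G] {D H : Subgroup G} (hD : D ≤ H) (ho : Odd (Nat.card D)) {p q : ℕ}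
    (hp : p.Prime) (hq : q.Prime) (hlt : p < q) (hn : ¬ p ∣ q - 1) (hd : p * q ∣ Nat.card D)
    (h1 : ¬ p ^ 2 ∣ Nat.card H) (h2 : ¬ q ^ 2 ∣ Nat.card H) :
    ∃ a ∈ H, ∃ b ∈ H, orderOf a = p ∧ orderOf b = q ∧ Commute a b := by
  obtain ⟨R, hR⟩ := exists_hall (M := D) {p, q} (PF.odd_order_solvable ho)
  have hRH := card_dvd_of_le (hR.le.trans hD)
  have h3 : Nat.card R = p * q := by
    have a := hR.dvd_card (n := p * q) (fun r hr e => by
      rcases (Nat.Prime.dvd_mul hr).1 e with e | e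
      · simp [(Nat.prime_dvd_prime_iff_eq hr hp).1 e]
      · simp [(Nat.prime_dvd_prime_iff_eq hr hq).1 e]) hd
    obtain ⟨c, hc⟩ := a
    by_cases c1 : c = 1
    · rw [hc, c1, mul_one]
    obtain ⟨r, hr, k, rfl⟩ := Nat.exists_prime_and_dvd c1
    rcases hR.isPi r hr (hc ▸ Dvd.intro_left (p * q * k) (by ring)) with rfl | rfl
    · exact absurd (Dvd.dvd.trans (hc ▸ Dvd.intro (q * k) (by ring)) hRH) h1
    · exact absurd (Dvd.dvd.trans (hc ▸ Dvd.intro (p * k) (by ring)) hRH) h2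
  haveI := Fact.mk hp
  haveI := Fact.mk hq
  obtain ⟨a, ha⟩ := exists_prime_orderOf_dvd_card' (G := R) p (h3 ▸ Dvd.intro _ rfl)
  obtain ⟨b, hb⟩ := exists_prime_orderOf_dvd_card' (G := R) q (h3 ▸ Dvd.intro_left _ rfl)
  have hB : Nat.card (zpowers b) = q := by rw [Nat.card_zpowers, hb]
  have hi : (zpowers b).index = p := by
    have := (zpowers b).index_mul_card
    rw [hB, h3] at this
    exact Nat.eq_of_mul_eq_mul_right hq.pos this
  haveI : (zpowers b).Normal := normal_of_index_eq_minFac_card (by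
    rw [hi, h3]
    refine le_antisymm ?_ (Nat.minFac_le_of_dvd hp.two_le (Dvd.intro _ rfl))
    have k := Nat.minFac_prime (n := p * q) (by have := hp.two_le; have := hq.two_le; nlinarith)
    rcases (Nat.Prime.dvd_mul k).1 (Nat.minFac_dvd _) with e | e
    · exact ((Nat.prime_dvd_prime_iff_eq k hp).1 e).ge
    · exact hlt.le.trans ((Nat.prime_dvd_prime_iff_eq k hq).1 e).ge)
  have h4 : MulAut.conjNormal (H := zpowers b) a = 1 := by
    have k1 := orderOf_map_dvd (MulAut.conjNormal (H := zpowers b)) a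
    have k2 := orderOf_dvd_natCard (MulAut.conjNormal (H := zpowers b) a)
    rw [IsCyclic.card_mulAut, hB, Nat.totient_prime hq] at k2
    rcases (Nat.dvd_prime hp).1 (ha ▸ k1) with e | e
    · exact orderOf_eq_one_iff.1 e
    · exact absurd (e ▸ k2) hn
  refine ⟨a, hD (hR.le a.2), b, hD (hR.le b.2), by rw [orderOf_coe, ha], by rw [orderOf_coe, hb],
    commute_iff_conj.2 ?_⟩
  exact congrArg (fun f : MulAut (zpowers b) => ((f ⟨b, mem_zpowers b⟩).1 : G)) h4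

/-- the involution `z` fixes only the coset `H` in `L / H` -/
structure UF (L H : Subgroup G) (z : G) : Prop where
  le : H ≤ L
  mem : z ∈ H
  sq : z * z = 1
  ne : z ≠ 1
  fix : ∀ g ∈ L, g⁻¹ * z * g ∈ H → g ∈ H

variable [Finite G] {L H S : Subgroup G} {z : G}

theorem UF.se (h : UF L H z) (hc : ∀ t ∈ H, t * t = 1 → t ≠ 1 → ∃ h ∈ H, t = h * z * h⁻¹) :
    L ≤ H ∨ ∃ D ≤ H, Odd (Nat.card D) ∧ (C1[z]).relIndex H ∣ Nat.card D := by
  by_cases e : H.subgroupOf L = ⊤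
  · exact Or.inl (subgroupOf_eq_top.1 e)
  obtain ⟨D, a, b, c⟩ := se_abs (H := H.subgroupOf L) (z := ⟨z, h.le h.mem⟩) (Subtype.ext h.sq) h.mem
    (fun g hg => h.fix g g.2 hg) (fun t ht t1 t2 =>
      let ⟨k, hk, e⟩ := hc t ht (congrArg Subtype.val t1) fun e => t2 (Subtype.ext e)
      ⟨⟨k, h.le hk⟩, hk, Subtype.ext e⟩) e
  refine Or.inr ⟨D.map L.subtype, by rintro _ ⟨x, hx, rfl⟩; exact a hx, ?_⟩
  rw [card_map_of_injective L.subtype_injective, ← relIndex_subgroupOf h.le]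
  rw [show (C1[z]).subgroupOf L = C1[(⟨z, h.le h.mem⟩ : L)] from Subgroup.ext fun x => by
    simp [mem_subgroupOf, mem_centralizer_singleton_iff, Subtype.ext_iff]]
  exact ⟨b, c⟩

theorem UF.odd (h : UF L H z) : ¬ 2 ∣ H.relIndex L := by
  let y : L := ⟨z, h.le h.mem⟩
  have hp : IsPGroup 2 (zpowers y) := IsPGroup.of_card (n := 1) (by
    rw [Nat.card_zpowers, orderOf_eq_two (Subtype.ext h.sq) fun e => h.ne (congrArg Subtype.val e)]; rfl)
  have := hp.card_modEq_card_fixedPoints (L ⧸ H.subgroupOf L)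
  rw [show fixedPoints (zpowers y) (L ⧸ H.subgroupOf L) = {((1 : L) : L ⧸ H.subgroupOf L)} from
    Set.ext ?_, Nat.card_coe_set_eq, Set.ncard_singleton] at this
  · intro e
    exact absurd ((Nat.modEq_zero_iff_dvd.2 e).symm.trans this) (by decide)
  · intro c
    obtain ⟨g, rfl⟩ := QuotientGroup.mk_surjective c
    constructor
    · intro a
      have := QuotientGroup.eq.1 (a ⟨y, mem_zpowers y⟩).symm
      exact QuotientGroup.eq.2 (by
        simpa using (show g ∈ H.subgroupOf L from h.fix g g.2 (by rw [mul_assoc]; exact this)))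
    · rintro a ⟨_, n, rfl⟩
      rw [Set.mem_singleton_iff.1 a]
      exact QuotientGroup.eq.2 (by
        simpa using (show y ^ n ∈ H.subgroupOf L from zpow_mem (show y ∈ _ from h.mem) n))

theorem UF.syl (h : UF L H z) (hS : IsPiHallOf {2} S H) : IsPiHallOf {2} S L :=
  syl_trans Nat.prime_two hS h.le h.odd

theorem UF.fus (h : UF L H z) (hS : IsPiHallOf {2} S H) (hz : z ∈ S) (hc : S ≤ C1[z]) {x g : G}
    {k : ℕ} (hx : x ∈ H) (hk : x ^ 2 ^ k = 1) (hg : g ∈ L) (hgx : g * x * g⁻¹ ∈ H) :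
    ∃ y ∈ H, y * x * y⁻¹ = g * x * g⁻¹ := by
  obtain ⟨P, rfl⟩ := exists_sylow_of_syl Nat.prime_two (h.syl hS)
  obtain ⟨y, hy, rfl⟩ := hz
  obtain ⟨w, hw, e⟩ := (S5438.result y ⟨orderOf_eq_two (Subtype.ext h.sq) fun e => h.ne (congrArg Subtype.val e),
    P, hy, fun x hx => Subtype.ext (mem_centralizer_singleton_iff.1 (hc ⟨x, hx, rfl⟩))⟩ (H.subgroupOf L) h.mem
    fun g hg => h.fix g g.2 hg).2 ⟨x, h.le hx⟩ hx (by
      obtain ⟨j, -, e⟩ := (Nat.dvd_prime_pow Nat.prime_two).1 (orderOf_dvd_of_pow_eq_one hk)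
      exact ⟨j, by rwa [orderOf_mk]⟩) ⟨g, hg⟩ hgx
  exact ⟨w, hw, congrArg Subtype.val e⟩

/-- descent to the derived groups -/
theorem UF.der (h : UF L H z) (hS : IsPiHallOf {2} S H) (hz : z ∈ S) (hc : S ≤ C1[z])
    (hz' : z ∈ ⁅H, H⁆) {k : ℕ} (hk : (⁅H, H⁆ : Subgroup G).relIndex H = 2 ^ k) :
    UF ⁅L, L⁆ ⁅H, H⁆ z ∧ IsPiHallOf {2} (S ⊓ ⁅H, H⁆) ⁅H, H⁆ ∧ (⁅L, L⁆ ≤ ⁅H, H⁆ → L ≤ H) := by
  have h1 : S ⊓ ⁅L, L⁆ ≤ ⁅H, H⁆ := focal_subgroup_le Nat.prime_two (h.syl hS) fun x hx u hu hux => by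
    obtain ⟨j, e⟩ := exists_pow_eq_one_of_isPGroup (syl_isPGroup Nat.prime_two hS) hx
    obtain ⟨y, hy, e'⟩ := h.fus hS hz hc (hS.le hx) e hu (hS.le hux)
    have : ⁅x, u⁆ = ⁅x, y⁆ := by
      rw [commutatorElement_def, commutatorElement_def, mul_assoc x, mul_assoc x, mul_assoc x y,
        mul_assoc x, ← conj_inv, ← conj_inv, e']
    exact this ▸ commutator_mem_commutator (hS.le hx) hy
  have h2 := syl_inf_normal Nat.prime_two (h.syl hS) (der1_le L) (self_le_norm_der1 L)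
  have h3 : ⁅H, H⁆ ≤ ⁅L, L⁆ := commutator_mono h.le h.le
  have h4 : H ⊓ ⁅L, L⁆ ≤ ⁅H, H⁆ := by
    rw [← relIndex_eq_one]
    have a : (⁅H, H⁆ : Subgroup G).relIndex (H ⊓ ⁅L, L⁆) ∣ 2 ^ k :=
      hk ▸ Dvd.intro _ (relIndex_mul_relIndex _ _ _ (le_inf (der1_le H) h3) inf_le_left)
    obtain ⟨j, -, e⟩ := (Nat.dvd_prime_pow Nat.prime_two).1 a
    have b := syl_not_dvd Nat.prime_two (syl_of_le h2 (le_inf (h1.trans (der1_le H)) inf_le_right) inf_le_right)
    cases j with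
    | zero => exact e
    | succ j => exact absurd ((Dvd.intro_left _ (pow_succ 2 j ▸ e.symm)).trans (relIndex_dvd_of_le_left _ h1)) b
  refine ⟨⟨h3, hz', h.sq, h.ne, fun g hg e => h4 ⟨h.fix g (der1_le L hg) (der1_le H e), hg⟩⟩,
    syl_inf_normal Nat.prime_two hS (der1_le H) (self_le_norm_der1 H), fun a g hg => h.fix g hg ?_⟩
  have := mul_mem (der1_le H (a (commutator_mem_commutator (inv_mem hg) (h.le h.mem)))) h.mem
  simpa [commutatorElement_def] using this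

end Cfsg.Agent.XL
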