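import Cfsg.Agent.XL.A1

/-! # Comparison of two involution centralizers up to a twist -/

set_option autoImplicit false

namespace Cfsg.Agent.XL

open Cfsg Cfsg.Agent.GT Cfsg.Agent.TT Cfsg.Agent.Cl.Orth Cfsg.Agent.TC Subgroup

variable {V : Type*} [AddCommGroup V] [Module (ZMod 2) V] {q : QuadraticForm (ZMod 2) V} {e f : V}

/-- twisted coordinates -/
def Dt.tw {G : Type*} [Group G] (A : Dt G V) (σ : OG q) : Dt G V := { A with π := σ.1 ∘ A.π }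

theorem XP.twist {G : Type*} [Group G] {A : Dt G V} (h : XP q e f A) {σ : OG q} (hσ : σ.1 e = e) :
    XP q e f (A.tw σ) :=
  ⟨(h.xc.twist σ).1, ⟨(h.xc.twist σ).1.toXQ, h.tr, (congrArg σ.1 h.xt.πs).trans hσ, h.xt.hyp⟩, h.card⟩

theorem evl_fst {G₀ G : Type*} [Group G₀] [Group G] (r : ℕ → G₀ × G) (l : List ℕ) :
    (evl (lt r) l).1 = evl (lt fun j => (r j).1) l :=
  (evl_map (MonoidHom.fst G₀ G) _ l).trans (congrArg (evl · l) (funext (lt_map _ r)))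

theorem evl_snd {G₀ G : Type*} [Group G₀] [Group G] (r : ℕ → G₀ × G) (l : List ℕ) :
    (evl (lt r) l).2 = evl (lt fun j => (r j).2) l :=
  (evl_map (MonoidHom.snd G₀ G) _ l).trans (congrArg (evl · l) (funext (lt_map _ r)))

theorem ac_evl {G : Type*} [Group G] {A : Dt G V} (h : XP q e f A) {v : ℕ → G} {R : ℕ → OG q} :
    ∀ {l : List ℕ}, (∀ i ∈ l, Ac A.Q A.z A.π (v i) (R i)) → Ac A.Q A.z A.π (evl v l) (evl R l)
  | [], _ => h.xq.ac_one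
  | i :: _, a => h.xq.ac_mul (ac_evl h fun j hj => a j (List.mem_cons_of_mem _ hj))
      (a i List.mem_cons_self)

theorem ac_lt {G : Type*} [Group G] {A : Dt G V} (h : XP q e f A) {c : ℕ → G} {R : ℕ → OG q} {n : ℕ}
    (hn : 2 ≤ n) (a : ∀ j < n, Ac A.Q A.z A.π (c j) (R j)) {i : ℕ} (hi : i < n) :
    Ac A.Q A.z A.π (lt c i) (lt R i) := by
  unfold lt; split_ifs
  exacts [a 1 (by omega), h.xq.ac_inv (a 1 (by omega)), a i hi]

theorem Lf.either {G₀ G : Type*} [Group G₀] [Group G] [Finite G₀] {A : Dt G₀ V} {B : Dt G V}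
    {Δ : Subgroup (G₀ × G)} (h : DG A B Δ) (hA : XP q e f A) (hB : XP q e f B) {n : ℕ} {p : ℕ → ℕ}
    {R : ℕ → OG q} (hR : CoxSys q n p R) {c : ℕ → G₀} (hc : ∀ j < n, Ac A.Q A.z A.π (c j) (R j))
    {r : ℕ → G₀ × G} (hr : Lf A B Δ n p c r) {w : List ℕ} (hw : ∀ i ∈ w, i < n)
    (h1 : evl (lt R) w = 1) : evl (lt r) w ∈ Δ ∨ evl (lt r) w * (1, B.z) ∈ Δ := by
  refine EE.one h hA hB (evl_mem fun i hi => ?_) ?_
  · unfold lt; split_ifs
    exacts [hr.mem 1 (by have := hR.two; omega), inv_mem (hr.mem 1 (by have := hR.two; omega)),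
      hr.mem i (hw i hi)]
  · rw [evl_fst, ← h1]
    exact ac_evl hA fun i hi => ac_lt hA hR.two (fun j hj => by rw [hr.fst j hj]; exact hc j hj)
      (hw i hi)

universe u v

theorem exists_KG_tw {G₀ : Type u} {G : Type v} [Group G₀] [Group G] [Finite G₀] [Finite G]
    {A : Dt G₀ V} {B : Dt G V} (hA : XP q e f A) (hB : XP q e f B)
    (hV : 3 ≤ Module.finrank (ZMod 2) V) {n : ℕ} {p : ℕ → ℕ} {R : ℕ → OG q} (hR : CoxSys q n p R)
    {w : List ℕ} (hw : ∀ i ∈ w, i < n) (h1 : evl (lt R) w = 1) {N : ℕ}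
    (hP : PB.{max u v} n civ (coxRel n p ++ [w]) N) (hP' : PB.{u} n civ (coxRel n p ++ [w]) N)
    (hN : N ≤ Nat.card (EG q)) {σ : OG q} (hσ : σ.1 e = e)
    (tw : ∀ Δ K, DG A (A.tw σ) Δ → ¬ KG A (A.tw σ) Δ K) :
    (∃ Δ K, DG A B Δ ∧ KG A B Δ K) ∨ ∃ Δ K, DG (A.tw σ) B Δ ∧ KG (A.tw σ) B Δ K := by
  have hA' := hA.twist hσ
  obtain ⟨Δ, h⟩ := exists_DG hA hB
  obtain ⟨Δ', h'⟩ := exists_DG hA hA'
  obtain ⟨c, c0, hc⟩ := hR.exists_c hA
  obtain ⟨r, hr⟩ := exists_Lf h hA hB hV hR c0 hc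
  obtain ⟨r', hr'⟩ := exists_Lf h' hA hA' hV hR c0 hc
  rcases hr.either h hA hB hR hc hw h1 with a | a
  · obtain ⟨K, hK⟩ := exists_KG h hA hB hR hc hr hP hN (by simpa using ⟨hw, a⟩)
    exact Or.inl ⟨Δ, K, h, hK⟩
  rcases hr'.either h' hA hA' hR hc hw h1 with a' | a'
  · obtain ⟨K, hK⟩ := exists_KG h' hA hA' hR hc hr' hP' hN (by simpa using ⟨hw, a'⟩)
    exact (tw _ _ h' hK).elim
  let Γ : Subgroup (G₀ × G) :=
    { carrier := {p | ∃ x, (x, p.1) ∈ Δ' ∧ (x, p.2) ∈ Δ}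
      one_mem' := ⟨1, one_mem _, one_mem _⟩
      mul_mem' := fun ⟨x, a, b⟩ ⟨y, c, d⟩ => ⟨x * y, mul_mem a c, mul_mem b d⟩
      inv_mem' := fun ⟨x, a, b⟩ => ⟨x⁻¹, inv_mem a, inv_mem b⟩ }
  have mk : ∀ {a : G₀ × G₀} {b : G₀ × G}, a ∈ Δ' → b ∈ Δ → a.1 = b.1 → (a.2, b.2) ∈ Γ :=
    fun {a b} h1 h2 h3 => ⟨a.1, h1, h3 ▸ h2⟩
  have hΓ : DG (A.tw σ) B Γ :=
    ⟨fun p ⟨x, a, b⟩ => ⟨(h'.mem _ a).2.1, (h.mem _ b).2.1,
        (h'.mem _ a).2.2.symm.trans (h.mem _ b).2.2⟩,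
      fun x hx => by
        obtain ⟨y, a⟩ := h'.snd hA hA' hx
        obtain ⟨y', b⟩ := h.fst y (h'.mem _ a).1
        exact ⟨y', y, a, b⟩,
      ⟨A.z, h'.zz, h.zz⟩, ⟨A.s, h'.ss, h.ss⟩, fun ⟨x, a, b⟩ => h.inj (by
        have : x = 1 := h'.uniq' hA hA' (one_mem _) a
        rwa [this] at b)⟩
  have e1 : ∀ j < n, (r' j).1 = (r j).1 := fun j hj => (hr'.fst j hj).trans (hr.fst j hj).symm
  have hL : Lf (A.tw σ) B Γ n p (fun j => (r' j).2) fun j => ((r' j).2, (r j).2) :=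
    ⟨by simp only [hr.zero, hr'.zero]; rfl, fun j hj => ⟨⟨(hr'.mem j hj).1.2, (hr.mem j hj).1.2⟩,
        mem_normalizer_of_conj_le (conj_le_iff_forall.2 fun p ⟨x, a, b⟩ =>
          mk (EE.conj (hr'.mem j hj) a) (EE.conj (hr.mem j hj) b) (by simp [e1 j hj]))⟩,
      fun _ _ => rfl, fun j hj i hi => mk (hr'.rel j hj i hi) (hr.rel j hj i hi)
        (by simp only [Prod.pow_fst, Prod.fst_mul, Prod.fst_inv, e1 j hj, e1 i (by omega)])⟩
  obtain ⟨K, hK⟩ := exists_KG hΓ hA' hB hR (fun j hj => EE.ac h' hA hA' (hr'.mem j hj)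
    (by rw [hr'.fst j hj]; exact hc j hj)) hL hP hN (by
      simp only [List.mem_singleton, forall_eq]
      refine ⟨hw, ?_⟩
      have k := mul_mem (mk a' a (by
        simp only [Prod.fst_mul, evl_fst]
        rw [evl_congr fun i hi => lt_congr hR.two e1 (hw i hi)])) hΓ.zz
      convert k using 1
      refine Prod.ext ?_ ?_
      · rw [evl_fst]
        change _ = (evl (lt r') w).2 * A.z * A.z
        rw [mul_assoc, hA.xq.zz, mul_one, evl_snd]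
      · rw [evl_snd]
        change _ = (evl (lt r) w).2 * B.z * B.z
        rw [mul_assoc, hB.xq.zz, mul_one, evl_snd])
  exact Or.inr ⟨Γ, K, hΓ, hK⟩

end Cfsg.Agent.XL
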