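import Cfsg.Agent.XL.Rel

/-! # Transport of graphs; the final identification -/

set_option autoImplicit false

namespace Cfsg.Agent.XL

open Cfsg Cfsg.Agent.GT Cfsg.Agent.TT Cfsg.Agent.TC Cfsg.Agent.M24 Subgroup MulAction

variable {X G X' : Type*} [Group X] [Group G] [Group X'] {K M T : Subgroup (X × G)} {p a b : X × G}
  {z0 s0 : X} {z : G}

theorem KZ.map_fst {y : X × G} (h : KZ K y) : K.map (MonoidHom.fst X G) = C1[y.1] :=
  le_antisymm (by rintro _ ⟨p, hp, rfl⟩; exact h.c1 hp) fun c hc => let ⟨_, a⟩ := h.fst c hc; ⟨_, a, rfl⟩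

theorem KZ.map_snd {y : X × G} (h : KZ K y) : K.map (MonoidHom.snd X G) = C1[y.2] :=
  le_antisymm (by rintro _ ⟨p, hp, rfl⟩; exact h.c2 hp) fun c hc => let ⟨_, a⟩ := h.snd c hc; ⟨_, a, rfl⟩

theorem KZ.card (h : KZ K (z0, z)) : Nat.card C1[z] = Nat.card C1[z0] := by
  rw [← show _ = C1[z0] from h.map_fst, ← show _ = C1[z] from h.map_snd, card_map_of fun p a => h.gr' p a, card_map_of fun p a => h.gr p a]

theorem KZ.ne (h : KZ K (z0, z)) (e : z0 ≠ 1) : z ≠ 1 := fun a =>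
  e (congrArg Prod.fst (h.gr' _ h.mem a))

theorem RH.le [Finite X] (h : RH z0 s0 z K M) (v : V4 z0 s0 a.1 b.1) (ha : a ∈ M ⊓ T) (hb : b ∈ M ⊓ T)
    (hK : K ≤ T) : M ≤ T := fun p hp => by
  obtain ⟨r, c, d⟩ := v.le (T := (M ⊓ T).map (MonoidHom.fst X G)) ⟨a, ha, rfl⟩ ⟨b, hb, rfl⟩
    (fun c hc => let ⟨_, o⟩ := h.kz.fst c hc.1; ⟨_, ⟨h.mem o (cent_le_norm_VV hc), hK o⟩, rfl⟩) (h.nn p hp)
  exact h.gn.ext c.1 hp d ▸ c.2

theorem norm_VV_map' (e : X' ≃* X) {z s c : X'} (h : c ∈ N[VV z s]) : e c ∈ N[VV (e z) (e s)] := by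
  have := le_normalizer_map e.toMonoidHom ⟨c, h, rfl⟩
  rwa [MonoidHom.map_closure, Set.image_pair] at this

theorem norm_VV_map (e : X' ≃* X) {z s c : X'} : e c ∈ N[VV (e z) (e s)] ↔ c ∈ N[VV z s] :=
  ⟨fun h => by simpa using norm_VV_map' e.symm h, norm_VV_map' e⟩

theorem RH.comap (e : X' ≃* X) {z0 s0 : X'} (h : RH (e z0) (e s0) z K M) :
    RH z0 s0 z (K.comap (e.toMonoidHom.prodMap (MonoidHom.id G)))
      (M.comap (e.toMonoidHom.prodMap (MonoidHom.id G))) := by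
  have c : ∀ {c}, e c ∈ C1[e z0] ↔ c ∈ C1[z0] := by
    simp only [mem_cent1, ← map_mul, e.injective.eq_iff, implies_true]
  have g : ∀ {K : Subgroup (X × G)}, Gr K → Gr (K.comap (e.toMonoidHom.prodMap (MonoidHom.id G))) :=
    fun h p hp a => Prod.ext a (congrArg Prod.snd (h _ hp (by simp [a])) :)
  refine ⟨⟨g h.kz.gr, fun p hp a => Prod.ext (e.injective ((congrArg Prod.fst (h.kz.gr' _ hp a)).trans
      (map_one e).symm)) a, fun u hu => h.kz.fst _ (c.2 hu), fun d hd => ?_,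
      fun p hp => mem_cent1.2 (Prod.ext (mem_cent1.1 (c.1 (h.kz.c1 hp))) (mem_cent1.1 (h.kz.c2 hp) :)),
      h.kz.mem⟩, g h.gn, fun u hu => h.nf _ ((norm_VV_map e).2 hu), fun p hp => (norm_VV_map e).1 (h.nn _ hp),
    fun p hp a => h.cp _ hp (c.2 a)⟩
  obtain ⟨u, a⟩ := h.kz.snd d hd
  exact ⟨e.symm u, by simpa using a⟩

theorem RH.transport (e : X' ≃* X) {z0 s0 : X'} (h : RH (e z0) (e s0) z K M)
    (H : ∀ K M, RH z0 s0 z K M → ∃ φ : X' ≃* G, ∀ p ∈ K ⊔ M, φ p.1 = p.2) :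
    ∃ φ : X ≃* G, ∀ p ∈ K ⊔ M, φ p.1 = p.2 := by
  obtain ⟨φ, a⟩ := H _ _ (h.comap e)
  refine ⟨e.symm.trans φ, fun p hp => a (e.symm p.1, p.2) ?_⟩
  rw [comap_sup_eq _ _ _ (e.surjective.prodMap Function.surjective_id)]
  simpa using hp

/-- two classes of involutions whose centralizers lie in `H` -/
theorem eq_top_of_two [Finite G] {H : Subgroup G} {t : G} (zz : z * z = 1) (tt : t * t = 1) (z1 : z ≠ 1)
    (hz : C1[z] ≤ H) (ht : C1[t] ≤ H) (n : ¬ IsConj z t)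
    (hc : ∀ x ∈ H, x * x = 1 → x ≠ 1 → ∃ h ∈ H, x = h * z * h⁻¹ ∨ x = h * t * h⁻¹) : H = ⊤ := by
  have k : ∀ x ∈ H, x * x = 1 → x ≠ 1 → C1[x] ≤ H := fun x a b c => by
    obtain ⟨h, d, rfl | rfl⟩ := hc x a b c
    exacts [conj_cent1 h z ▸ conj_le_of_mem d hz, conj_cent1 h t ▸ conj_le_of_mem d ht]
  refine eq_top_iff.2 fun g _ => ?_
  have g2 := conj_mul_self g zz
  have a : g * z * g⁻¹ ∈ H := by
    rcases Nat.even_or_odd (orderOf (t * (g * z * g⁻¹))) with o | o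
    · obtain ⟨j, -, w1, w2, w3, w4⟩ := exists_central_of_even tt g2 o
      exact k _ (ht (mem_cent1.2 w3.symm)) w2 w1 (mem_cent1.2 w4)
    · obtain ⟨j, e⟩ := conj_of_odd tt g2 o (pow_orderOf_eq_one _)
      generalize (t * (g * z * g⁻¹)) ^ j = u at e
      exact absurd (isConj_iff.2 ⟨u⁻¹ * g, by rw [← e]; group⟩) n
  obtain ⟨h, d, e | e⟩ := hc _ a g2 (by simpa using z1)
  · exact (mul_mem_cancel_left (inv_mem d)).1 (hz (mem_cent1.2 (by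
      rw [mul_assoc, mul_inv_eq_iff_eq_mul.1 e]; group)))
  · refine absurd (isConj_iff.2 ⟨h⁻¹ * g, ?_⟩) n
    rw [show h⁻¹ * g * z * (h⁻¹ * g)⁻¹ = h⁻¹ * (g * z * g⁻¹) * h by group, e]; group

theorem KZ.range (h : KZ K (z0, z)) {φ : X →* G} (e : ∀ p ∈ K ⊔ T, φ p.1 = p.2) :
    φ z0 = z ∧ C1[φ z0] ≤ φ.range :=
  have a : φ z0 = z := e _ (mem_sup_left h.mem)
  ⟨a, fun d hd => let ⟨c, b⟩ := h.snd d (a ▸ hd); ⟨c, e _ (mem_sup_left b)⟩⟩

theorem map_cent1 {φ : X →* G} (hi : Function.Injective φ) {x : X} (h : C1[φ x] ≤ φ.range) :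
    (C1[x]).map φ = C1[φ x] := le_antisymm (by
  rintro _ ⟨c, hc, rfl⟩; exact mem_cent1.2 (by rw [← map_mul, mem_cent1.1 hc, map_mul])) fun d hd =>
  let ⟨c, e⟩ := h hd
  ⟨c, mem_cent1.2 (hi (by rw [map_mul, map_mul, e]; exact mem_cent1.1 hd)), e⟩

theorem surj_of_one [Finite X] [Finite G] {φ : X →* G} (hi : Function.Injective φ) (zz : z0 * z0 = 1)
    (z1 : z0 ≠ 1) (h3 : C1[φ z0] ≤ φ.range) (hc : ∀ x, x * x = 1 → x ≠ 1 → ∃ g, x = g * z0 * g⁻¹)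
    {p q : ℕ} (hp : p.Prime) (hq : q.Prime) (hlt : p < q) (hn : ¬ p ∣ q - 1) (hd : p * q ∣ (C1[z0]).index)
    (h1 : ¬ p ^ 2 ∣ Nat.card X) (h2 : ¬ q ^ 2 ∣ Nat.card X)
    (no : ∀ a b : X, orderOf a = p → orderOf b = q → ¬ Commute a b) : Function.Surjective φ := by
  have z2 : φ z0 * φ z0 = 1 := by rw [← map_mul, zz, map_one]
  have z3 : φ z0 ≠ 1 := fun e => z1 (hi (e.trans (map_one φ).symm))
  have h4 : ∀ t ∈ φ.range, t * t = 1 → t ≠ 1 → ∃ y ∈ φ.range, t = y * φ z0 * y⁻¹ := by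
    rintro _ ⟨t, rfl⟩ a b
    obtain ⟨y, e⟩ := hc t (hi (by rw [map_mul, a, map_one])) fun e => b (by rw [e, map_one])
    exact ⟨φ y, ⟨y, rfl⟩, by rw [e, map_mul, map_mul, map_inv]⟩
  have h5 : Nat.card φ.range = Nat.card X := (Nat.card_congr (φ.ofInjective hi).toEquiv).symm
  have u : UF ⊤ φ.range (φ z0) := ⟨le_top, ⟨_, rfl⟩, z2, z3, fun y _ hy => by
    obtain ⟨k, hk, e⟩ := h4 _ hy (by simpa using conj_mul_self y⁻¹ z2)
      (fun e => z3 (by simpa [mul_assoc] using congrArg (fun x => y * x * y⁻¹) e))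
    exact (mul_mem_cancel_right hk).1 (h3 (mem_cent1.2 (by
      rw [mul_assoc, ← inv_mul_cancel_right (k * φ z0) k, ← e]; group)))⟩
  refine (u.se h4).elim (fun e y => e (mem_top y)) fun ⟨D, a, b, c⟩ => ?_
  rw [← map_cent1 hi h3, MonoidHom.range_eq_map, relIndex_map_map_of_injective _ _ hi, relIndex_top_right] at c
  obtain ⟨_, ⟨x, rfl⟩, _, ⟨y, rfl⟩, d1, d2, d3⟩ := pq_comm a b hp hq hlt hn (hd.trans c) (h5 ▸ h1) (h5 ▸ h2)
  rw [orderOf_injective φ hi] at d1 d2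
  exact absurd (hi (by rw [map_mul, map_mul, d3.eq])) (no x y d1 d2)

end Cfsg.Agent.XL
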