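import Cfsg.Agent.XL.U4s
import Cfsg.Agent.XL.Rel2

/-! # Groups of type `U₄(3)`: relative form -/

set_option autoImplicit false
set_option maxRecDepth 100000

namespace Cfsg.Agent.XL.U4

open Cfsg Cfsg.Agent.GT Cfsg.Agent.TT Cfsg.Agent.TC Cfsg.Agent.M24 Cfsg.Agent.Leech Subgroup MulAction
open scoped Pointwise

variable {G : Type*} [Group G] [Finite G] {v : ℕ → X0 × G} {K M : Subgroup (X0 × G)} {z : G}

theorem v4 : V4 (m 0) (m 1) (m 6) (m 7) := by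
  have k : ∀ {a b c d : ℕ}, eq [b, a] [a, d, c] = true → m a * m b * (m a)⁻¹ = m c * m d := fun e =>
    mul_inv_eq_iff_eq_mul.2 (by simpa [evl, mul_assoc] using md.eq e)
  have k' : ∀ {a b : ℕ}, cb [a] [b] = true → Commute (m a) (m b) := fun e => by
    simpa [evl] using ((md.cm_iff num).1 e).2
  exact ⟨lt0.zz, gz ▸ conj_mul_self _ lt0.zz, k' (by decide +kernel), lt0.ne, fun e => lt0.ne (conj_eq_one_iff.1 (gz.trans e)),
    gz ▸ lt0.sne, commute_iff_conj.1 (k' (by decide +kernel)), k (by decide +kernel), k (by decide +kernel),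
    commute_iff_conj.1 (k' (by decide +kernel))⟩

theorem nl_norm : ∀ i ∈ Nl, i < 12 ∧ m i ∈ N[VV (m 0) (m 1)] := fun i hi => ⟨by revert i; decide, by
  have := md.norms (ls := Nl) (ls0 := [0, 1]) (ws := [[0], [1], [0, 1]]) (by decide +kernel) (Mb.of hi)
  rwa [Mb, show m '' {i | i ∈ [0, 1]} = {m 0, m 1} by simp [← Set.image_pair]; rfl] at this⟩

theorem card_C : Nat.card C1[m 0] = 1152 := by rw [K_top.1, card_K]

theorem St.ga (s : St v K z) : Gr (Mb v Al) := by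
  have hc : Nat.card C1[z] = 1152 := s.kz.card.trans card_C
  have z1 : z ≠ 1 := s.kz.ne lt0.ne
  obtain ⟨a, -⟩ := s.am.step md U4c3.cert rfl (by simp [s.gk, s.gn, s.g1, s.g2])
    (List.forall_mem_singleton.2 (s.J hc z1)) s.gk s3 (finEnc 126).mask_inj actS mask_Fz oF
  exact a

theorem idx_K : 5 * 7 ∣ (C1[m 0]).index := by
  have i := (C1[m 0]).index_mul_card
  rw [K_top.1, card_K, card_X, ← K_top.1] at i
  omega

theorem St.iso (s : St v K z) : ∃ φ : X0 ≃* G, ∀ p ∈ K ⊔ Mb v Al, φ p.1 = p.2 := by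
  obtain ⟨φ, h1, h6⟩ := s.kz.exists_hom' s.am (ls := Al) (ls0 := Kl) (by decide) s.ga K_top.2
    (fun i hi => ⟨by revert i; decide, s.le (Mb.of hi)⟩) K_top.1.le lt0.zz gz v4.bz
  exact ⟨MulEquiv.ofBijective φ ⟨h1, surj_of_one h1 lt0.zz lt0.ne (s.kz.range h6).2 (fun _ => cls) (p := 5) (q := 7)
    (by norm_num) (by norm_num) (by norm_num) (by norm_num) idx_K (by rw [card_X]; norm_num)
    (by rw [card_X]; norm_num) fun _ _ => no35⟩, h6⟩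

theorem rel0 (h : RH (m 0) (m 1) z K M) : ∃ φ : X0 ≃* G, ∀ p ∈ K ⊔ M, φ p.1 = p.2 := by
  obtain ⟨v, a, b, c⟩ := h.start (j := 7) v4.nb
    (by simpa [evl] using md.eq (w := [7, 7]) (w' := []) (by decide +kernel)) inv_ok
  have n : ∀ i ∈ Nl, v i ∈ M := fun i hi => c i (nl_norm i hi).1 (nl_norm i hi).2
  obtain ⟨φ, e⟩ := St.iso ⟨a, h.kz, Mb.le fun i hi => b i (by revert i; decide) (by revert i; decide),
    h.gn.mono (Mb.le n)⟩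
  refine ⟨φ, fun p hp => e p (sup_le le_sup_left (h.le (a := v 6) (b := v 7) ?_ ⟨n 6 (by decide), ?_⟩
    ⟨n 7 (by decide), ?_⟩ le_sup_left) hp)⟩
  · rw [a.fst 6 (by norm_num), a.fst 7 (by norm_num)]; exact v4
  exacts [mem_sup_right (Mb.of (by decide)), mem_sup_right (Mb.of (by decide))]

theorem start4' {X : Type*} [Group X] [Finite X] {Q0 : Subgroup X} {z0 g0 : X} (h0 : LT Q0 z0 g0 2 36)
    (ht0 : ∀ x ∈ Q0, x ∈ cj[g0] Q0 → x ∈ VV z0 (g0 * z0 * g0⁻¹)) {Q : Subgroup G} {g : G}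
    (h : LT Q z g 2 36) (ht : ∀ x ∈ Q, x ∈ cj[g] Q → x ∈ VV z (g * z * g⁻¹)) :
    ∃ A B Δ K, KH (qP 2) (vP 2 1) (vP 2 4) A B Δ K ∧ A.z = z0 ∧ A.s = g0 * z0 * g0⁻¹ ∧ A.Q = Q0 ∧
      A.S = cj[g0] Q0 ∧ B.z = z ∧ B.s = g * z * g⁻¹ := by
  obtain ⟨π, hB⟩ := h.xp4 ht
  obtain ⟨π0, hA⟩ := h0.xp4 ht0
  obtain ⟨Δ, K, hK⟩ := exists_KH4 hA hB
  exact ⟨_, _, Δ, K, hK, rfl, rfl, rfl, rfl, rfl, rfl⟩

theorem iso' {Q : Subgroup G} {g : G} (h : LT Q z g 2 36)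
    (ht : ∀ x ∈ Q, x ∈ cj[g] Q → x ∈ VV z (g * z * g⁻¹)) :
    ∃ φ : X0 ≃* G, φ (m 0) = z ∧ φ (m 1) = g * z * g⁻¹ := by
  obtain ⟨A, B, Δ, K, hK, e1, e2, e3, e4, rfl, e5⟩ := start4' lt0 ht0 h ht
  obtain ⟨v, h1, h2, h3⟩ := hK.start e1 (e2.trans gz) e3 e4 (i0 := 6)
    (by norm_num) (Mb.of (by decide)) (mul_inv_eq_iff_eq_mul.1 v4.as)
    (ev1 7 ▸ mem_S (by decide +kernel)) (mul_inv_eq_iff_eq_mul.1 v4.bz) inv_ok nl_ok
  obtain ⟨φ, e⟩ := St.iso ⟨h1, e1 ▸ hK.kz, Mb.le fun i hi => h2 i (by revert i; decide) (by revert i; decide), h3⟩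
  exact ⟨φ, e1 ▸ e _ (mem_sup_left hK.kz.mem), by
    rw [← gz, ← e2, ← e5]; exact e _ (mem_sup_left (hK.kg.dg hK.dg.ss))⟩

theorem rel {X : Type*} [Group X] [Finite X] {Q : Subgroup X} {z0 g : X} (h : LT Q z0 g 2 36)
    (ht : ∀ x ∈ Q, x ∈ cj[g] Q → x ∈ VV z0 (g * z0 * g⁻¹)) {K M : Subgroup (X × G)}
    (r : RH z0 (g * z0 * g⁻¹) z K M) : ∃ φ : X ≃* G, ∀ p ∈ K ⊔ M, φ p.1 = p.2 := by
  obtain ⟨e, a, b⟩ := iso' h ht
  rw [← b, ← a] at r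
  exact r.transport e fun _ _ => rel0

end Cfsg.Agent.XL.U4
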