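import Cfsg.Agent.XL.Fac
import Cfsg.Agent.XL.U4r

/-! # Consequences of the descent -/

set_option autoImplicit false

namespace Cfsg.Agent.XL

open Cfsg Cfsg.Agent.GT Cfsg.Agent.TT Cfsg.Agent.TC Cfsg.Agent.M24 Subgroup MulAction

variable {X G X' G' : Type*} [Group X] [Group G] [Group X'] [Group G'] {K M A B : Subgroup (X × G)}
  {z0 g y0 : X} {z y : G} {R : Subgroup X} {w N : ℕ} {p : X × G}

theorem KZ.ord {u : X × G} (h : KZ K u) (hp : p ∈ K) : orderOf p.2 = orderOf p.1 :=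
  orderOf_eq_orderOf_iff.2 fun n => ⟨fun e => congrArg Prod.fst (h.gr' _ (pow_mem hp n) e),
    fun e => congrArg Prod.snd (h.gr _ (pow_mem hp n) e)⟩

theorem RH.desc' [Finite X] (h : RH z0 (g * z0 * g⁻¹) z K M) (d : Dsc R z0 g y0 w N) (hy : (y0, y) ∈ K)
    {π0 : C1[y0] →* X'} {π : C1[y] →* G'} (h0 : Qt y0 π0) (h1 : Qt y π) : ∃ a : C1[y], a = z ∧
      RH (π0 ⟨z0, d.le d.es.mem⟩) (π0 ⟨g, d.gy⟩ * π0 ⟨z0, d.le d.es.mem⟩ * (π0 ⟨g, d.gy⟩)⁻¹) (π a)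
        (im (qq π0 π) K) (im (qq π0 π) M) := by
  refine ⟨⟨z, mem_cent1.2 (mem_cent1.1 (h.kz.c2 hy)).symm⟩, rfl, ?_⟩
  rw [← map_inv, ← map_mul, ← map_mul]
  exact h.desc hy h0 h1 rfl rfl rfl d.es.zz (conj_mul_self _ d.es.zz) (d.es.zc _ d.sQ)

theorem RH.ker4 [Finite X] [Finite G] (h : RH z0 (g * z0 * g⁻¹) z K M) (d : Dsc R z0 g y0 2 36)
    (ht : ∀ x ∈ R, x ∈ cj[g] R → x ∈ VV z0 (g * z0 * g⁻¹)) (hy : (y0, y) ∈ K) (ho : Odd (orderOf y0)) :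
    ∀ p ∈ GY K M y0 y, p.1 = 1 → p.2 ∈ zpowers y := by
  have h0 := exists_Qt ho
  have h1 := exists_Qt (y := y) ((h.kz.ord hy :).symm ▸ ho)
  obtain ⟨a, -, r⟩ := h.desc' d hy h0 h1
  obtain ⟨ψ, e⟩ := U4.rel (d.lt h0) (d.ht h0 ht) r
  exact fun p => GY.ker h1 (φ := ψ.toMonoidHom) e

theorem GY.le : GY K M y0 y ≤ C1[y0].prod C1[y] := sup_le inf_le_right inf_le_right

theorem mem_zp_of_prime [Finite X] {a c : X} (hp : (orderOf a).Prime) (hc : c ∈ zpowers a) (h1 : c ≠ 1) :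
    a ∈ zpowers c :=
  (eq_of_le_of_card_ge (zpowers_le.2 hc) (by
    rw [Nat.card_zpowers, Nat.card_zpowers, ((Nat.dvd_prime hp).1 (orderOf_dvd_of_mem_zpowers hc)).resolve_left
      (by simpa using h1)])).ge (mem_zpowers a)

theorem KZ.gr_of_ker [Finite X] {u b : X × G} (h : KZ K u) (hy : (y0, y) ∈ K) (hp : (orderOf y0).Prime)
    (ker : ∀ p ∈ A, p.1 = 1 → p.2 ∈ zpowers y) (hB : B ≤ K) (hn : A ≤ N[B]) (hb : b ∈ B)
    (nc : ¬ Commute b.1 y0) : Gr A := fun p a e => by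
  obtain ⟨n, c⟩ := ker p a e
  have k : (y0, y) ^ n ∈ K := zpow_mem hy n
  have c1 := h.gr.ext (hB (conj_mem_of_mem_norm (hn a) hb)) (hB hb) (by simp [e])
  have c2 := h.comm' (hB hb) k (by
    have := congrArg Prod.snd (mul_inv_eq_iff_eq_mul.1 c1)
    rw [show ((y0, y) ^ n).2 = p.2 from c]; exact this.symm)
  refine Prod.ext e (c.symm.trans (congrArg Prod.snd (h.gr _ k (by_contra fun o => nc ?_))))
  exact comm_zp (congrArg Prod.fst c2.eq :) (mem_zp_of_prime hp ⟨n, rfl⟩ o)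

end Cfsg.Agent.XL
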