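import Cfsg.Agent.XL.Tri
import Cfsg.Agent.GT.CoprimeGen
import Cfsg.Agent.GT.Transfer
import Cfsg.Agent.M24.Tools

/-! # A 3-local argument -/

set_option autoImplicit false

namespace Cfsg.Agent.XL

open Cfsg Cfsg.Agent.GT Cfsg.Agent.TT Cfsg.Agent.M24 Subgroup

variable {G : Type*} [Group G] {z w x : G}

theorem mem_VV (hz : z * z = 1) (hw : w * w = 1) (h : Commute z w) :
    x ∈ VV z w ↔ x = 1 ∨ x = z ∨ x = w ∨ x = w * z := by
  have a : z ∈ VV z w := subset_closure (by simp)
  have b : w ∈ VV z w := subset_closure (by simp)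
  refine ⟨fun hx => ?_, by rintro (rfl | rfl | rfl | rfl); exacts [one_mem _, a, b, mul_mem b a]⟩
  have k : ∀ y, y = z ∨ y = w → ∀ x, (x = 1 ∨ x = z ∨ x = w ∨ x = w * z) →
      y * x = 1 ∨ y * x = z ∨ y * x = w ∨ y * x = w * z := by
    rintro y (rfl | rfl) x (rfl | rfl | rfl | rfl) <;> simp [← mul_assoc, hz, hw, h.eq]
    simp [mul_assoc, hz]
  induction hx using closure_induction_left with
  | one => simp
  | mul_left y hy g _ ih => exact k y hy g ih
  | inv_mul_cancel y hy g _ ih =>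
    rcases hy with rfl | rfl
    · rw [inv_of_sq hz]; exact k _ (Or.inl rfl) g ih
    · rw [inv_of_sq hw]; exact k _ (Or.inr rfl) g ih

theorem VV_sq (hz : z * z = 1) (hw : w * w = 1) (h : Commute z w) (hx : x ∈ VV z w) : x * x = 1 := by
  rcases (mem_VV hz hw h).1 hx with rfl | rfl | rfl | rfl
  exacts [one_mul _, hz, hw, mul_self_of_commute hw hz h.symm]

theorem VV_pgroup (hz : z * z = 1) (hw : w * w = 1) (h : Commute z w) : IsPGroup 2 (VV z w) :=
  isPGroup_of_forall fun _ hx => ⟨1, by rw [pow_one, sq]; exact VV_sq hz hw h hx⟩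

theorem VV_comm' (h : Commute z w) : IsMulCommutative (VV z w) :=
  ⟨⟨fun a b => Subtype.ext (by
    have : closure {z, w} ≤ centralizer (closure ({z, w} : Set G) : Set G) := by
      rw [centralizer_closure, closure_le]
      rintro _ (rfl | rfl) _ (rfl | rfl)
      exacts [rfl, h.symm, h, rfl]
    exact this b.2 a a.2)⟩⟩

theorem VV_nc (hz : z * z = 1) (hw : w * w = 1) (h : Commute z w) (z1 : z ≠ 1) (w1 : w ≠ 1)
    (ne : w ≠ z) : ¬ IsCyclic (VV z w) := fun ⟨⟨g, hg⟩⟩ => by
  have k : ∀ x ∈ VV z w, x = 1 ∨ x = g := fun x hx => by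
    obtain ⟨n, e⟩ := hg ⟨x, hx⟩
    exact (mem_zpowers_of_sq (VV_sq hz hw h g.2)).1 ⟨n, congrArg Subtype.val e⟩
  exact ne (((k w (subset_closure (by simp))).resolve_left w1).trans
    ((k z (subset_closure (by simp))).resolve_left z1).symm)

theorem eq_of_nine [Finite G] {A B C : Subgroup G} (hA : Nat.card A = 3) (h1 : A < B) (h2 : B ≤ C)
    (hC : Nat.card C = 9) : B = C := by
  have a := card_dvd_of_le h2
  have b := card_lt_of_lt h1
  refine eq_of_le_of_card_ge h2 ?_
  rw [hC] at a ⊢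
  have := Nat.le_of_dvd (by norm_num) a
  generalize Nat.card B = n at *
  interval_cases n <;> omega

theorem loc3 [Finite G] {E : Subgroup G} {d g u t : G} (zz : z * z = 1) (z1 : z ≠ 1)
    (hE : Nat.card E = 9) (hEa : E ≤ C[E]) (hd : d ∈ E) (d3 : orderOf d = 3) (zE : E ≤ C1[z])
    (hS : IsPiHallOf {3} E C1[z]) (h1 : ∀ c ∈ C1[z], c ∈ C[E] → c ∈ E ∨ c * z ∈ E)
    (h2 : ∀ c ∈ C1[z], Commute c d → Odd (orderOf c) → c ∈ E)
    (h7 : ∀ n ∈ C1[z], n ∈ N[E] → n * n ∈ C[E]) (gd : Commute g d) (g3 : g ^ 3 = 1)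
    (wz : Commute z (g * z * g⁻¹)) (wne : g * z * g⁻¹ ≠ z) (wE : g * z * g⁻¹ ∈ N[E]) (tE : t ∈ N[E])
    (tw : t * (g * z * g⁻¹) * t⁻¹ = g * z * g⁻¹ * z) (ud : u * d * u⁻¹ = g) (ug : u * g * u⁻¹ = d⁻¹) :
    cj[g] E ≤ C[E] := by
  have zC : z ∈ C[E] := mem_cent_iff_le_cent1.2 zE
  have hEo : Odd (Nat.card E) := by rw [hE]; decide
  have nz : N[zpowers z] ≤ C1[z] := fun n hn =>
    mem_cent1.2 (mul_inv_eq_iff_eq_mul.1 (((mem_zpowers_of_sq zz).1
      (conj_mem_of_mem_norm hn (mem_zpowers z))).resolve_left (by simpa using z1)))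
  have hp : IsPGroup 2 (zpowers z) := isPGroup_of_card_eq_prime (card_zpowers_two zz z1)
  have hZ : IsPiHallOf {2} (zpowers z) C[E] := syl_of_syl_norm Nat.prime_two
    (syl_of_maximal Nat.prime_two hp (le_inf (zpowers_le.2 zC) le_normalizer) fun Q hQ a b =>
      le_antisymm (fun x hx => (mem_zpowers_of_sq zz).2 (by
        have k : ∀ y ∈ Q, y ∈ E → y = 1 := fun y hy hy' =>
          mem_bot.1 (inf_eq_bot_of_odd hEo hQ ▸ (⟨hy', hy⟩ : y ∈ E ⊓ Q))
        exact (h1 x (nz (b hx).2) (b hx).1).imp (k x hx) fun e => by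
          rw [← inv_of_sq zz, eq_inv_iff_mul_eq_one.2 (k _ (mul_mem hx (a (mem_zpowers z))) e)])) a)
  have hB := Burnside_normal_complement Nat.prime_two hZ fun x hx => by
    rintro _ ⟨n, rfl⟩; exact ((show Commute x z from mem_cent1.1 (nz hx.2)).zpow_right n).symm
  set O := piCoreOf {2}ᶜ C[E]
  have hOo : Odd (Nat.card O) := Nat.not_even_iff_odd.1 fun e =>
    piCoreOf_isPi {2}ᶜ C[E] 2 Nat.prime_two (even_iff_two_dvd.1 e) rfl
  have hd3 : Nat.card (zpowers d) = 3 := by rw [Nat.card_zpowers, d3]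
  by_cases hO : O ≤ E
  · exfalso
    have k1 : N[E] ≤ C1[z] := fun n hn => by
      obtain ⟨a, ha, b, hb, e⟩ := hB.exists_mul (conj_mem_of_mem_norm (norm_le_norm_cent E hn) zC)
      have e2 := conj_mul_self n zz
      rcases (mem_zpowers_of_sq zz).1 hb with rfl | rfl
      · rw [mul_one] at e
        have := eq_one_of_odd_card hOo ha (k := 1) (by rw [pow_one, sq, ← e, e2])
        exact absurd (by simpa [this] using e) z1
      · have := eq_one_of_odd_card hOo ha (k := 1) (by
          rw [e, mul_assoc, ← mul_assoc b, ← mem_cent1.1 (zE (hO ha)), mul_assoc a b, zz, mul_one] at e2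
          rw [pow_one, sq, e2])
        rw [this, one_mul] at e
        exact mem_cent1.2 (mul_inv_eq_iff_eq_mul.1 e)
    have k2 : IsPGroup 3 (VV d g) := by
      haveI := VV_comm' gd.symm
      refine isPGroup_of_forall fun x hx => ⟨1, ?_⟩
      induction hx using closure_induction with
      | mem x hx => rcases hx with rfl | rfl; exacts [by rw [pow_one, ← d3, pow_orderOf_eq_one], g3]
      | one => simp
      | mul x y hx hy a b =>
        rw [(show Commute x y from congrArg Subtype.val (mul_comm' (⟨x, hx⟩ : VV d g) ⟨y, hy⟩)).mul_pow,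
          a, b, one_mul]
      | inv x _ a => rw [inv_pow, a, inv_one]
    have dP : d ∈ VV d g := subset_closure (by simp)
    have gP : g ∈ VV d g := subset_closure (by simp)
    obtain ⟨x, -, hx⟩ := syl_exists_conj_le Nat.prime_three (syl_top_of_norm_le Nat.prime_three hS k1)
      k2 le_top
    have k3 : cj[x] (VV d g) = E := eq_of_nine (A := cj[x] (zpowers d)) (by rw [card_conj, hd3])
      (conj_lt_conj_iff.2 (lt_of_le_of_ne (zpowers_le.2 dP) fun e => wne (commute_iff_conj.1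
        (mem_cent1.1 (zE ((zpowers_le.2 hd) (e ▸ gP))))))) hx hE
    have k4 : u ∈ N[VV d g] := mem_normalizer_of_conj fun y hy => by
      have : VV d g ≤ (VV d g).comap (MulAut.conj u).toMonoidHom := (closure_le _).2 (by
        rintro _ (rfl | rfl)
        · exact (show u * _ * u⁻¹ ∈ VV _ g from ud ▸ gP)
        · exact (show u * _ * u⁻¹ ∈ VV d _ from ug ▸ inv_mem dP))
      exact this hy
    have k5 : x * u * x⁻¹ ∈ N[E] := k3 ▸ conj_normalizer x (VV d g) ▸ conj_mem_conj.2 k4
    have k6 := h7 _ (k1 k5) k5 _ (k3 ▸ conj_mem_conj.2 dP : x * d * x⁻¹ ∈ E)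
    have k7 : Commute (u * u) d := (commute_conj_iff x).1 (by
      simpa [Commute, SemiconjBy, mul_assoc] using k6.symm)
    have k8 : d⁻¹ = d := by rw [← ug, ← ud]; nth_rw 2 [← commute_iff_conj.1 k7]; group
    have := orderOf_dvd_of_pow_eq_one (show d ^ 2 = 1 by rw [sq]; nth_rw 1 [← k8]; simp)
    rw [d3] at this
    exact absurd this (by decide)
  · have ww := conj_mul_self g zz
    have nO : N[E] ≤ N[O] := (norm_le_norm_cent E).trans (norm_le_norm_piCoreOf _ _)
    have od : ∀ x ∈ O, Odd (orderOf x) := fun x hx => hOo.of_dvd_nat (orderOf_dvd_natCard _ hx)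
    obtain ⟨a, ha, a1, hn⟩ := coprime_abelian_exists_cent1 (VV_comm' wz)
      (VV_nc zz ww wz z1 (by simpa using z1) wne) (H := O)
      ((closure_le _).2 (by rintro _ (rfl | rfl); exacts [nO (cent_le_norm _ zC), nO wE]))
      (by
        obtain ⟨n, e⟩ := (VV_pgroup zz ww wz).exists_card_eq
        rw [e]; exact (Nat.coprime_two_right.2 hOo).pow_right n) hO
    have k1 : ¬ O ⊓ C1[g * z * g⁻¹] ≤ E := by
      rcases (mem_VV zz ww wz).1 ha with rfl | rfl | rfl | rfl
      · exact absurd rfl a1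
      · exact absurd (fun x hx => h2 x hx.2 (hB.left_le hx.1 d hd).symm (od x hx.1)) hn
      · exact hn
      · refine fun e => hn fun x hx => ?_
        have := e (show t⁻¹ * x * t ∈ O ⊓ C1[g * z * g⁻¹] from
          ⟨conj_mem_of_le_norm' nO tE hx.1, mem_conj.1 (by rw [conj_cent1, tw]; exact hx.2)⟩)
        simpa [mul_assoc] using conj_mem_of_mem_norm tE this
    have k2 : O ⊓ C1[g * z * g⁻¹] = cj[g] E := eq_of_nine hd3
      (lt_of_le_of_ne (zpowers_le.2 ⟨le_piCoreOf hEa (cent_le_norm E) (fun p _ e => by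
          rintro rfl; exact absurd (hE ▸ e) (by decide)) hd,
        conj_cent1 g z ▸ mem_conj.2 (by rw [mul_assoc, ← gd.eq, inv_mul_cancel_left]; exact zE hd)⟩)
        fun e => k1 (e ▸ zpowers_le.2 hd))
      (fun x hx => mem_conj.2 (h2 _ (mem_conj.1 (conj_cent1 g z ▸ hx.2)) (by
          have := (commute_conj_iff g⁻¹).2 (show Commute x d from (hB.left_le hx.1 d hd).symm)
          rwa [commute_iff_conj.1 gd.inv_left, inv_inv] at this)
        (by have := orderOf_conj g⁻¹ x; rw [inv_inv] at this; rw [this]; exact od x hx.1))) (by rw [card_conj, hE])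
    exact k2 ▸ inf_le_left.trans hB.left_le

end Cfsg.Agent.XL
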