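import Cfsg.Agent.XL.Fac

/-! # More checkers for word models -/

set_option autoImplicit false

namespace Cfsg.Agent.XL

open Cfsg Cfsg.Agent.GT Cfsg.Agent.TT Cfsg.Agent.TC Cfsg.Agent.M24 Subgroup MulAction
open scoped commutatorElement

variable {X Ω : Type*} [Group X] [MulAction X Ω] {idx : Ω → ℕ} {m : ℕ → X}
  {f : ℕ → ℕ → ℕ} {k n : ℕ} {bs ls ls0 w : List ℕ} {ws : List (List ℕ)} {S : Subgroup X}

theorem Md.comm_le (h : Md idx m f k bs) (hn : Mb m ls ≤ N[Mb m ls0])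
    (hc : lall ls (fun i => lall ls fun j => ws.any fun w => band (lsub w ls0)
      (eqw f k bs [j, i] (i :: j :: w))) = true) : ⁅Mb m ls, Mb m ls⁆ ≤ Mb m ls0 :=
  Mb.comm_le hn fun i hi j hj => by
    simp only [lall_iff, List.any_eq_true, band_eq, Bool.and_eq_true] at hc
    obtain ⟨w, -, a, b⟩ := hc i hi j hj
    have := h.eq b
    simp only [evl, one_mul] at this
    rw [this, mul_inv_cancel_right, mul_inv_cancel_right]
    exact Mb.ev' a

theorem Md.perf (h : Md idx m f k bs) {a b : ℕ → ℕ} (hc : lall ls (fun i => band (band (lsub (dw (a i)) ls)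
    (lsub (dw (b i)) ls)) (eqw f k bs (dw (b i) ++ dw (a i)) (dw (a i) ++ dw (b i) ++ [i]))) = true) :
    Mb m ls ≤ ⁅Mb m ls, Mb m ls⁆ := Mb.le fun i hi => by
  have c := (lall_iff _ _).1 hc i hi
  simp only [band_eq, Bool.and_eq_true] at c
  have := h.eq c.2
  simp only [evl, evl_append, one_mul] at this
  have e := commutator_mem_commutator (Mb.ev' (u := m) c.1.1) (Mb.ev' (u := m) c.1.2)
  rwa [commutatorElement_def, this, ← mul_assoc, mul_inv_cancel_right, mul_inv_cancel_right] at e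

theorem Md.ord (h : Md idx m f k bs) (hn : Md.Num idx n bs) {p : ℕ} (hp : p.Prime)
    (hc : band (llt k w) (band (eqw f k bs (pww w p) []) (!eqw f k bs w [])) = true) : orderOf (evl m w) = p := by
  simp only [band_eq, Bool.and_eq_true, Bool.not_eq_true', ← Bool.not_eq_true, h.eq_iff hn, evl_pww, llt_iff] at hc
  haveI := Fact.mk hp
  exact orderOf_eq_prime hc.2.1.2 fun e => hc.2.2 ⟨⟨hc.1, by simp⟩, e⟩

theorem Md.nrm_any (h : Md idx m f k bs) (hn : Md.Num idx n bs) (hl : Lists m k S ws) {i : ℕ} (hi : i < k)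
    (hS : m i ∈ S) (hw : ∀ i ∈ w, i < k) (e : evl m w ∈ N[S]) :
    (ws.any fun x => eqw f k bs (i :: w) (w ++ x)) = true := by
  obtain ⟨x, a, b⟩ := hl.2 _ (conj_mem_of_mem_norm e hS)
  exact List.any_eq_true.2 ⟨x, a, (h.eq_iff hn).2 ⟨⟨List.forall_mem_cons.2 ⟨hi, hw⟩,
    List.forall_mem_append.2 ⟨hw, (hl.1 x a).1⟩⟩, by rw [evl, evl_append, b, inv_mul_cancel_right]⟩⟩

theorem Md.ne_all (h : Md idx m f k bs) (hn : Md.Num idx n bs)
    (hc : (ws.all fun w => band (llt k w) (!eqw f k bs w [])) = true) : ∀ w ∈ ws, evl m w ≠ 1 := fun w hw => by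
  have := List.all_eq_true.1 hc w hw
  rw [band_eq, Bool.and_eq_true] at this
  exact h.ne' hn (w' := []) (by rw [band_eq, band_eq, this.1, this.2]; rfl)

theorem Md.iso {D : Type*} [Group D] [Finite D] [DecidableEq D] (h : Md idx m f k bs) (hn : Md.Num idx n bs)
    {d : ℕ → D} {wd : D → List ℕ} (h1 : wd 1 = [])
    (hc : ∀ x, evl d (wd x) = x ∧ band (band (llt k ls) (lsub (wd x) ls))
      (band (lall ls fun i => eqw f k bs (wd x ++ [i]) (wd (d i * x))) (bor (x == 1) (!eqw f k bs (wd x) []))) = true) :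
    Nonempty (D ≃* Mb m ls) := by
  simp only [band_eq, bor_eq, Bool.and_eq_true, Bool.or_eq_true, lall_iff, llt_iff, lsub_iff, beq_iff_eq,
    Bool.not_eq_true', ← Bool.not_eq_true, h.eq_iff hn, evl_append, evl, one_mul] at hc
  have a : ∀ l : List ℕ, (∀ i ∈ l, i ∈ ls) → ∀ x, evl m (wd (evl d l * x)) = evl m l * evl m (wd x) := fun l => by
    induction l with
    | nil => simp [evl]
    | cons i l ih =>
      intro c x
      rw [evl, evl, mul_assoc, ih fun j hj => c j (List.mem_cons_of_mem _ hj),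
        ← ((hc x).2.2.1 i (c i List.mem_cons_self)).2, mul_assoc]
  let φ : D →* Mb m ls := MonoidHom.mk' (fun x => ⟨evl m (wd x), Mb.ev (hc x).2.1.2⟩) fun x y =>
    Subtype.ext ((congrArg (fun u => evl m (wd (u * y))) (hc x).1.symm).trans (a _ (hc x).2.1.2 y))
  refine ⟨MulEquiv.ofBijective φ ⟨(injective_iff_map_eq_one φ).2 fun x e => ((hc x).2.2.2.resolve_right
    fun o => o ⟨⟨fun i hi => (hc x).2.1.1 i ((hc x).2.1.2 i hi), by simp⟩, congrArg Subtype.val e⟩),
    fun ⟨g, hg⟩ => ?_⟩⟩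
  obtain ⟨⟨_, _⟩, ⟨x, e⟩, rfl⟩ := (Mb.le (S := φ.range.map (Mb m ls).subtype) fun i hi =>
    ⟨_, ⟨d i, rfl⟩, by simpa [φ, h1, evl] using (((hc 1).2.2.1 i hi).2).symm⟩) hg
  exact ⟨x, e⟩

end Cfsg.Agent.XL
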