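import Cfsg.Agent.XL.Desc
import Cfsg.Agent.XL.Fac2

/-! # Centralizers of elements of odd prime order -/

set_option autoImplicit false

namespace Cfsg.Agent.XL

open Cfsg Cfsg.Agent.GT Cfsg.Agent.TT Cfsg.Agent.TC Cfsg.Agent.M24 Subgroup MulAction
open scoped commutatorElement

variable {X G S : Type*} [Group X] [Group G] [Group S] {y t x : G} {Q Y : Subgroup G}

theorem cent_zp (y : G) : C[zpowers y] = C1[y] := by rw [zpowers_eq_closure, centralizer_closure]

theorem qs_of_hom [IsSimpleGroup S] {π : G →* S} (hs : Function.Surjective π) (na : ¬ IsMulCommutative S)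
    (h1 : π.ker ≤ center G) (h2 : π.ker ≤ commutator G) : IsQuasisimple G := by
  have a : commutator S = ⊤ := (Normal.eq_bot_or_eq_top inferInstance).resolve_left fun e =>
    na (isMulCommutative_iff.2 fun a b => commutatorElement_eq_one_iff_mul_comm.1
      (mem_bot.1 (e ▸ commutator_mem_commutator (mem_top a) (mem_top b))))
  have b : center S = ⊥ := (Normal.eq_bot_or_eq_top inferInstance).resolve_right fun e =>
    na (isMulCommutative_iff.2 fun a b => mem_center_iff.1 (e ▸ mem_top b) a)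
  have c : center G = π.ker := le_antisymm (fun x hx => mem_bot.1 (b ▸ mem_center_iff.2 fun s => by
    obtain ⟨s, rfl⟩ := hs s
    rw [← map_mul, mem_center_iff.1 hx s, map_mul])) h1
  refine ⟨⟨?_⟩, ((QuotientGroup.quotientMulEquivOfEq c).trans
    (QuotientGroup.quotientKerEquivOfSurjective π hs)).isSimpleGroup⟩
  rw [← sup_eq_left.2 h2, ← comap_map_eq, commutator_def, map_commutator, map_top_of_surjective _ hs,
    ← commutator_def, a, comap_top]

theorem Qt.comp {G' : Type*} [Group G'] {π : C1[y] →* G'} (h : Qt y π) (e : G' ≃* S) :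
    Qt y (e.toMonoidHom.comp π) :=
  ⟨e.surjective.comp h.sur, Subgroup.ext fun x => by
    rw [← h.ker, mem_kr, mem_kr]; simp, h.odd⟩

theorem Qt.stmt [IsSimpleGroup S] (ψ : X ≃* G) {y : X} {π : C1[y] →* S} (h : Qt y π) (na : ¬ IsMulCommutative S)
    (hy : y ∈ ⁅C1[y], C1[y]⁆) (e : Y = zpowers (ψ y)) [(Y.subgroupOf C[Y]).Normal] :
    IsQuasisimple C[Y] ∧ Nonempty (C[Y] ⧸ Y.subgroupOf C[Y] ≃* S) := by
  have a : (C1[y]).map ψ.toMonoidHom = C[Y] := by
    rw [e, cent_zp]; exact map_cent1 ψ.injective fun x _ => ψ.surjective x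
  let ι : C1[y] ≃* C[Y] := (ψ.subgroupMap _).trans (MulEquiv.subgroupCongr a)
  have s : Function.Surjective (π.comp ι.symm.toMonoidHom) := h.sur.comp ι.symm.surjective
  have k : Y.subgroupOf C[Y] = (π.comp ι.symm.toMonoidHom).ker := Subgroup.ext fun x => by
    obtain ⟨x, rfl⟩ := ι.surjective x
    rw [MonoidHom.mem_ker, mem_subgroupOf, MonoidHom.comp_apply, MulEquiv.coe_toMonoidHom, ι.symm_apply_apply, h.one,
      ← mem_map_iff_mem (f := ψ.toMonoidHom) ψ.injective, MonoidHom.map_zpowers]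
    exact e ▸ Iff.rfl
  refine ⟨qs_of_hom s na (k ▸ fun x hx => mem_center_iff.2 fun g => Subtype.ext (g.2 _ hx).symm) (k ▸ fun x hx => ?_),
    ⟨(QuotientGroup.quotientMulEquivOfEq k).trans (QuotientGroup.quotientKerEquivOfSurjective _ s)⟩⟩
  rw [← mem_map_iff_mem (subtype_injective _), map_subtype_commutator]
  refine (zpowers_le.2 ?_ : zpowers (ψ y) ≤ _) (e.le hx)
  rw [← a, ← map_commutator]
  exact ⟨y, hy, rfl⟩

theorem mem_zp3 (o : orderOf y = 3) (h : x ∈ zpowers y) : x = 1 ∨ x = y ∨ x = y⁻¹ := by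
  classical
  obtain ⟨n, hn, rfl⟩ := Finset.mem_image.1 ((orderOf_pos_iff.1 (by omega)).mem_zpowers_iff_mem_range_orderOf.1 h)
  rw [o, Finset.mem_range] at hn
  interval_cases n
  exacts [Or.inl (pow_zero y), Or.inr (Or.inl (pow_one y)), Or.inr (Or.inr (eq_inv_of_mul_eq_one_left
    (by rw [← pow_succ]; exact (o ▸ pow_orderOf_eq_one y :))))]

theorem idx_three [Finite G] (o : orderOf y = 3) (ht : t * y * t⁻¹ = y⁻¹) :
    (C[zpowers y]).relIndex N[zpowers y] = 2 := by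
  have n : y⁻¹ ≠ y := fun e => absurd (o ▸ orderOf_dvd_of_pow_eq_one (n := 2)
    (by rw [sq]; exact inv_eq_iff_mul_eq_one.1 e)) (by norm_num)
  rw [cent_zp]
  refine relIndex_eq_two_iff.2 ⟨t, mem_normalizer_of_conj fun x hx => ?_, fun b hb => ?_⟩
  · obtain ⟨n, rfl⟩ := hx
    simp only [← conj_zpow, ht]
    exact zpow_mem (inv_mem (mem_zpowers y)) n
  · have c : b * t * y * (b * t)⁻¹ = (b * y * b⁻¹)⁻¹ := by
      rw [mul_inv_rev, mul_assoc b, mul_assoc b, ← mul_assoc (t * y), ht]; group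
    simp only [mem_cent1, ← mul_inv_eq_iff_eq_mul, c]
    rcases mem_zp3 o (conj_mem_of_mem_norm hb (mem_zpowers y)) with e | e | e
    · rw [conj_eq_one_iff.1 e] at o; simp at o
    · rw [e]; exact Or.inr ⟨rfl, n⟩
    · rw [e]; exact Or.inl ⟨inv_inv y, n⟩

theorem card_le_comm [Finite G] (hx : x ∈ Y) :
    Nat.card Q ≤ Nat.card (C1[x] ⊓ Q : Subgroup G) * Nat.card (⁅Q, Y⁆ : Subgroup G) := by
  rw [← card_inf_mul_relIndex C1[x] Q, ← ncard_cj, ← Set.ncard_image_of_injective _ (mul_left_injective x⁻¹)]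
  refine Nat.mul_le_mul_left _ (Set.ncard_le_ncard (t := ((⁅Q, Y⁆ : Subgroup G) : Set G)) ?_)
  rintro _ ⟨_, ⟨d, hd, rfl⟩, rfl⟩
  exact commutator_mem_commutator hd hx

theorem Md.card_cent {Ω : Type*} [MulAction X Ω] {idx : Ω → ℕ} {m : ℕ → X} {f : ℕ → ℕ → ℕ} {k n : ℕ}
    {bs w : List ℕ} {ws : List (List ℕ)} {Q : Subgroup X} (h : Md idx m f k bs) (hn : Md.Num idx n bs)
    (hl : Lists m k Q ws) (hw : ∀ i ∈ w, i < k) :
    Nat.card (C1[evl m w] ⊓ Q : Subgroup X) ≤ (ws.filter fun u => cmb f k bs u w).length := by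
  classical
  rw [← List.length_map (evl m)]
  refine le_trans ?_ (List.toFinset_card_le _)
  rw [← Set.ncard_coe_finset]
  refine Set.ncard_le_ncard (s := ((C1[evl m w] ⊓ Q : Subgroup X) : Set X)) fun x hx => ?_
  obtain ⟨u, a, rfl⟩ := hl.2 x hx.2
  simpa using ⟨u, ⟨a, (h.cm_iff hn).2 ⟨⟨(hl.1 u a).1, hw⟩, mem_cent1.1 hx.1⟩⟩, rfl⟩

/-- the generator of `Y` on the model side -/
theorem pull_gen [Finite G] (φ : X ≃* G) {z0 : X} {z : G} (hz : φ z0 = z) {Q0 : Subgroup X} {Q Y : Subgroup C1[z]}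
    (hQ : Q0.map φ.toMonoidHom = Q.map (C1[z]).subtype) {p : ℕ} (hp : p.Prime) (hY : Nat.card Y = p) :
    ∃ x ∈ C1[z0], orderOf x = p ∧ Y.map (C1[z]).subtype = zpowers (φ x) ∧
      ∃ u ∈ Y, Nat.card (C1[u] ⊓ Q : Subgroup C1[z]) = Nat.card (C1[x] ⊓ Q0 : Subgroup X) := by
  haveI := Fact.mk hp
  obtain ⟨⟨⟨u, hu⟩, hx⟩, o⟩ := exists_prime_orderOf_dvd_card' (G := Y) p (hY ▸ dvd_rfl)
  obtain ⟨x, rfl⟩ := φ.surjective u
  rw [Subgroup.orderOf_mk, Subgroup.orderOf_mk, φ.orderOf_eq] at o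
  refine ⟨x, mem_cent1.2 (φ.injective (by rw [map_mul, map_mul, hz]; exact mem_cent1.1 hu)), o,
    (eq_of_le_of_card_ge (zpowers_le.2 (mem_map_of_mem (C1[z]).subtype hx) : zpowers (φ x) ≤ _) (by
      rw [card_map_of_injective (subtype_injective _), hY, Nat.card_zpowers, φ.orderOf_eq, o])).symm, _, hx, ?_⟩
  rw [← card_map_of_injective (f := φ.toMonoidHom) φ.injective, map_inf _ _ _ φ.injective, hQ,
    map_cent1 (φ := φ.toMonoidHom) φ.injective fun x _ => φ.surjective x, ← card_map_of_injective (subtype_injective _)]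
  congr 2
  exact le_antisymm (by rintro _ ⟨v, a, rfl⟩; exact ⟨mem_cent1.2 (congrArg Subtype.val (mem_cent1.1 a.1)), v, a.2, rfl⟩)
    fun _ ⟨a, v, b, c⟩ => ⟨v, ⟨mem_cent1.2 (Subtype.ext (mem_cent1.1 (c ▸ a :))), b⟩, c⟩

theorem card_cent_conj {k : G} (hk : k ∈ N[Q]) (x : G) :
    Nat.card (C1[k * x * k⁻¹] ⊓ Q : Subgroup G) = Nat.card (C1[x] ⊓ Q : Subgroup G) := by
  rw [← card_conj k (C1[x] ⊓ Q), conj_inf, conj_cent1, conj_eq_self hk]

end Cfsg.Agent.XL
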