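import Cfsg.Agent.XL.Fin2

/-! # Checkers for local facts in word models -/

set_option autoImplicit false

namespace Cfsg.Agent.XL

open Cfsg Cfsg.Agent.GT Cfsg.Agent.TT Cfsg.Agent.TC Cfsg.Agent.M24 Subgroup MulAction
open scoped commutatorElement

variable {X Ω : Type*} [Group X] [MulAction X Ω] {idx : Ω → ℕ} {m : ℕ → X}
  {f : ℕ → ℕ → ℕ} {k n : ℕ} {bs ls ls0 w : List ℕ} {ws : List (List ℕ)} {N R E T : Subgroup X} {z t : X}

theorem Mb.comm_le (hn : Mb m ls ≤ N[N]) (h : ∀ i ∈ ls, ∀ j ∈ ls, m i * m j * (m i)⁻¹ * (m j)⁻¹ ∈ N) :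
    ⁅Mb m ls, Mb m ls⁆ ≤ N := commutator_le.2 fun x hx y hy => by
  refine closure_induction₂ (p := fun x y _ _ => ⁅x, y⁆ ∈ N) ?_ (by simp) (by simp) ?_ ?_ ?_ ?_ hx hy
  · rintro _ _ ⟨i, hi, rfl⟩ ⟨j, hj, rfl⟩; exact h i hi j hj
  · intro x y z a _ _ b c
    rw [show ⁅x * y, z⁆ = x * ⁅y, z⁆ * x⁻¹ * ⁅x, z⁆ by simp only [commutatorElement_def]; group]
    exact mul_mem (conj_mem_of_mem_norm (hn a) c) b
  · intro y z x a _ _ b c
    rw [show ⁅x, y * z⁆ = ⁅x, y⁆ * (y * ⁅x, z⁆ * y⁻¹) by simp only [commutatorElement_def]; group]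
    exact mul_mem b (conj_mem_of_mem_norm (hn a) c)
  · intro x y a _ b
    rw [show ⁅x⁻¹, y⁆ = x⁻¹ * ⁅x, y⁆⁻¹ * x⁻¹⁻¹ by simp only [commutatorElement_def]; group]
    exact conj_mem_of_mem_norm (hn (inv_mem a)) (inv_mem b)
  · intro x y _ a b
    rw [show ⁅x, y⁻¹⁆ = y⁻¹ * ⁅x, y⁆⁻¹ * y⁻¹⁻¹ by simp only [commutatorElement_def]; group]
    exact conj_mem_of_mem_norm (hn (inv_mem a)) (inv_mem b)

theorem mem_zp2 (zz : z * z = 1) {x : X} : x ∈ zpowers z ↔ x = 1 ∨ x = z := by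
  rw [zpowers_eq_closure, ← Set.pair_eq_singleton]
  exact (mem_VV zz zz (Commute.refl z)).trans (by rw [zz]; tauto)

/-- centre and non-commutativity -/
noncomputable def zChk (f : ℕ → ℕ → ℕ) (k : ℕ) (bs ls : List ℕ) (j : ℕ) (ws : List (List ℕ)) : Bool :=
  band (band (llt k ls) (ws.all fun x => bor (bor (eqw f k bs x []) (eqw f k bs x [j]))
    (lany ls fun i => !cmb f k bs x [i]))) (lany ls fun i => lany ls fun j => !cmb f k bs [i] [j])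

theorem Md.zc (h : Md idx m f k bs) (hn : Md.Num idx n bs) (hl : Lists m k (Mb m ls) ws) {j : ℕ}
    (hc : zChk f k bs ls j ws = true) : (∀ x ∈ Mb m ls, (∀ y ∈ Mb m ls, Commute x y) → x = 1 ∨ x = m j) ∧
      ∃ x ∈ Mb m ls, ∃ y ∈ Mb m ls, ¬ Commute x y := by
  simp only [zChk, List.all_eq_true, bor_eq, band_eq, Bool.or_eq_true, Bool.and_eq_true, lany_iff, llt_iff,
    Bool.not_eq_true', ← Bool.not_eq_true, h.cm_iff hn, h.eq_iff hn, evl, one_mul] at hc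
  obtain ⟨⟨a, b⟩, i, hi, i', hi', c⟩ := hc
  refine ⟨fun x hx e => ?_, _, Mb.of hi, _, Mb.of hi', fun e => c ⟨⟨by simpa using a i hi, by simpa using a i' hi'⟩, e⟩⟩
  obtain ⟨x, d, rfl⟩ := hl.2 x hx
  exact ((b x d).resolve_right fun ⟨i, hi, o⟩ => o ⟨⟨(hl.1 x d).1, by simpa using a i hi⟩, e _ (Mb.of hi)⟩).imp
    And.right And.right

/-- relations of an extraspecial group -/
noncomputable def esChk (f : ℕ → ℕ → ℕ) (k : ℕ) (bs ls : List ℕ) (j : ℕ) : Bool :=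
  band (band (lm ls j) (band (eqw f k bs [j, j] []) (!eqw f k bs [j] [])))
    (lall ls fun i => band (band (cmb f k bs [i] [j]) (bor (eqw f k bs [i, i] []) (eqw f k bs [i, i] [j])))
      (lall ls fun i' => bor (cmb f k bs [i] [i']) (eqw f k bs [i', i] [i, i', j])))

theorem Md.es (h : Md idx m f k bs) (hn : Md.Num idx n bs) (hl : Lists m k (Mb m ls) ws) {j : ℕ}
    (hc : band (esChk f k bs ls j) (zChk f k bs ls j ws) = true) : ES (Mb m ls) (m j) := by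
  rw [band_eq, Bool.and_eq_true] at hc
  obtain ⟨c1, c2⟩ := h.zc hn hl hc.2
  replace hc := hc.1
  simp only [esChk, bor_eq, band_eq, Bool.or_eq_true, Bool.and_eq_true, lall_iff, lm_iff,
    Bool.not_eq_true', ← Bool.not_eq_true, h.cm_iff hn, h.eq_iff hn, evl, one_mul] at hc
  obtain ⟨⟨a, ⟨b, zz⟩, c⟩, d⟩ := hc
  have zc : Mb m ls ≤ C1[m j] := Mb.le fun i hi => mem_cent1.2 (d i hi).1.1.2
  have zn : Mb m ls ≤ N[zpowers (m j)] := zc.trans (by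
    rw [← centralizer_closure, ← zpowers_eq_closure]; exact cent_le_norm _)
  have cm := commutator_le.1 (Mb.comm_le zn fun i hi i' hi' => (mem_zp2 zz).2 (((d i hi).2 i' hi').imp
    (fun e => by rw [e.2.eq]; group) fun e => by rw [e.2]; group))
  have cj : ∀ x ∈ Mb m ls, ∀ y ∈ Mb m ls, x * y * x⁻¹ = y ∨ x * y * x⁻¹ = y * m j := fun x hx y hy =>
    ((mem_zp2 zz).1 (cm x hx y hy)).imp mul_inv_eq_one.1 fun e =>
      (mul_inv_eq_iff_eq_mul.1 e).trans (mem_cent1.1 (zc hy)).symm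
  refine ⟨Mb.of a, zz, fun e => c ⟨⟨by simpa using b.1, by simp⟩, e⟩, fun x hx => (mem_cent1.1 (zc hx)).symm, cj,
    fun x hx => (mem_zp2 zz).1 ?_, c1, c2⟩
  induction hx using closure_induction with
  | mem x hx => obtain ⟨i, hi, rfl⟩ := hx; exact (mem_zp2 zz).2 ((d i hi).1.2.imp And.right And.right)
  | one => simp
  | mul x y hx hy p q =>
    rw [show x * y * (x * y) = x * x * (x⁻¹ * y * x⁻¹⁻¹ * y⁻¹) * (y * y) by group]
    exact mul_mem (mul_mem p (cm _ (inv_mem hx) _ hy)) q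
  | inv x _ p => rw [← mul_inv_rev]; exact inv_mem p

theorem Md.sqgen (h : Md idx m f k bs) {sq : ℕ → List ℕ}
    (hc : lall ls (fun i => band (lall (sq i) fun w => lsub (dw w) ls)
      (eqw f k bs [i] ((sq i).flatMap fun w => dw w ++ dw w))) = true) (H : Subgroup X)
    (hH : ∀ u ∈ Mb m ls, u * u ∈ H) : Mb m ls ≤ H := Mb.le fun i hi => by
  have := (lall_iff _ _).1 hc i hi
  simp only [band_eq, Bool.and_eq_true, lall_iff] at this
  rw [← one_mul (m i), show 1 * m i = _ from h.eq this.2]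
  replace this := this.1
  generalize sq i = l at this
  induction l with
  | nil => exact one_mem _
  | cons w l ih =>
    rw [List.flatMap_cons, evl_append, evl_append]
    exact mul_mem (ih fun w a => this w (List.mem_cons_of_mem _ a)) (hH _ (Mb.ev' (this w List.mem_cons_self)))

/-- fixed points preserved by `C(R) R` -/
noncomputable def qpr (f : ℕ → ℕ → ℕ) (j : ℕ) (ws : List (List ℕ)) (b q : ℕ) : Bool :=
  bor (!fxw f [j] b) (cpr f ws b q)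

theorem Ma.qpr (h : Ma idx m f k n) {j : ℕ} (hj : j < k) (e : ES R (m j)) (hl : Lists m k R ws) {g : X}
    (hg : g ∈ C[R] ⊔ R) (x : Ω) : qpr f j ws (idx x) (idx (g • x)) = true := by
  simp only [XL.qpr, XL.cpr, List.all_eq_true, bor_eq, Bool.or_eq_true, Bool.not_eq_true', ← Bool.not_eq_true]
  refine (em _).symm.imp_right fun a w hw => (em _).symm.imp_right fun b => ?_
  rw [h.fxw_iff (by simpa using hj), evl, evl, one_mul] at a
  rw [h.fxw_iff (hl.1 w hw).1] at b ⊢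
  obtain ⟨c, hc, r, hr, rfl⟩ := (mem_sup_of_le_norm (cent_le_norm R)).1 hg
  rw [← mul_smul, ← mul_assoc, hc _ (hl.1 w hw).2, mul_assoc, mul_smul, mul_smul c, smul_left_cancel_iff,
    ← inv_mul_cancel_left r⁻¹ (evl m w * r), ← mul_assoc r⁻¹, inv_inv, mul_smul, smul_left_cancel_iff]
  rcases e.conj _ (inv_mem hr) _ (hl.1 w hw).2 with o | o <;> rw [inv_inv] at o <;> rw [o]
  exacts [b, by rw [mul_smul, a, b]]

theorem Qt.eq4 {G G' : Type*} [Group G] [Group G'] {y : G} {π : C1[y] →* G'} (h : Qt y π) {a b : C1[y]}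
    (ha : a ^ 2 ^ 2 = 1) (hb : b ^ 2 ^ 2 = 1) (e : π a = π b) : a = b := by
  have e1 : π (a⁻¹ * b) = 1 := by rw [map_mul, map_inv, e, inv_mul_cancel]
  have c : Commute a (a⁻¹ * b) := Subtype.ext (comm_zp (mem_cent1.1 a.2) (h.one.1 e1))
  refine inv_mul_eq_one.1 (h.two e1 (n := 2) ?_)
  have := c.mul_pow (2 ^ 2)
  rw [mul_inv_cancel_left, ha, hb, one_mul] at this
  exact congrArg Subtype.val this.symm

theorem Dsc.ht {G G' : Type*} [Group G] [Group G'] {y z g : G} {π : C1[y] →* G'} {R : Subgroup G} {w N : ℕ}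
    (d : Dsc R z g y w N) (h : Qt y π) (ht : ∀ x ∈ R, x ∈ cj[g] R → x ∈ VV z (g * z * g⁻¹)) :
    ∀ x ∈ im π R, x ∈ cj[π ⟨g, d.gy⟩] (im π R) →
      x ∈ VV (π ⟨z, d.le d.es.mem⟩) (π ⟨g, d.gy⟩ * π ⟨z, d.le d.es.mem⟩ * (π ⟨g, d.gy⟩)⁻¹) := fun x a b => by
  obtain ⟨x, u, a', rfl⟩ := mem_im.1 a
  obtain ⟨r, v, c, e⟩ := mem_im.1 (mem_conj.1 b)
  rw [← map_inv, ← map_mul, ← map_mul] at e ⊢
  rw [h.VV]
  have := congrArg Subtype.val (h.eq4 (Subtype.ext (d.es.pow_four c)) (by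
    rw [← inv_inv (⟨g, _⟩ : C1[y]), inv_inv (⟨g, _⟩ : C1[y])⁻¹, conj_pow,
      show (⟨x, u⟩ : C1[y]) ^ 2 ^ 2 = 1 from Subtype.ext (d.es.pow_four a')]; simp) e)
  exact mem_im_of_mem u (ht x a' (mem_conj.2 (by rw [show g⁻¹ * x * g = r from this.symm]; exact c)))

/-- intersection with a conjugate -/
theorem Md.ht (h : Md idx m f k bs) (hn : Md.Num idx n bs) (hl : Lists m k R ws) {i j g g' : ℕ}
    (hc : band (band (eqw f k bs [g', g] []) (eqw f k bs [i, g] [g, j])) (ws.all fun x =>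
      bor (!inw f k bs ws (g :: x ++ [g'])) ([[], [i], [j], [i, j]].any (eqw f k bs x))) = true) :
    ∀ x ∈ R, x ∈ cj[m g] R → x ∈ VV (m i) (m g * m i * (m g)⁻¹) := fun x hx hs => by
  simp only [band_eq, Bool.and_eq_true, List.all_eq_true, bor_eq, Bool.or_eq_true, Bool.not_eq_true',
    ← Bool.not_eq_true, h.inw_iff hn hl, List.any_eq_true, h.eq_iff hn, evl, one_mul, List.cons_append,
    evl_append] at hc
  obtain ⟨⟨⟨a, b⟩, -, c⟩, d⟩ := hc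
  obtain ⟨x, hx', rfl⟩ := hl.2 x hx
  rw [mem_conj, inv_eq_of_mul_eq_one_right b] at hs
  obtain ⟨y, hy, -, e⟩ := (d x hx').resolve_left fun e => e ⟨by
    simpa [or_imp, forall_and] using ⟨a.1 g (by simp), (hl.1 x hx').1, a.1 g' (by simp)⟩, hs⟩
  rw [e, c, mul_inv_cancel_right]
  simp only [List.mem_cons, List.not_mem_nil, or_false] at hy
  rcases hy with rfl | rfl | rfl | rfl <;> simp [evl, zVV, sVV, mul_mem]

theorem syl_card [Finite X] {p a b : ℕ} (hp : p.Prime) {P M : Subgroup X} (hle : P ≤ M)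
    (h1 : Nat.card P = p ^ a) (h2 : Nat.card M = p ^ a * b) (hb : ¬ p ∣ b) : IsPiHallOf {p} P M :=
  syl_mk hp hle (IsPGroup.of_card h1) (by
    have := card_mul_relIndex hle
    rw [h1, h2] at this
    rwa [Nat.eq_of_mul_eq_mul_left (pow_pos hp.pos a) this])

theorem syl_elt [Finite X] {p a : ℕ} (hp : p.Prime) {P M : Subgroup X} (h : IsPiHallOf {p} P M) {x : X}
    (hx : x ∈ M) (e : x ^ p ^ a = 1) : ∃ g ∈ M, g * x * g⁻¹ ∈ P :=
  let ⟨g, c, b⟩ := syl_exists_conj_le hp h (isPGroup_of_forall (by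
    rintro _ ⟨m, rfl⟩
    exact ⟨a, by rw [← zpow_natCast, ← zpow_mul, mul_comm, zpow_mul, zpow_natCast, e, one_zpow]⟩)) (zpowers_le.2 hx)
  ⟨g, c, b (conj_mem_conj.2 (mem_zpowers x))⟩

theorem cls_of_syl [Finite X] {M : Subgroup X} (h : IsPiHallOf {2} T M) {P : X → Prop}
    (hP : ∀ g ∈ M, ∀ x, P (g * x * g⁻¹) → P x) (hT : ∀ x ∈ T, x * x = 1 → x ≠ 1 → P x) :
    ∀ x ∈ M, x * x = 1 → x ≠ 1 → P x := fun x hx a b =>
  let ⟨g, c, d⟩ := syl_elt (a := 1) Nat.prime_two h hx (by rw [pow_one, sq, a])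
  hP g c x (hT _ d (conj_mul_self g a) (by simpa using b))

theorem CT.of [Finite X] {p q : ℕ} (zz : z * z = 1) (tt : t * t = 1) (z1 : z ≠ 1) (t1 : t ≠ 1)
    (s1 : IsPiHallOf {2} T ⊤) (hT : T ≤ C1[z])
    (cl : ∀ x ∈ T, x * x = 1 → x ≠ 1 → (∃ g, x = g * z * g⁻¹) ∨ ∃ k ∈ C1[z], x = k * t * k⁻¹)
    (syl : IsPiHallOf {2} (C1[z] ⊓ C1[t]) C1[t]) (hs : C1[t] = E ⊔ (C1[z] ⊓ C1[t]))
    (hn : C1[t] ≤ N[E]) (perf : E ≤ ⁅E, E⁆) (der : ⁅⁅C1[t], C1[t]⁆, ⁅C1[t], C1[t]⁆⁆ ≤ E) (mem : z ∈ E)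
    (cl0 : ∀ x ∈ C1[z] ⊓ C1[t], x * x = 1 → x ≠ 1 → x ∈ E → ∃ e ∈ E, x = e * z * e⁻¹)
    (hp : p.Prime ∧ q.Prime ∧ 2 < p ∧ p < q ∧ ¬ p ∣ q - 1) (dvd : p * q ∣ Nat.card E)
    (sq : ¬ p ^ 2 ∣ Nat.card C1[t] ∧ ¬ q ^ 2 ∣ Nat.card C1[t])
    (no : ∀ a b : X, orderOf a = p → orderOf b = q → ¬ Commute a b) : CT z t E p q := by
  have hn' : C1[z] ⊓ C1[t] ≤ N[E] := inf_le_right.trans hn
  refine ⟨zz, tt, z1, t1, fun x => cls_of_syl s1 (P := fun x => ∃ g, x = g * z * g⁻¹ ∨ x = g * t * g⁻¹)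
      (fun g _ x ⟨u, a⟩ => ⟨g⁻¹ * u, a.imp (fun e => by rw [mul_assoc g⁻¹, mul_inv_rev, ← mul_assoc, mul_assoc g⁻¹, ← e]; group)
        fun e => by rw [mul_assoc g⁻¹, mul_inv_rev, ← mul_assoc, mul_assoc g⁻¹, ← e]; group⟩)
      (fun x a b c => (cl x a b c).elim (fun ⟨g, e⟩ => ⟨g, Or.inl e⟩) fun ⟨g, _, e⟩ => ⟨g, Or.inr e⟩) x trivial,
    cls_of_syl (syl_mk Nat.prime_two hT (syl_isPGroup Nat.prime_two s1) fun e => syl_not_dvd Nat.prime_two s1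
      (e.trans (Dvd.intro _ (relIndex_mul_relIndex _ _ _ hT le_top)))) (fun g hg x a => a.imp
        (fun ⟨u, e⟩ => ⟨g⁻¹ * u, by rw [mul_assoc g⁻¹, mul_inv_rev, ← mul_assoc, mul_assoc g⁻¹, ← e]; group⟩)
        fun ⟨u, b, e⟩ => ⟨g⁻¹ * u, mul_mem (inv_mem hg) b, by
          rw [mul_assoc g⁻¹, mul_inv_rev, ← mul_assoc, mul_assoc g⁻¹, ← e]; group⟩) cl,
    syl, le_sup_left.trans hs.ge, perf, der, mem, ?_, fun x hx a b => ?_, hp, dvd, sq,
    fun a _ b _ => no a b⟩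
  · obtain ⟨j, e⟩ := (syl_isPGroup Nat.prime_two syl).exists_card_eq
    rw [hs, sup_comm, relIndex_sup_of_le_norm hn']
    obtain ⟨i, -, o⟩ := (Nat.dvd_prime_pow Nat.prime_two).1 (e ▸ relIndex_dvd_card E _)
    exact ⟨i, o⟩
  · refine cls_of_syl syl (P := fun x => x ∈ E → ∃ e ∈ E, x = e * z * e⁻¹) (fun g hg x c d => ?_) cl0 x
      (le_sup_left.trans hs.ge hx) a b hx
    obtain ⟨u, o, e⟩ := c (conj_mem_of_mem_norm (hn hg) d)
    obtain ⟨v, hv, s, hs', e'⟩ := (mem_sup_of_le_norm' hn').1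
      (hs.le (mul_mem (inv_mem hg) (le_sup_left.trans hs.ge o)))
    refine ⟨v, hv, ?_⟩
    rw [← commute_iff_conj.1 (mem_cent1.1 hs'.1), ← mul_assoc, ← mul_assoc, ← e', mul_assoc, ← mul_inv_rev, ← e',
      mul_assoc g⁻¹, mul_inv_rev, ← mul_assoc, mul_assoc g⁻¹, ← e]
    group

end Cfsg.Agent.XL
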