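import Cfsg.Agent.XL.U4
import Cfsg.Agent.Cl.SmallIso

/-! # Groups of type `U₄(3)`: the hypotheses -/

set_option autoImplicit false

namespace Cfsg.Agent.XL.U4

open Cfsg Cfsg.Agent.GT Cfsg.Agent.TT Cfsg.Agent.Cl Subgroup
open scoped MatrixGroups

theorem sl_facts : (∀ g : SL(2, ZMod 3), g * g = 1 → g = 1 ∨ g = -1) ∧
    (∀ g : SL(2, ZMod 3), ∃ a, a ^ 3 = 1 ∧ ∃ b, b ^ 3 = 1 ∧ (b⁻¹ * (a⁻¹ * g)) ^ 3 = 1) ∧
    (∀ x : SL(2, ZMod 3), x ^ 8 = 1 → (x * x = 1 ∨ x * x = -1) ∧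
      (∀ y, y ^ 8 = 1 → x * y * x⁻¹ = y ∨ x * y * x⁻¹ = y * -1) ∧
      ((∀ y, y ^ 8 = 1 → x * y = y * x) → x = 1 ∨ x = -1)) ∧
    (∃ x y : SL(2, ZMod 3), x ^ 8 = 1 ∧ y ^ 8 = 1 ∧ x * y ≠ y * x) ∧
    (Finset.univ.filter fun x : SL(2, ZMod 3) => x ^ 8 = 1).card = 8 ∧
    Fintype.card SL(2, ZMod 3) = 24 ∧ (-1 : SL(2, ZMod 3)) ≠ 1 := by
  refine ⟨?_, ?_, ?_, ?_, ?_, ?_, ?_⟩ <;> decide +kernel

theorem es_sl : ES sl23Q (-1) := by
  obtain ⟨-, -, h, ⟨x, y, a⟩, -, -, b⟩ := sl_facts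
  simp only [← mem_sl23Q_iff_pow] at h a
  exact ⟨(mem_sl23Q_iff_pow _).2 (by decide +kernel), by simp, b, fun x _ => by simp [Commute, SemiconjBy],
    fun x hx => (h x hx).2.1, fun x hx => (h x hx).1, fun x hx => (h x hx).2.2 ∘ fun e y hy => e y hy,
    x, a.1, y, a.2⟩

variable {G : Type*} [Group G] [Finite G] {H H₁ H₂ Q₁ Q₂ : Subgroup G} {z : G}

theorem of_sl (e : H ≃* SL(2, ZMod 3)) (hz : orderOf z = 2) (hm : z ∈ H) :
    ∃ Q ≤ H, ES Q z ∧ Nat.card Q = 8 ∧ (∀ x ∈ H, ∀ k, x ^ 2 ^ k = 1 → x ∈ Q) ∧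
      ∀ x ∈ H, ∃ a ∈ H, a ^ 3 = 1 ∧ ∃ b ∈ H, b ^ 3 = 1 ∧ (b⁻¹ * (a⁻¹ * x)) ^ 3 = 1 := by
  obtain ⟨h1, h2, -, -, h3, h4, -⟩ := sl_facts
  let φ := H.subtype.comp e.symm.toMonoidHom
  have i : Function.Injective φ := H.subtype_injective.comp e.symm.injective
  have s : ∀ x (hx : x ∈ H), φ (e ⟨x, hx⟩) = x := fun x hx => by simp [φ]
  have ez : φ (-1) = z := by
    rw [← s z hm, (h1 (e ⟨z, hm⟩) (i (by rw [map_mul, s, mul_self_of_orderOf hz, map_one]))).resolve_left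
      fun a => ne_one_of_orderOf hz (by rw [← s z hm, a, map_one])]
  refine ⟨sl23Q.map φ, by rintro _ ⟨x, -, rfl⟩; exact (e.symm x).2, ez ▸ es_sl.map φ fun x _ a => i
    (a.trans (map_one φ).symm), ?_, fun x hx k a => ⟨e ⟨x, hx⟩, (mem_sl23Q_iff_pow _).2 ?_, s x hx⟩,
    fun x hx => ?_⟩
  · rw [card_map_of_injective i, ← h3, ← Nat.card_eq_finsetCard]
    exact Nat.card_congr (Equiv.subtypeEquivRight fun x => by simp [mem_sl23Q_iff_pow])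
  · have a1 := orderOf_dvd_of_pow_eq_one (i (by rw [map_pow, s, a, map_one]) : e ⟨x, hx⟩ ^ 2 ^ k = 1)
    have a2 := orderOf_dvd_card (x := e ⟨x, hx⟩)
    rw [h4] at a2
    exact orderOf_dvd_iff_pow_eq_one.1 ((Nat.Coprime.coprime_dvd_left a1
      (Nat.Coprime.pow_left k (show Nat.Coprime 2 3 by norm_num))).dvd_of_dvd_mul_right a2)
  · obtain ⟨a, b, a', b', c⟩ := h2 (e ⟨x, hx⟩)
    exact ⟨φ a, (e.symm a).2, by rw [← map_pow, b, map_one], φ a', (e.symm a').2,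
      by rw [← map_pow, b', map_one], by
      rw [← s x hx, ← map_inv, ← map_inv, ← map_mul, ← map_mul, ← map_pow, c, map_one]⟩

omit [Finite G] in
theorem es_sup (h1 : ES Q₁ z) (h2 : ES Q₂ z) (hc : ∀ a ∈ Q₁, ∀ b ∈ Q₂, Commute a b) : ES (Q₁ ⊔ Q₂) z := by
  have m : ∀ {x}, x ∈ Q₁ ⊔ Q₂ ↔ ∃ a ∈ Q₁, ∃ b ∈ Q₂, x = a * b :=
    mem_sup_of_le_norm fun a ha => cent_le_norm _ fun b hb => (hc a ha b hb).symm
  refine ⟨mem_sup_left h1.mem, h1.zz, h1.ne, fun x hx => ?_, fun x hx y hy => ?_, fun x hx => ?_,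
    fun x hx h => ?_, let ⟨x, a, y, b, c⟩ := h1.nonab; ⟨x, mem_sup_left a, y, mem_sup_left b, c⟩⟩
  · obtain ⟨a, ha, b, hb, rfl⟩ := m.1 hx
    exact (h1.zc a ha).mul_right (h2.zc b hb)
  · obtain ⟨a, ha, b, hb, rfl⟩ := m.1 hx
    obtain ⟨c, hc', d, hd, rfl⟩ := m.1 hy
    have e : a * b * (c * d) * (a * b)⁻¹ = (a * c * a⁻¹) * (b * d * b⁻¹) := by
      rw [← commute_iff_conj.1 (hc a ha _ (mul_mem (mul_mem hb hd) (inv_mem hb))), mul_assoc a b, ← mul_assoc b,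
        ← (hc c hc' b hb).eq]; group
    rw [e]
    rcases h1.conj a ha c hc' with e1 | e1 <;> rcases h2.conj b hb d hd with e2 | e2 <;> rw [e1, e2]
    · exact Or.inl rfl
    · exact Or.inr (mul_assoc _ _ _).symm
    · right; rw [mul_assoc, (h2.zc d hd).eq, mul_assoc]
    · left; rw [mul_assoc, ← mul_assoc z, (h2.zc d hd).eq, mul_assoc d, h1.zz, mul_one]
  · obtain ⟨a, ha, b, hb, rfl⟩ := m.1 hx
    rw [show a * b * (a * b) = a * a * (b * b) by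
      rw [mul_assoc, ← mul_assoc b, ← (hc a ha b hb).eq]; group]
    rcases h1.sq a ha with e1 | e1 <;> rcases h2.sq b hb with e2 | e2 <;> simp [e1, e2, h1.zz]
  · obtain ⟨a, ha, b, hb, rfl⟩ := m.1 hx
    rcases h1.cent a ha (fun y hy => by
      simpa using (h y (mem_sup_left hy)).mul_left (hc y hy b hb).symm.inv_left) with rfl | rfl <;>
    rcases h2.cent b hb (fun y hy => by
      simpa using (hc _ ha y hy).inv_left.mul_left (h y (mem_sup_right hy))) with rfl | rfl <;>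
    simp [h1.zz]

theorem es_of_sl (hz : orderOf z = 2) (hc : ∀ x, Commute z x) (hn₁ : H₁ ⊔ H₂ ≤ N[H₁])
    (hn₂ : H₁ ⊔ H₂ ≤ N[H₂]) (e₁ : H₁ ≃* SL(2, ZMod 3)) (e₂ : H₂ ≃* SL(2, ZMod 3))
    (hm : H₁ ⊓ H₂ = zpowers z) : ES (Op 2 (H₁ ⊔ H₂)) z ∧ Nat.card (Op 2 (H₁ ⊔ H₂)) = 32 := by
  have zz := mul_self_of_orderOf hz
  obtain ⟨Q₁, a1, a2, a3, a4, a5⟩ := of_sl e₁ hz (hm.ge (mem_zpowers z)).1
  obtain ⟨Q₂, b1, b2, b3, b4, -⟩ := of_sl e₂ hz (hm.ge (mem_zpowers z)).2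
  have c3 : ∀ a ∈ H₁, a ^ 3 = 1 → ∀ b ∈ H₂, Commute a b := fun a ha h3 b hb => by
    have : a * b * a⁻¹ * b⁻¹ ∈ H₁ ⊓ H₂ :=
      mem_inf.2 ⟨by simpa [mul_assoc] using mul_mem ha (conj_mem_of_le_norm hn₁ (mem_sup_right hb) (inv_mem ha)),
        mul_mem (conj_mem_of_le_norm hn₂ (mem_sup_left ha) hb) (inv_mem hb)⟩
    rcases (mem_zpowers_of_sq zz).1 (hm ▸ this) with e | e
    · exact commute_iff_conj.2 (mul_inv_eq_one.1 e)
    · have e1 : a * b = z * b * a := by rw [← e]; group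
      have : a ^ 3 * b = z * b * a ^ 3 := by
        rw [pow_three, mul_assoc, mul_assoc, e1, mul_assoc z, ← mul_assoc a z, ← (hc a).eq,
          mul_assoc z, ← mul_assoc a b, e1, mul_assoc z, mul_assoc z, sq_cancel zz, ← mul_assoc, ← mul_assoc,
          e1]; group
      rw [h3, one_mul, mul_one, eq_comm, mul_eq_right] at this
      exact absurd this (ne_one_of_orderOf hz)
  have c : ∀ a ∈ H₁, ∀ b ∈ H₂, Commute a b := fun x hx b hb => by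
    obtain ⟨a, ha, d1, a', ha', d3, d2⟩ := a5 x hx
    simpa using (c3 a ha d1 b hb).mul_left ((c3 a' ha' d3 b hb).mul_left
      (c3 _ (mul_mem (inv_mem ha') (mul_mem (inv_mem ha) hx)) d2 b hb))
  have es := es_sup a2 b2 fun a ha b hb => c a (a1 ha) b (b1 hb)
  have n : ∀ {H Q : Subgroup G}, Q ≤ H → ES Q z → (∀ x ∈ H, ∀ k, x ^ 2 ^ k = 1 → x ∈ Q) → N[H] ≤ N[Q] :=
    fun a b d => le_norm_iff.2 fun g hg x hx => d _ (conj_mem_of_mem_norm hg (a hx)) 2 (by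
      rw [conj_pow, b.pow_four hx]; simp)
  have e : Op 2 (H₁ ⊔ H₂) = Q₁ ⊔ Q₂ := le_antisymm (fun x hx => by
    obtain ⟨k, hk⟩ := exists_pow_eq_one_of_isPGroup (Op_isPGroup _) hx
    obtain ⟨a, ha, b, hb, rfl⟩ := (mem_sup_of_le_norm (le_sup_left.trans hn₂)).1 (Op_le _ hx)
    rw [(c a ha b hb).mul_pow] at hk
    have k1 : a ^ 2 ^ k ∈ zpowers z := hm ▸ mem_inf.2 ⟨pow_mem ha _,
      eq_inv_of_mul_eq_one_left hk ▸ inv_mem (pow_mem hb _)⟩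
    have k2 : a ^ 2 ^ (k + 1) = 1 := by
      rw [pow_succ, pow_mul]; rcases (mem_zpowers_of_sq zz).1 k1 with e | e <;> simp [e, sq, zz]
    refine mul_mem_sup (a4 a ha _ k2) (b4 b hb (k + 1) ?_)
    rw [pow_succ, pow_mul, eq_inv_of_mul_eq_one_right hk, inv_pow, ← pow_mul, ← pow_succ, k2, inv_one])
    (le_Op (sup_le_sup a1 b1) ((le_inf (hn₁.trans (n a1 a2 a4)) (hn₂.trans (n b1 b2 b4))).trans
      (normalizer_inf_normalizer_le_normalizer_sup _ _)) es.isPGroup)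
  have := card_sup_mul_card_inf (show Q₁ ≤ N[Q₂] from fun a ha => cent_le_norm _ fun b hb =>
    (c a (a1 ha) b (b1 hb)).symm)
  rw [le_antisymm (hm ▸ inf_le_inf a1 b1) (le_inf a2.zp_le b2.zp_le : zpowers z ≤ Q₁ ⊓ Q₂), a3, b3,
    Nat.card_zpowers, hz] at this
  exact e ▸ ⟨es, by omega⟩

theorem iso_stmt (hz : orderOf z = 2) {H₁ H₂ : Subgroup C1[z]} (hn₁ : (H₁.subgroupOf (H₁ ⊔ H₂)).Normal)
    (hn₂ : (H₂.subgroupOf (H₁ ⊔ H₂)).Normal) (e₁ : H₁ ≃* SL(2, ZMod 3)) (e₂ : H₂ ≃* SL(2, ZMod 3))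
    (hm : (H₁ ⊓ H₂).map (C1[z]).subtype = zpowers z) {Q : Subgroup C1[z]} [Q.Normal]
    (hQ : Q = Op 2 (H₁ ⊔ H₂)) (hF : generalizedFittingSubgroup C1[z] = Q)
    (hn : ∃ g : G, (∃ hq : g * z * g⁻¹ ∈ C1[z], (⟨g * z * g⁻¹, hq⟩ : C1[z]) ∈ Q) ∧ g * z * g⁻¹ ≠ z)
    (hH : Nat.card C1[z] = 2 ^ 7 * 3 ^ 2) (hg : ∀ g : G, g * z * g⁻¹ ∈ Q.map (C1[z]).subtype →
      g * z * g⁻¹ ≠ z → Nat.card ↥(Q.map (C1[z]).subtype ⊓ cj[g] (Q.map (C1[z]).subtype)) = 4) :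
    Nonempty (X0 ≃* G) := by
  obtain ⟨a, b⟩ := es_of_sl (z := (⟨z, mem_cent1.2 rfl⟩ : C1[z])) (by rwa [orderOf_mk])
    (fun x => Subtype.ext (mem_cent1.1 x.2).symm) ((normal_subgroupOf_iff_le_normalizer le_sup_left).1 hn₁)
    ((normal_subgroupOf_iff_le_normalizer le_sup_right).1 hn₂) e₁ e₂
    (map_injective (C1[z]).subtype_injective (by rw [hm, MonoidHom.map_zpowers]; rfl))
  rw [← hQ] at a b
  obtain ⟨g, h⟩ := LT.of_stmt (w := 2) (N := 36) hz hF a.isExtraspecial b (by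
    have := card_eq_card_quotient_mul_card_subgroup Q
    rw [hH, b] at this; omega) hn
  refine iso h fun x h1 h2 => ?_
  have l := h.lp (by norm_num)
  have s2 := conj_mul_self g h.zz
  have c := h.zc _ h.sQ
  refine (eq_of_le_of_card_ge (H := VV z (g * z * g⁻¹)) ((closure_le _).2 ?_) ?_).ge (mem_inf.2 ⟨h1, h2⟩)
  · rintro _ (rfl | rfl)
    exacts [⟨h.mem, l.zS⟩, ⟨h.sQ, conj_mem_conj.2 h.mem⟩]
  · rw [hg g h.sQ h.sne]
    obtain ⟨n, e⟩ := (VV_pgroup h.zz s2 c).exists_card_eq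
    have := card_lt_of_lt (lt_of_le_of_ne (zpowers_le.2 (subset_closure (by simp)) : zpowers z ≤ VV z (g * z * g⁻¹))
      fun e => ((mem_zpowers_of_sq h.zz).1 (e.ge (subset_closure (by simp)))).elim
        (by simpa using h.ne) h.sne)
    rw [Nat.card_zpowers, hz, e] at this
    rw [e]
    rcases n with _ | _ | n
    · omega
    · omega
    · exact Nat.pow_le_pow_right (n := 2) (by norm_num) (show 2 ≤ _ by omega)

theorem iso_PSU (K : Type) [Field K] [Fintype K] (hK : Fintype.card K = 9) : Nonempty (X0 ≃* PSU 4 K 3) := by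
  obtain ⟨e⟩ := Leech.U43.iso_PSU
  let r := FiniteField.ringEquivOfCardEq (Leech.U43.card_K9.trans hK.symm)
  refine ⟨e.trans (quotCenterCongr (((slCongr r).subgroupMap _).trans (MulEquiv.subgroupCongr ?_)))⟩
  have key : ∀ {F F' : Type} [Field F] [Field F'] (e : F ≃+* F') (g : Matrix.SpecialLinearGroup (Fin 4) F),
      g ∈ SU 4 F 3 → slCongr e g ∈ SU 4 F' 3 := fun {F F'} _ _ e g hg u v => by
    have := congrArg e (hg (e.symm ∘ u) (e.symm ∘ v))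
    simpa [hermForm, slToMat, slCongr, Matrix.mulVec, dotProduct] using this
  ext g
  exact ⟨fun ⟨k, hk, h⟩ => h ▸ key r k hk, fun hg => ⟨slCongr r.symm g, key r.symm g hg,
    (slCongr r).apply_symm_apply g⟩⟩

end Cfsg.Agent.XL.U4
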