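import Cfsg.Agent.XL.Am

/-! # Exact stabiliser chains and sifting in word models -/

set_option autoImplicit false

namespace Cfsg.Agent.XL

open Cfsg Cfsg.Agent.GT Cfsg.Agent.TT Cfsg.Agent.TC Cfsg.Agent.M24 Subgroup MulAction

variable {X Ω : Type*} [Group X] [MulAction X Ω] {idx : Ω → ℕ} {m : ℕ → X}
  {f : ℕ → ℕ → ℕ} {k n : ℕ} {bs ls ls0 p w : List ℕ} {H F C : Subgroup X}

/-- the letters act through the tables -/
structure Ma (idx : Ω → ℕ) (m : ℕ → X) (f : ℕ → ℕ → ℕ) (k n : ℕ) : Prop where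
  inj : Function.Injective idx
  act : ∀ i < k, ∀ x, idx (m i • x) = f i (idx x)
  lt : ∀ x, idx x < n
  sur : ∀ q < n, ∃ x, idx x = q

theorem Ma.ap (h : Ma idx m f k n) (hw : ∀ i ∈ w, i < k) (x : Ω) :
    idx (evl m w • x) = apl f w (idx x) := apl_evl (fun i hi => h.act i (hw i hi)) x

theorem Ma.md (h : Ma idx m f k n) (hb : ⊤ ⊓ fxs X idx bs = Mb m []) : Md idx m f k bs :=
  ⟨h.inj, h.act, fun g hg => mem_bot.1 ((Mb.le (S := ⊥) (by simp)) (hb ▸ ⟨trivial,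
    (mem_fixingSubgroup_iff X).2 hg⟩ : g ∈ Mb m []))⟩

theorem Ma.num (h : Ma idx m f k n) (hb : llt n bs = true) : Md.Num idx n bs :=
  ⟨h.lt, fun q hq => h.sur q (llt_iff.1 hb q hq)⟩

/-- new letters given by words -/
theorem Ma.ext (h : Ma idx m f k n) {wd : ℕ → ℕ} {f' : ℕ → ℕ → ℕ} {k' : ℕ}
    (hc : nall k' (fun i => band (llt k (dw (wd i))) (ptEq n (apl f (dw (wd i))) (f' i))) = true) :
    Ma idx (fun i => evl m (dw (wd i))) f' k' n := by
  simp only [nall_iff, band_eq, Bool.and_eq_true, llt_iff, ptEq, Nat.beq_eq] at hc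
  exact ⟨h.inj, fun i hi x => (h.ap (hc i hi).1 x).trans ((hc i hi).2 _ (h.lt x)), h.lt, h.sur⟩

theorem Md.of_ma {m' : ℕ → X} {f' : ℕ → ℕ → ℕ} {k' : ℕ} (h : Md idx m f k bs) (a : Ma idx m' f' k' n) :
    Md idx m' f' k' bs := ⟨a.inj, a.act, h.base⟩

theorem mem_fxs {g : X} : g ∈ fxs X idx p ↔ ∀ x, idx x ∈ p → g • x = x := mem_fixingSubgroup_iff X

theorem fxs_nil : fxs X idx [] = ⊤ := eq_top_iff.2 fun _ _ => mem_fxs.2 (by simp)

theorem fxs_cons (hi : Function.Injective idx) (x : Ω) :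
    fxs X idx (idx x :: p) = fxs X idx p ⊓ stabilizer X x := Subgroup.ext fun g => by
  rw [mem_inf, mem_fxs, mem_fxs, mem_stabilizer_iff]
  exact ⟨fun a => ⟨fun y hy => a y (List.mem_cons_of_mem _ hy), a x List.mem_cons_self⟩,
    fun a y hy => (List.mem_cons.1 hy).elim (fun e => hi e ▸ a.2) (a.1 y)⟩

theorem card_orb (H : Subgroup X) (x : Ω) :
    Nat.card H = {y | ∃ g ∈ H, g • x = y}.ncard * Nat.card (H ⊓ stabilizer X x : Subgroup X) := by
  rw [← card_mul_relIndex (inf_le_left : H ⊓ stabilizer X x ≤ H), mul_comm, inf_relIndex_left, relIndex,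
    show (stabilizer X x).subgroupOf H = stabilizer H x from rfl, index_stabilizer]
  congr 2
  exact Set.ext fun y => ⟨fun ⟨g, e⟩ => ⟨g, g.2, e⟩, fun ⟨g, hg, e⟩ => ⟨⟨g, hg⟩, e⟩⟩

/-- apply a coded word -/
noncomputable def apd (f : ℕ → ℕ → ℕ) (s q : ℕ) : ℕ := apl f (dw s) q

/-- one level of a chain -/
noncomputable def lvChk (f : ℕ → ℕ → ℕ) (ls : List ℕ) (n : ℕ) (p : List ℕ) (L : Lvl) : Bool :=
  band (band (band (Nat.ble (Nat.succ L.b) n) (L.t.srt (nat_lit 0) n)) (connChk (apd f) L.gens L.b L.t))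
    (lall L.gens fun s => band (lsub (dw s) ls) (lall p fun q => Nat.beq (apd f s q) q))

theorem Ma.lv (h : Ma idx m f k n) (hl : ∀ i ∈ ls, i < k) {L : Lvl} (hc : lvChk f ls n p L = true) :
    ∃ x, idx x = L.b ∧ (∀ q ∈ L.t.keys, ∃ g ∈ Mb m ls ⊓ fxs X idx p, idx (g • x) = q) ∧
      ∀ S : Set Ω, (∀ y, y ∈ S ↔ idx y ∈ L.t.keys) → S.ncard = L.t.size := by
  simp only [lvChk, band_eq, Bool.and_eq_true, lall_iff, lsub_iff, Nat.ble_eq, Nat.beq_eq] at hc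
  obtain ⟨⟨⟨h0, h1⟩, h2⟩, h3⟩ := hc
  obtain ⟨x, e⟩ := h.sur _ h0
  have hk : ∀ q ∈ L.t.keys, ∃ g ∈ Mb m ls ⊓ fxs X idx p, idx (g • x) = q :=
    conn_gen h2 ⟨1, one_mem _, by rw [one_smul, e]⟩ fun s hs b ⟨g, hg, eg⟩ =>
      have a := h.ap fun i hi => hl i ((h3 s hs).1 i hi)
      ⟨evl m (dw s) * g, mul_mem ⟨Mb.ev (h3 s hs).1, mem_fxs.2 fun y hy => h.inj
        ((a y).trans ((h3 s hs).2 _ hy))⟩ hg, by rw [mul_smul, a, eg]; rfl⟩
  refine ⟨x, e, hk, fun S hS => ?_⟩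
  rw [T.size_eq, ← List.toFinset_card_of_nodup (T.srt_nodup h1), ← Set.ncard_coe_finset,
    ← Set.ncard_image_of_injective _ h.inj]
  congr 1
  ext q
  simp only [Set.mem_image, hS, List.coe_toFinset, Set.mem_setOf_eq]
  exact ⟨fun ⟨y, a, b⟩ => b ▸ a, fun a => let ⟨g, _, b⟩ := hk q a; ⟨_, b ▸ a, b⟩⟩

/-- exact orbits along a base -/
def Ex (idx : Ω → ℕ) (H F : Subgroup X) : List Lvl → List ℕ → Prop
  | [], p => H ⊓ fxs X idx p = F
  | L :: Ls, p => (∀ g ∈ H ⊓ fxs X idx p, ∀ x, idx x = L.b → idx (g • x) ∈ L.t.keys) ∧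
      Ex idx H F Ls (L.b :: p)

/-- check of a chain -/
noncomputable def exChk (f : ℕ → ℕ → ℕ) (ls ls0 : List ℕ) (n : ℕ) : List Lvl → List ℕ → Bool
  | [], p => band (lsub ls0 ls) (lall ls0 fun i => lall p fun q => Nat.beq (f i q) q)
  | L :: Ls, p => band (lvChk f ls n p L) (exChk f ls ls0 n Ls (L.b :: p))

theorem Ma.ex_aux [Finite X] (h : Ma idx m f k n) (hl : ∀ i ∈ ls, i < k) (hH : Mb m ls ≤ H) :
    ∀ {Ls : List Lvl} {p : List ℕ}, exChk f ls ls0 n Ls p = true →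
      chainSize Ls * Nat.card (Mb m ls0) ≤ Nat.card (H ⊓ fxs X idx p : Subgroup X) ∧
      (Nat.card (H ⊓ fxs X idx p : Subgroup X) ≤ chainSize Ls * Nat.card (Mb m ls0) →
        Ex idx H (Mb m ls0) Ls p)
  | [], p, hc => by
    simp only [exChk, band_eq, Bool.and_eq_true, lall_iff, lsub_iff, Nat.beq_eq] at hc
    have a : Mb m ls0 ≤ H ⊓ fxs X idx p := le_inf ((Mb.mono hc.1).trans hH) (Mb.le fun i hi =>
      mem_fxs.2 fun x hx => h.inj ((h.act i (hl i (hc.1 i hi)) x).trans (hc.2 i hi _ hx)))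
    rw [show chainSize [] = 1 from rfl, one_mul]
    exact ⟨card_le_of_le a, fun b => (eq_of_le_of_card_ge a b).symm⟩
  | L :: Ls, p, hc => by
    rw [exChk, band_eq, Bool.and_eq_true] at hc
    obtain ⟨x, e, a, b⟩ := h.lv hl hc.1
    obtain ⟨i1, i2⟩ := h.ex_aux hl hH hc.2
    have c := card_orb (H ⊓ fxs X idx p) x
    rw [inf_assoc, ← fxs_cons h.inj, e] at c
    haveI : Finite Ω := Finite.of_injective (fun x => (⟨idx x, h.lt x⟩ : Fin n)) fun _ _ e =>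
      h.inj (congrArg Fin.val e)
    have d : {y | idx y ∈ L.t.keys} ⊆ {y | ∃ g ∈ H ⊓ fxs X idx p, g • x = y} := fun y hy =>
      let ⟨g, u, v⟩ := a _ hy; ⟨g, ⟨hH u.1, u.2⟩, h.inj v⟩
    have d0 := b {y | idx y ∈ L.t.keys} fun _ => Iff.rfl
    have d1 := Set.ncard_le_ncard d
    rw [d0] at d1
    have s : chainSize (L :: Ls) = L.t.size * chainSize Ls := rfl
    rw [s, mul_assoc, c]
    refine ⟨Nat.mul_le_mul d1 i1, fun u => ?_⟩
    have p1 : 0 < Nat.card (H ⊓ fxs X idx (L.b :: p) : Subgroup X) := Nat.card_pos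
    have p2 : 0 < {y | ∃ g ∈ H ⊓ fxs X idx p, g • x = y}.ncard :=
      (Set.ncard_pos).2 ⟨x, 1, one_mem _, one_smul _ _⟩
    refine ⟨fun g hg y hy => ?_, i2 (Nat.le_of_mul_le_mul_left (u.trans (Nat.mul_le_mul_right _ d1)) p2)⟩
    have := Set.eq_of_subset_of_ncard_le d (by
      rw [d0]
      exact Nat.le_of_mul_le_mul_right (u.trans (Nat.mul_le_mul_left _ i1)) p1)
    rw [h.inj (hy.trans e.symm)]
    exact this.ge ⟨g, hg, rfl⟩

theorem Ma.exact [Finite X] (h : Ma idx m f k n) (hH : Mb m ls ≤ H) {Ls : List Lvl} {N N0 : ℕ}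
    (h0 : Nat.card (Mb m ls0) = N0) (hN : Nat.card H ≤ N)
    (hc : band (band (llt k ls) (Nat.beq (chainSize Ls * N0) N)) (exChk f ls ls0 n Ls []) = true) :
    Ex idx H (Mb m ls0) Ls [] ∧ H = Mb m ls ∧ Nat.card H = N := by
  simp only [band_eq, Bool.and_eq_true, llt_iff, Nat.beq_eq] at hc
  have a := h.ex_aux hc.1.1 hH hc.2
  have b := (h.ex_aux hc.1.1 le_rfl hc.2).1
  rw [fxs_nil, inf_top_eq, h0, hc.1.2] at a b
  exact ⟨a.2 hN, (eq_of_le_of_card_ge hH (hN.trans b)).symm, le_antisymm hN a.1⟩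

theorem card_nil : Nat.card (Mb m []) = 1 := by
  rw [show Mb m [] = ⊥ from eq_bot_iff.2 (Mb.le (by simp)), card_bot]

theorem Ex.last : ∀ {Ls : List Lvl} {p : List ℕ}, Ex idx H F Ls p →
    H ⊓ fxs X idx ((Ls.map Lvl.b).reverse ++ p) = F
  | [], _, h => h
  | _ :: _, _, h => by simpa using Ex.last h.2

/-- check of a sifting -/
noncomputable def sfChk (f : ℕ → ℕ → ℕ) (ls : List ℕ) (n : ℕ) (pr : ℕ → ℕ → Bool) :
    List Lvl → List Lvl → List ℕ → Bool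
  | [], [], _ => true
  | L :: Ls, S :: Ss, p => band (band (Nat.beq L.b S.b) (lvChk f ls n p S))
      (band (L.t.all fun q _ _ => bor (!pr L.b q) (S.t.has q)) (sfChk f ls n pr Ls Ss (L.b :: p)))
  | _, _, _ => false

theorem Ma.sift_aux [Finite X] (h : Ma idx m f k n) (hl : ∀ i ∈ ls, i < k) (hS : Mb m ls ≤ C ⊓ H)
    {pr : ℕ → ℕ → Bool} (hP : ∀ g ∈ C, ∀ x, pr (idx x) (idx (g • x)) = true) (hF : C ⊓ F ≤ Mb m ls) :
    ∀ {Ls Ss : List Lvl} {p : List ℕ}, Ex idx H F Ls p → sfChk f ls n pr Ls Ss p = true →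
      C ⊓ H ⊓ fxs X idx p ≤ Mb m ls ∧
      Nat.card (C ⊓ H ⊓ fxs X idx p : Subgroup X) = chainSize Ss * Nat.card (C ⊓ F : Subgroup X)
  | [], [], p, e, _ => by
    rw [inf_assoc, show H ⊓ fxs X idx p = F from e]
    exact ⟨hF, (one_mul _).symm⟩
  | [], _ :: _, _, _, hc => by simp [sfChk] at hc
  | _ :: _, [], _, _, hc => by simp [sfChk] at hc
  | L :: Ls, S :: Ss, p, e, hc => by
    simp only [sfChk, band_eq, bor_eq, Bool.and_eq_true, Bool.or_eq_true, Nat.beq_eq, T.all_iff,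
      Bool.not_eq_true'] at hc
    obtain ⟨⟨h1, h2⟩, h3, h4⟩ := hc
    obtain ⟨x, ex, a, b⟩ := h.lv hl h2
    obtain ⟨i1, i2⟩ := h.sift_aux hl hS hP hF e.2 h4
    rw [h1, ← ex, fxs_cons h.inj, ← inf_assoc] at i1 i2
    have c : ∀ g ∈ C ⊓ H ⊓ fxs X idx p, idx (g • x) ∈ S.t.keys := fun g hg => by
      obtain ⟨u, v, o⟩ := T.mem_keys.1 (e.1 g ⟨hg.1.2, hg.2⟩ x (ex.trans h1.symm))
      exact T.has_sound ((h3 _ _ _ o).resolve_left (by rw [h1, ← ex, hP g hg.1.1]; simp))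
    refine ⟨fun g hg => ?_, ?_⟩
    · obtain ⟨s, u, v⟩ := a _ (c g hg)
      rw [mem_inf] at u
      have := i1 (mem_inf.2 ⟨mul_mem (inv_mem (mem_inf.2 ⟨hS u.1, u.2⟩)) hg, by
        rw [mem_stabilizer_iff, mul_smul, ← h.inj v, inv_smul_smul]⟩)
      exact (mul_mem_cancel_left (inv_mem u.1)).1 this
    · rw [card_orb _ x, i2, b {y | ∃ g ∈ C ⊓ H ⊓ fxs X idx p, g • x = y} fun y =>
        ⟨fun ⟨g, hg, o⟩ => o ▸ c g hg, fun o =>
        let ⟨s, u, v⟩ := a _ o; ⟨s, ⟨hS u.1, u.2⟩, h.inj v⟩⟩, ← mul_assoc]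
      rfl

theorem Ma.sift [Finite X] (h : Ma idx m f k n) {Ls Ss : List Lvl} (e : Ex idx H F Ls [])
    (hS : Mb m ls ≤ C ⊓ H) {pr : ℕ → ℕ → Bool} (hP : ∀ g ∈ C, ∀ x, pr (idx x) (idx (g • x)) = true)
    (hF : C ⊓ F ≤ Mb m ls0) (h0 : Mb m ls0 ≤ F) {N N0 : ℕ} (c0 : Nat.card (Mb m ls0) = N0)
    (hc : band (band (band (llt k ls) (lsub ls0 ls)) (Nat.beq (chainSize Ss * N0) N))
      (sfChk f ls n pr Ls Ss []) = true) : C ⊓ H = Mb m ls ∧ Nat.card (Mb m ls) = N := by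
  simp only [band_eq, Bool.and_eq_true, llt_iff, lsub_iff, Nat.beq_eq] at hc
  have a := Mb.mono (u := m) hc.1.1.2
  obtain ⟨b, c⟩ := h.sift_aux hc.1.1.1 hS hP (hF.trans a) e hc.2
  rw [fxs_nil, inf_top_eq] at b c
  rw [le_antisymm hF (le_inf (a.trans (hS.trans inf_le_left)) h0), c0, hc.1.2] at c
  exact ⟨le_antisymm b hS, le_antisymm b hS ▸ c⟩

/-- the word fixes the point -/
noncomputable def fxw (f : ℕ → ℕ → ℕ) (w : List ℕ) (q : ℕ) : Bool := Nat.beq (apl f w q) q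

theorem Ma.fxw_iff (h : Ma idx m f k n) (hw : ∀ i ∈ w, i < k) {x : Ω} :
    fxw f w (idx x) = true ↔ evl m w • x = x := by
  rw [fxw, Nat.beq_eq, ← h.ap hw, h.inj.eq_iff]

/-- fixed points are preserved by centralizers -/
noncomputable def cpr (f : ℕ → ℕ → ℕ) (ws : List (List ℕ)) (b q : ℕ) : Bool :=
  ws.all fun w => bor (!fxw f w b) (fxw f w q)

theorem Ma.cpr (h : Ma idx m f k n) {ws : List (List ℕ)} (hw : ws.all (llt k) = true) {g : X}
    (hg : ∀ w ∈ ws, Commute g (evl m w)) (x : Ω) : cpr f ws (idx x) (idx (g • x)) = true := by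
  simp only [XL.cpr, List.all_eq_true, bor_eq, Bool.or_eq_true, Bool.not_eq_true', ← Bool.not_eq_true,
    llt_iff] at hw ⊢
  intro w a
  rw [h.fxw_iff (hw w a), h.fxw_iff (hw w a), ← mul_smul, ← (hg w a).eq, mul_smul]
  exact (em _).symm.imp_right fun e => by rw [e]

/-- fixed points are preserved by normalizers -/
noncomputable def npr (f : ℕ → ℕ → ℕ) (ws : List (List ℕ)) (b q : ℕ) : Bool :=
  band (bor (!ws.all fun w => fxw f w b) (ws.all fun w => fxw f w q))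
    (bor (!ws.any fun w => fxw f w b) (ws.any fun w => fxw f w q))

theorem Ma.npr (h : Ma idx m f k n) {ws : List (List ℕ)} {S : Subgroup X} (hl : Lists m k S ([] :: ws))
    (h1 : ∀ w ∈ ws, evl m w ≠ 1) {g : X} (hg : g ∈ N[S]) (x : Ω) :
    npr f ws (idx x) (idx (g • x)) = true := by
  have a : ∀ w ∈ ws, ∀ y, fxw f w (idx y) = true ↔ evl m w • y = y := fun w hw y =>
    h.fxw_iff (hl.1 w (List.mem_cons_of_mem _ hw)).1
  have b : ∀ u ∈ N[S], ∀ w ∈ ws, ∃ w' ∈ ws, evl m w' = u * evl m w * u⁻¹ := fun u hu w hw => by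
    obtain ⟨w', c, d⟩ := hl.2 _ (conj_mem_of_mem_norm hu (hl.1 w (List.mem_cons_of_mem _ hw)).2)
    exact ⟨w', (List.mem_cons.1 c).resolve_left fun e => h1 w hw (by
      rw [e] at d; simpa [evl] using d.symm), d⟩
  simp only [XL.npr, List.all_eq_true, List.any_eq_true, band_eq, bor_eq, Bool.or_eq_true, Bool.and_eq_true,
    Bool.not_eq_true', ← Bool.not_eq_true]
  refine ⟨(em _).symm.imp_right fun e w hw => ?_, (em _).symm.imp_right fun ⟨w, hw, e⟩ => ?_⟩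
  · obtain ⟨w', c, d⟩ := b _ (inv_mem hg) w hw
    have := (a _ c _).1 (e w' c)
    rwa [d, inv_inv, mul_smul, mul_smul, inv_smul_eq_iff, ← a w hw] at this
  · obtain ⟨w', c, d⟩ := b _ hg w hw
    exact ⟨w', c, (a _ c _).2 (by rw [d, mul_smul, mul_smul, inv_smul_smul, (a w hw _).1 e])⟩

/-- the elements of an enumerated group passing a test are given by words -/
theorem Md.inf_le [Finite X] (h : Md idx m f k bs) (hn : Md.Num idx n bs) {t : T} {c : List ℕ → Bool}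
    (hc : enumChk f k n bs ls t (fun w b => bor (!c w) (band (lsub (dw b) ls0) (eqw f k bs w (dw b)))) = true)
    (hC : ∀ w, (∀ i ∈ w, i < k) → evl m w ∈ C → c w = true) : C ⊓ Mb m ls ≤ Mb m ls0 := fun g hg => by
  obtain ⟨w, b, a, rfl, e⟩ := h.enum hn hc g hg.2
  simp only [band_eq, bor_eq, Bool.or_eq_true, Bool.and_eq_true, hC w a hg.1] at e
  exact h.eq (e.resolve_left (by simp)).2 ▸ Mb.ev' (e.resolve_left (by simp)).1

theorem Md.card [Finite X] (h : Md idx m f k bs) (hn : Md.Num idx n bs) {t : T} {P : List ℕ → ℕ → Bool}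
    (hc : enumChk f k n bs ls t P = true) {N : ℕ}
    (hs : band (t.srt 0 (n ^ bs.length)) (Nat.beq t.size N) = true) : Nat.card (Mb m ls) = N := by
  rw [band_eq, Bool.and_eq_true, Nat.beq_eq] at hs
  exact ((h.enum' hn hc).2 _ hs.1).trans hs.2

theorem Md.cent (h : Md idx m f k bs) (hc : lall ls (fun i => cmb f k bs [i] w) = true) :
    Mb m ls ≤ C1[evl m w] := Mb.le fun i hi => mem_cent1.2 (by
  have := h.eq ((lall_iff _ _).1 hc i hi)
  simpa [evl_append, evl] using this)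

theorem Md.norms [Finite X] (h : Md idx m f k bs) {ws : List (List ℕ)}
    (hc : lall ls (fun i => nmChk f k bs ls0 ws [i]) = true) : Mb m ls ≤ N[Mb m ls0] :=
  Mb.le fun i hi => one_mul (m i) ▸ h.norm ((lall_iff _ _).1 hc i hi)

theorem Ma.fix (h : Ma idx m f k n) (hc : band (llt k ls) (lall ls fun i => lall p fun q =>
    Nat.beq (f i q) q) = true) : Mb m ls ≤ fxs X idx p := by
  simp only [band_eq, Bool.and_eq_true, lall_iff, llt_iff, Nat.beq_eq] at hc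
  exact Mb.le fun i hi => mem_fxs.2 fun x hx => h.inj ((h.act i (hc.1 i hi) x).trans (hc.2 i hi _ hx))

end Cfsg.Agent.XL
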