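import Cfsg.Agent.XL.Pair
import Cfsg.Agent.TC.PB

/-! # Comparison of two involution centralizers -/

set_option autoImplicit false

namespace Cfsg.Agent.XL

open Cfsg Cfsg.Agent.GT Cfsg.Agent.TT Cfsg.Agent.Cl.Orth Cfsg.Agent.TC Subgroup

/-- the data of a pair with coordinates -/
structure Dt (G V : Type*) [Group G] where
  /-- the extraspecial group -/
  Q : Subgroup G
  /-- its central involution -/
  z : G
  /-- the second extraspecial group -/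
  S : Subgroup G
  /-- its central involution -/
  s : G
  /-- coordinates -/
  π : G → V

variable {V : Type*} [AddCommGroup V] [Module (ZMod 2) V]

/-- the full hypothesis -/
structure XP {G : Type*} [Group G] (q : QuadraticForm (ZMod 2) V) (e f : V) (A : Dt G V) : Prop where
  xc : XC q A.Q A.z A.π
  xt : XT q e f A.Q A.z A.S A.s A.π
  card : Nat.card A.Q ≤ Nat.card A.S

variable {G₀ G : Type*} [Group G₀] [Group G]

/-- graph of an isomorphism of the extraspecial groups -/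
structure DG (A : Dt G₀ V) (B : Dt G V) (Δ : Subgroup (G₀ × G)) : Prop where
  mem : ∀ p ∈ Δ, p.1 ∈ A.Q ∧ p.2 ∈ B.Q ∧ A.π p.1 = B.π p.2
  fst : ∀ x ∈ A.Q, ∃ y, (x, y) ∈ Δ
  zz : (A.z, B.z) ∈ Δ
  ss : (A.s, B.s) ∈ Δ
  inj : (1, B.z) ∉ Δ

/-- the fibre product -/
def EE (A : Dt G₀ V) (B : Dt G V) (Δ : Subgroup (G₀ × G)) : Subgroup (G₀ × G) :=
  (C1[A.z].prod C1[B.z]) ⊓ N[Δ]

/-- graph of an isomorphism of the centralizers -/
structure KG (A : Dt G₀ V) (B : Dt G V) (Δ K : Subgroup (G₀ × G)) : Prop where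
  le : K ≤ EE A B Δ
  dg : Δ ≤ K
  fst : ∀ c ∈ C1[A.z], ∃ d, (c, d) ∈ K
  inj : (1, B.z) ∉ K

variable {q : QuadraticForm (ZMod 2) V} {e f : V} {A : Dt G₀ V} {B : Dt G V}
  {Δ K : Subgroup (G₀ × G)} {p r : G₀ × G} {g : OG q}

theorem XP.xq (h : XP q e f A) : XQ q A.Q A.z A.π := h.xc.toXQ

theorem XP.tr (h : XP q e f A) : TR A.Q A.z A.S A.s := h.xt.tr

namespace DG

theorem either (h : DG A B Δ) (hB : XP q e f B) {x : G₀} {y : G} (hx : x ∈ A.Q) (hy : y ∈ B.Q)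
    (e1 : A.π x = B.π y) : (x, y) ∈ Δ ∨ (x, y * B.z) ∈ Δ := by
  obtain ⟨y', a⟩ := h.fst x hx
  obtain ⟨-, b, c⟩ := h.mem _ a
  rcases (hB.xq.eq_iff hy b).1 (e1.symm.trans c) with rfl | rfl
  exacts [Or.inl a, Or.inr a]

theorem not_both (h : DG A B Δ) {x : G₀} {y : G} (a : (x, y) ∈ Δ) (b : (x, y * B.z) ∈ Δ) : False :=
  h.inj (by simpa using mul_mem (inv_mem a) b)

theorem uniq (h : DG A B Δ) (hB : XP q e f B) {x : G₀} {y y' : G} (a : (x, y) ∈ Δ)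
    (b : (x, y') ∈ Δ) : y' = y := by
  rcases (hB.xq.eq_iff (h.mem _ a).2.1 (h.mem _ b).2.1).1
    ((h.mem _ a).2.2.symm.trans (h.mem _ b).2.2) with c | c
  · exact c
  · exact (h.not_both a (by have c' : y' = y * B.z := c; rwa [c'] at b)).elim

theorem snd (h : DG A B Δ) (hA : XP q e f A) (hB : XP q e f B) {y : G} (hy : y ∈ B.Q) :
    ∃ x, (x, y) ∈ Δ := by
  obtain ⟨x, hx, e1⟩ := hA.xq.surj (B.π y)
  rcases h.either hB hx hy e1 with a | a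
  · exact ⟨x, a⟩
  · exact ⟨x * A.z, by simpa [mul_assoc, hB.xq.zz] using mul_mem a h.zz⟩

theorem uniq' (h : DG A B Δ) (hA : XP q e f A) (hB : XP q e f B) {x x' : G₀} {y : G}
    (a : (x, y) ∈ Δ) (b : (x', y) ∈ Δ) : x' = x := by
  rcases (hA.xq.eq_iff (h.mem _ a).1 (h.mem _ b).1).1
    ((h.mem _ a).2.2.trans (h.mem _ b).2.2.symm) with c | c
  · exact c
  · have c' : x' = x * A.z := c
    rw [c'] at b
    exact (h.not_both a (by simpa [mul_assoc, hA.xq.zz] using mul_mem b h.zz)).elim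

theorem Y1 (h : DG A B Δ) (hA : XP q e f A) (hB : XP q e f B) (hp : p ∈ Δ) :
    p.1 ∈ C1[A.s] ↔ p.2 ∈ C1[B.s] := by
  rw [hA.xt.Y1_iff (h.mem p hp).1, hB.xt.Y1_iff (h.mem p hp).2.1, (h.mem p hp).2.2]

theorem sz (h : DG A B Δ) : (A.s * A.z, B.s * B.z) ∈ Δ := mul_mem h.ss h.zz

theorem le_EE (h : DG A B Δ) (hA : XP q e f A) (hB : XP q e f B) : Δ ≤ EE A B Δ := fun p hp =>
  ⟨⟨hA.xq.le_cent1 (h.mem p hp).1, hB.xq.le_cent1 (h.mem p hp).2.1⟩, le_normalizer hp⟩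

end DG

theorem EE.conj (hp : p ∈ EE A B Δ) (hr : r ∈ Δ) : p * r * p⁻¹ ∈ Δ := conj_mem_of_mem_norm hp.2 hr

theorem EE.conj' (hp : p ∈ EE A B Δ) (hr : r ∈ Δ) : p⁻¹ * r * p ∈ Δ := by
  simpa using EE.conj (inv_mem hp) hr

theorem exists_DG [Finite G₀] [Finite G] (hA : XP q e f A) (hB : XP q e f B) : ∃ Δ, DG A B Δ := by
  obtain ⟨φ, h1, h2⟩ := hA.xq.xs.exists_hom_lift hB.xq.xs
  obtain ⟨k, hk, h3⟩ : ∃ k ∈ B.Q, k * (φ ⟨A.s, hA.tr.sQ⟩ : G) * k⁻¹ = B.s := by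
    rcases (hB.xq.eq_iff hB.tr.sQ (φ ⟨A.s, hA.tr.sQ⟩).2).1
      (hB.xt.πs.trans (hA.xt.πs.symm.trans (h2 ⟨A.s, hA.tr.sQ⟩).symm)) with a | a
    · exact ⟨1, one_mem _, by simpa using a⟩
    · obtain ⟨k, hk, -, b⟩ := hB.xq.exists_q hB.tr.sQ hB.xt.πs hB.xt.hyp
      exact ⟨k⁻¹, inv_mem hk, by rw [a, ← b]; group⟩
  let ψ : A.Q →* G₀ × G := A.Q.subtype.prod ((MulAut.conj k).toMonoidHom.comp (B.Q.subtype.comp φ))
  have hz : k * B.z * k⁻¹ = B.z := XQ.conj_z (hB.xq.le_cent1 hk)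
  refine ⟨ψ.range, ?_, fun x hx => ⟨_, ⟨x, hx⟩, rfl⟩, ⟨⟨A.z, hA.xq.mem⟩, Prod.ext rfl ?_⟩,
    ⟨⟨A.s, hA.tr.sQ⟩, Prod.ext rfl h3⟩, ?_⟩
  · rintro _ ⟨x, rfl⟩
    exact ⟨x.2, hB.xq.conjQ (hB.xq.le_cent1 hk) (φ x).2,
      (h2 x).symm.trans ((hB.xq.ac_Q hk).2 _ (φ x).2).symm⟩
  · change k * (φ _ : G) * k⁻¹ = _
    rw [h1, hz]
  · rintro ⟨x, a⟩
    have b : x = 1 := Subtype.ext (congrArg Prod.fst a)
    rw [b, map_one] at a
    exact hB.xq.ne (congrArg Prod.snd a).symm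

theorem EE.ac (h : DG A B Δ) (hA : XP q e f A) (hB : XP q e f B) (hp : p ∈ EE A B Δ)
    (a : Ac A.Q A.z A.π p.1 g) : Ac B.Q B.z B.π p.2 g := by
  refine ⟨hp.1.2, fun y hy => ?_⟩
  obtain ⟨x, b⟩ := h.snd hA hB hy
  have c := (h.mem _ (EE.conj hp b)).2.2
  have d := (h.mem _ b).2.2
  change A.π (p.1 * x * p.1⁻¹) = B.π (p.2 * y * p.2⁻¹) at c
  rw [← c, a.2 x (h.mem _ b).1]; exact congrArg _ d

theorem zeta_mem (h : DG A B Δ) (hB : XP q e f B) : ((1 : G₀), B.z) ∈ EE A B Δ := by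
  refine ⟨⟨one_mem _, self_mem_cent1 _⟩, cent_le_norm _ (mem_centralizer_iff.2 fun p hp => ?_)⟩
  exact Prod.ext (by simp) (hB.xq.zc _ (h.mem p hp).2.1).symm.eq

theorem zeta_sq (hB : XP q e f B) : ((1 : G₀), B.z) * (1, B.z) = 1 :=
  Prod.ext (by simp) hB.xq.zz

theorem zeta_comm (hp : p ∈ EE A B Δ) : Commute p (1, B.z) :=
  Prod.ext (by simp) (mem_cent1.1 hp.1.2)

theorem EE.lift [Finite G₀] [Finite G] (h : DG A B Δ) (hA : XP q e f A) (hB : XP q e f B)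
    {c₀ : G₀} {c : G} (a : Ac A.Q A.z A.π c₀ g) (b : Ac B.Q B.z B.π c g) :
    ∃ k ∈ B.Q, (c₀, k * c) ∈ EE A B Δ := by
  have key : ∀ p ∈ Δ, (c₀ * p.1 * c₀⁻¹, c * p.2 * c⁻¹) ∈ Δ ∨
      (c₀ * p.1 * c₀⁻¹, c * p.2 * c⁻¹ * B.z) ∈ Δ := fun p hp =>
    h.either hB (hA.xq.conjQ a.1 (h.mem p hp).1) (hB.xq.conjQ b.1 (h.mem p hp).2.1)
      (by rw [a.2 _ (h.mem p hp).1, b.2 _ (h.mem p hp).2.1, (h.mem p hp).2.2])
  let M := (Δ ⊓ cj[(c₀, c)] Δ).map (MonoidHom.snd G₀ G)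
  have hM : ∀ p ∈ Δ, c * p.2 * c⁻¹ ∈ M ↔ (c₀ * p.1 * c₀⁻¹, c * p.2 * c⁻¹) ∈ Δ := fun p hp => by
    refine ⟨?_, fun m => ⟨_, ⟨m, conj_mem_conj.2 hp⟩, rfl⟩⟩
    rintro ⟨r, ⟨r1, r2⟩, r3⟩
    obtain ⟨p', hp', rfl⟩ := mem_conj_iff_exists.1 r2
    have e2 : p'.2 = p.2 := by simpa using r3
    have e1 : p'.1 = p.1 := h.uniq' hA hB (y := p.2) hp (e2 ▸ hp')
    rw [← e1, ← e2]; exact r1
  have hs : ∀ y ∈ B.Q, ∃ p ∈ Δ, y = c * p.2 * c⁻¹ := fun y hy => by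
    obtain ⟨x, m⟩ := h.snd hA hB (hB.xq.conjQ (inv_mem b.1) hy)
    exact ⟨_, m, by simp [mul_assoc]⟩
  obtain ⟨k, hk, hk'⟩ := hB.xq.exists_cent_eq (M := M) fun y hy y' hy' m m' => by
    obtain ⟨p, hp, rfl⟩ := hs y hy
    obtain ⟨p', hp', rfl⟩ := hs y' hy'
    have k1 := (key p hp).resolve_left (mt (hM p hp).2 m)
    have k2 := (key p' hp').resolve_left (mt (hM p' hp').2 m')
    have := (hM _ (mul_mem hp hp')).2 (by
      have := mul_mem k1 k2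
      rw [Prod.mk_mul_mk, mul_assoc _ B.z, ← mul_assoc B.z, (hB.xq.zc _ hy').eq, mul_assoc _ B.z,
        hB.xq.zz, mul_one] at this
      convert this using 2 <;> simp [mul_assoc])
    convert this using 1; simp [mul_assoc]
  refine ⟨k, hk, ⟨a.1, mul_mem (hB.xq.le_cent1 hk) b.1⟩,
    mem_normalizer_of_conj_le (conj_le_iff_forall.2 fun p hp => ?_)⟩
  have hy := hB.xq.conjQ b.1 (h.mem p hp).2.1
  have e1 : (c₀, k * c) * p * (c₀, k * c)⁻¹ = (c₀ * p.1 * c₀⁻¹, k * (c * p.2 * c⁻¹) * k⁻¹) :=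
    Prod.ext rfl (by simp [mul_assoc])
  rw [e1]
  by_cases m : c * p.2 * c⁻¹ ∈ M
  · rw [← ((hk' _ hy).2 m).eq, mul_inv_cancel_right]; exact (hM p hp).1 m
  · rw [hB.xq.conj_of_not hk hy fun d => m ((hk' _ hy).1 d.symm)]
    exact (key p hp).resolve_left (mt (hM p hp).2 m)

theorem EE.exists [Finite G₀] [Finite G] (h : DG A B Δ) (hA : XP q e f A) (hB : XP q e f B)
    {c₀ : G₀} (a : c₀ ∈ C1[A.z]) : ∃ c, (c₀, c) ∈ EE A B Δ := by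
  obtain ⟨g, a⟩ := hA.xq.exists_ac a
  obtain ⟨c, b⟩ := hB.xc.onto g (hA.xc.inE _ _ a)
  obtain ⟨k, -, m⟩ := EE.lift h hA hB a b
  exact ⟨_, m⟩

theorem EE.of_Q (h : DG A B Δ) (hA : XP q e f A) (hB : XP q e f B) (hp : p ∈ EE A B Δ)
    (a : p.1 ∈ A.Q) : p ∈ Δ ∨ p * (1, B.z) ∈ Δ := by
  obtain ⟨y, b⟩ := h.fst _ a
  have m := mul_mem (inv_mem (h.le_EE hA hB b)) hp
  have c : y⁻¹ * p.2 ∈ C[B.Q] := mem_centralizer_iff.2 fun y' hy' => by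
    obtain ⟨x', d⟩ := h.snd hA hB hy'
    have d' := EE.conj m d
    have : (p.1, y)⁻¹ * p * (x', y') * ((p.1, y)⁻¹ * p)⁻¹ =
      (x', y⁻¹ * p.2 * y' * (y⁻¹ * p.2)⁻¹) := Prod.ext (by simp) rfl
    rw [this] at d'
    exact (mul_inv_eq_iff_eq_mul.1 (h.uniq hB d d')).symm
  rw [hB.xq.cent_eq, hB.xq.mem_zp] at c
  rcases c with c | c
  · left; rwa [inv_mul_eq_one.1 c] at b
  · right
    have : p * (1, B.z) = (p.1, y) :=
      Prod.ext (by simp) (by rw [inv_mul_eq_iff_eq_mul] at c; simp [c, mul_assoc, hB.xq.zz])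
    rwa [this]

theorem EE.one [Finite G₀] (h : DG A B Δ) (hA : XP q e f A) (hB : XP q e f B) (hp : p ∈ EE A B Δ)
    (a : Ac A.Q A.z A.π p.1 (1 : OG q)) : p ∈ Δ ∨ p * (1, B.z) ∈ Δ :=
  EE.of_Q h hA hB hp (hA.xq.mem_of_ac a)

/-- commutators with `Y₁` -/
theorem EE.cm_Y (h : DG A B Δ) (hA : XP q e f A) (hB : XP q e f B) (hp : p ∈ EE A B Δ)
    (a : p.1 ∈ A.S ⊓ C1[A.z]) {x : G} (hx : x ∈ B.Q ⊓ C1[B.s]) :
    cm x p.2 = 1 ∨ cm x p.2 = B.s * B.z := by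
  obtain ⟨x₀, b⟩ := h.snd hA hB hx.1
  have c : (cm x₀ p.1, cm x p.2) ∈ Δ := by
    have := mul_mem b (EE.conj hp (inv_mem b))
    convert this using 1
    exact Prod.ext (by simp [cm, mul_assoc]) (by simp [cm, mul_assoc])
  rcases hA.tr.cm_sz ⟨(h.mem _ b).1, (h.Y1 hA hB b).2 hx.2⟩ a with d | d <;> rw [d] at c
  exacts [Or.inl (h.uniq hB (one_mem _) c), Or.inr (h.uniq hB h.sz c)]

theorem EE.mem_P (h : DG A B Δ) (hA : XP q e f A) (hB : XP q e f B) (hp : p ∈ EE A B Δ) :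
    p.1 ∈ C1[A.s] ↔ p.2 ∈ C1[B.s] := by
  have c : (p.1 * A.s * p.1⁻¹, p.2 * B.s * p.2⁻¹) ∈ Δ := EE.conj hp h.ss
  rw [mem_cent1, mem_cent1, ← mul_inv_eq_iff_eq_mul, ← mul_inv_eq_iff_eq_mul]
  exact ⟨fun a => h.uniq hB h.ss (a ▸ c), fun a => h.uniq' hA hB h.ss (a ▸ c)⟩

theorem EE.Y2 [Finite G] (h : DG A B Δ) (hA : XP q e f A) (hB : XP q e f B) (hp : p ∈ EE A B Δ)
    (a : p.1 ∈ A.S ⊓ C1[A.z]) : p.2 ∈ B.S ⊓ C1[B.z] :=
  hB.xt.mem_Y2 hB.card ⟨hp.1.2, (EE.mem_P h hA hB hp).1 (hA.tr.Y2P a).2⟩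
    fun _ hx => EE.cm_Y h hA hB hp a hx

theorem EE.sq_mul (h : DG A B Δ) (hB : XP q e f B) (hp : p ∈ EE A B Δ) (hr : r ∈ EE A B Δ)
    (a : r * r ∈ Δ) (b : r⁻¹ * p ∈ Δ ∨ r⁻¹ * p * (1, B.z) ∈ Δ) : p * p ∈ Δ := by
  have k : ∀ p, r⁻¹ * p ∈ Δ → p * p ∈ Δ := fun p b => by
    have := mul_mem (mul_mem a (EE.conj' hr b)) b
    convert this using 1; group
  rcases b with b | b
  · exact k p b
  · have := k (p * (1, B.z)) (by rwa [← mul_assoc])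
    rwa [mul_assoc, ← mul_assoc (1, B.z), ← (zeta_comm hp).eq, mul_assoc, zeta_sq hB,
      mul_one] at this

theorem EE.sq_Y2 [Finite G] (h : DG A B Δ) (hA : XP q e f A) (hB : XP q e f B) (hp : p ∈ EE A B Δ)
    (a : p.1 ∈ A.S ⊓ C1[A.z]) : p * p ∈ Δ := by
  have b := EE.Y2 h hA hB hp a
  obtain ⟨u, hu, -, c⟩ := hA.xt.ac_eich a
  have d := EE.ac h hA hB hp c
  have e1 := (hA.xt.sq_iff a c).trans (hB.xt.sq_iff b d).symm
  have : p * p = (p.1 * p.1, p.2 * p.2) := rfl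
  rw [this]
  rcases hA.tr.hS.sq _ a.1 with k | k
  · rw [e1.1 k, k]; exact one_mem _
  · rw [(hB.tr.hS.sq _ b.1).resolve_left fun k' => hA.tr.hS.ne (k.symm.trans (e1.2 k')), k]
    exact h.ss

/-- an Eichler transformation -/
def IsE (g : OG q) : Prop := ∃ u v hu hv, u ≠ 0 ∧ g = eich q u v hu hv

theorem exists_EG_map [Finite V] (hB : BNondeg q) (hyp : Hyp q e f)
    (hV : 3 ≤ Module.finrank (ZMod 2) V) {u : V} (hu : q u = 0) (h0 : u ≠ 0) :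
    ∃ g ∈ EG q, g.1 e = u := by
  obtain ⟨f', h'⟩ := hB.rad0.exists_hyp hu h0
  obtain ⟨g, a, -⟩ := hyp.exists_map h'
  by_cases m : g ∈ EG q
  · exact ⟨g, m, a⟩
  · obtain ⟨w, b1, -, b3⟩ := hyp.exists_nonsing hB.rad0 hV
    obtain ⟨i, j⟩ := index_EG hB hyp hV
    refine ⟨g * refl q w, (mul_mem_iff_of_index_two i).2 (iff_of_false m (j w (z2_ne b3))), ?_⟩
    rw [OG.mul_apply, refl_of_orth b1, a]

theorem EE.sq [Finite G₀] [Finite G] (h : DG A B Δ) (hA : XP q e f A) (hB : XP q e f B)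
    (hV : 3 ≤ Module.finrank (ZMod 2) V) (hp : p ∈ EE A B Δ) (a : Ac A.Q A.z A.π p.1 g)
    (hg : IsE g) : p * p ∈ Δ := by
  haveI := hA.xq.finite_V
  obtain ⟨u, v, hu, hv, h0, rfl⟩ := hg
  obtain ⟨k, hk, e1⟩ := exists_EG_map hA.xq.bn hA.xt.hyp hV hu h0
  obtain ⟨c₀, b⟩ := hA.xc.onto k hk
  obtain ⟨c, m⟩ := EE.exists h hA hB b.1
  have a' := hA.xq.ac_mul (hA.xq.ac_mul (hA.xq.ac_inv b) a) (hA.xq.ac_inv (hA.xq.ac_inv b))
  have e2 : (k⁻¹).1 u = e := by rw [← e1, OG.inv_apply_apply]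
  have hv' : Cl.Orth.B q e ((k⁻¹).1 v) = 0 := by rw [← e2, OG.B_apply, hv]
  rw [conj_eich, eich_congr _ _ hA.xt.hyp.he hv' e2 rfl] at a'
  obtain ⟨y, hy, d⟩ := hA.xt.eich_onto hA.card _ hv'
  obtain ⟨y', m'⟩ := EE.exists h hA hB hy.2
  have m2 := mul_mem (mul_mem (inv_mem m) hp) m
  have := EE.sq_mul h hB m2 m' (EE.sq_Y2 h hA hB m' hy)
    (EE.of_Q h hA hB (mul_mem (inv_mem m') m2) (by simpa using hA.xq.mem_of_ac2 d a'))
  convert EE.conj m this using 1; group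

theorem EE.fix3 [Finite G₀] [Finite G] (h : DG A B Δ) (hA : XP q e f A) (hB : XP q e f B)
    (hp : p ∈ EE A B Δ) {c₀ : G₀} {g' : OG q} (a : Ac A.Q A.z A.π p.1 g) (b : Ac A.Q A.z A.π c₀ g')
    (h3 : (g⁻¹ * g') ^ 3 = 1) : ∃ r ∈ EE A B Δ, r.1 = c₀ ∧ (p⁻¹ * r) ^ 3 ∈ Δ := by
  obtain ⟨c, m⟩ := EE.exists h hA hB b.1
  have m' := mul_mem (inv_mem hp) m
  rcases EE.one h hA hB (pow_mem m' 3) (h3 ▸ hA.xq.ac_pow (hA.xq.ac_mul (hA.xq.ac_inv a) b) 3)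
    with k | k
  · exact ⟨_, m, rfl, k⟩
  · refine ⟨(c₀, c) * (1, B.z), mul_mem m (zeta_mem h hB), by simp, ?_⟩
    rw [← mul_assoc, (zeta_comm m').mul_pow]
    convert k using 2
    rw [pow_succ, _root_.sq, zeta_sq hB, one_mul]

theorem tree_choice {α : Type*} {n : ℕ} {p : ℕ → ℕ} {I : ℕ → α → Prop} {R : ℕ → α → α → Prop}
    (a₀ : α) (h0 : I 0 a₀) (hI : ∀ j < n, ∃ a, I j a)
    (h : ∀ j < n, p j < j → ∀ x, I (p j) x → ∃ y, I j y ∧ R j x y) :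
    ∃ r : ℕ → α, r 0 = a₀ ∧ ∀ j < n, I j (r j) ∧ (p j < j → R j (r (p j)) (r j)) := by
  induction n with
  | zero => exact ⟨fun _ => a₀, rfl, by simp⟩
  | succ n ih =>
    obtain ⟨r, r0, hr⟩ := ih (fun j hj => hI j (by omega)) fun j hj => h j (by omega)
    rcases Nat.eq_zero_or_pos n with rfl | hn
    · exact ⟨r, r0, fun j hj => by
        obtain rfl : j = 0 := by omega
        exact ⟨r0 ▸ h0, by omega⟩⟩
    obtain ⟨y, hy⟩ : ∃ y, I n y ∧ (p n < n → R n (r (p n)) y) := by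
      by_cases c : p n < n
      · obtain ⟨y, a, b⟩ := h n (by omega) c _ (hr _ c).1
        exact ⟨y, a, fun _ => b⟩
      · obtain ⟨y, a⟩ := hI n (by omega)
        exact ⟨y, a, fun d => absurd d c⟩
    refine ⟨Function.update r n y, by rw [Function.update_of_ne hn.ne, r0], fun j hj => ?_⟩
    rcases Nat.lt_succ_iff_lt_or_eq.1 hj with k | rfl
    · rw [Function.update_of_ne k.ne]
      exact ⟨(hr j k).1, fun c => by rw [Function.update_of_ne (by omega)]; exact (hr j k).2 c⟩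
    · rw [Function.update_self]
      exact ⟨hy.1, fun c => by rw [Function.update_of_ne c.ne]; exact hy.2 c⟩

/-- a Coxeter type system in the orthogonal group -/
structure CoxSys (q : QuadraticForm (ZMod 2) V) (n : ℕ) (p : ℕ → ℕ) (R : ℕ → OG q) : Prop where
  two : 2 ≤ n
  par : ∀ j < n, 2 ≤ j → p j ≠ 0
  zero : R 0 = 1
  mem : ∀ j < n, R j ∈ EG q
  three : ∀ j < n, p j < j → ((R (p j))⁻¹ * R j) ^ 3 = 1
  isE : ∀ j < n, ∀ i < j, p j ≠ i → IsE ((R i)⁻¹ * R j)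
  gen : EG q ≤ closure (lt R '' {i | i < n})

/-- lifts of a Coxeter type system -/
structure Lf (A : Dt G₀ V) (B : Dt G V) (Δ : Subgroup (G₀ × G)) (n : ℕ) (p : ℕ → ℕ) (c : ℕ → G₀)
    (r : ℕ → G₀ × G) : Prop where
  zero : r 0 = 1
  mem : ∀ j < n, r j ∈ EE A B Δ
  fst : ∀ j < n, (r j).1 = c j
  rel : ∀ j < n, ∀ i < j, ((r i)⁻¹ * r j) ^ (if p j = i then 3 else 2) ∈ Δ

theorem exists_Lf [Finite G₀] [Finite G] (h : DG A B Δ) (hA : XP q e f A) (hB : XP q e f B)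
    (hV : 3 ≤ Module.finrank (ZMod 2) V) {n : ℕ} {p : ℕ → ℕ} {R : ℕ → OG q} (hR : CoxSys q n p R)
    {c : ℕ → G₀} (h0 : c 0 = 1) (hc : ∀ j < n, Ac A.Q A.z A.π (c j) (R j)) :
    ∃ r, Lf A B Δ n p c r := by
  obtain ⟨r, r0, hr⟩ := tree_choice (n := n) (p := p)
    (I := fun j (x : G₀ × G) => x ∈ EE A B Δ ∧ x.1 = c j) (R := fun _ x y => (x⁻¹ * y) ^ 3 ∈ Δ) 1
    ⟨one_mem _, h0.symm⟩ (fun j hj => let ⟨d, m⟩ := EE.exists h hA hB (hc j hj).1; ⟨_, m, rfl⟩)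
    fun j hj k x hx => by
      obtain ⟨y, a, b, d⟩ := EE.fix3 h hA hB hx.1 (hx.2 ▸ hc _ (by omega)) (hc j hj) (hR.three j hj k)
      exact ⟨y, ⟨a, b⟩, d⟩
  refine ⟨r, r0, fun j hj => (hr j hj).1.1, fun j hj => (hr j hj).1.2, fun j hj i hi => ?_⟩
  split_ifs with k
  · subst k; exact (hr j hj).2 hi
  · rw [sq]
    refine EE.sq h hA hB hV (mul_mem (inv_mem (hr i (by omega)).1.1) (hr j hj).1.1) ?_
      (hR.isE j hj i hi k)
    rw [Prod.fst_mul, Prod.fst_inv, (hr i (by omega)).1.2, (hr j hj).1.2]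
    exact hA.xq.ac_mul (hA.xq.ac_inv (hc i (by omega))) (hc j hj)

theorem lt_map {D D' : Type*} [Group D] [Group D'] (φ : D →* D') (r : ℕ → D) (i : ℕ) :
    φ (lt r i) = lt (fun j => φ (r j)) i := by
  unfold lt; split_ifs <;> simp

theorem lt_congr {D : Type*} [Group D] {r r' : ℕ → D} {n : ℕ} (hn : 2 ≤ n) (h : ∀ j < n, r j = r' j)
    {i : ℕ} (hi : i < n) : lt r i = lt r' i := by
  unfold lt; rw [h 1 (by omega), h i hi]

universe u v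

theorem exists_KG {G₀ : Type u} {G : Type v} [Group G₀] [Group G] [Finite G₀] [Finite G]
    {A : Dt G₀ V} {B : Dt G V} {Δ : Subgroup (G₀ × G)} (h : DG A B Δ) (hA : XP q e f A)
    (hB : XP q e f B) {n : ℕ} {p : ℕ → ℕ} {R : ℕ → OG q} (hR : CoxSys q n p R)
    {c : ℕ → G₀} (hc : ∀ j < n, Ac A.Q A.z A.π (c j) (R j)) {r : ℕ → G₀ × G}
    (hr : Lf A B Δ n p c r) {ex : List (List ℕ)} {N : ℕ}
    (hP : PB.{max u v} n civ (coxRel n p ++ ex) N) (hN : N ≤ Nat.card (EG q))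
    (hex : ∀ l ∈ ex, (∀ i ∈ l, i < n) ∧ evl (lt r) l ∈ Δ) : ∃ K, KG A B Δ K := by
  classical
  haveI : (Δ.subgroupOf (EE A B Δ)).Normal := normal_subgroupOf inf_le_right
  haveI := hA.xq.finite_V
  haveI := finite_OG (q := q)
  let mk := QuotientGroup.mk' (Δ.subgroupOf (EE A B Δ))
  have hmk : ∀ x : EE A B Δ, mk x = 1 ↔ x.1 ∈ Δ := fun x => QuotientGroup.eq_one_iff x
  let r' : ℕ → EE A B Δ := fun j => if hj : j < n then ⟨r j, hr.mem j hj⟩ else 1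
  have hr' : ∀ j < n, (r' j).1 = r j := fun j hj => by simp only [r', dif_pos hj]
  obtain ⟨a1, a2⟩ := cox_ok hR.two hR.par (r := fun j => mk (r' j))
    (by rw [hmk, hr' 0 (by have := hR.two; omega), hr.zero]; exact one_mem _) fun j hj i hi => by
      rw [← map_inv, ← map_mul, ← map_pow, hmk, coe_pow, coe_mul, coe_inv, hr' i (by omega), hr' j hj]
      exact hr.rel j hj i hi
  obtain ⟨-, a3⟩ := hP _ _ a1 fun l hl => (List.mem_append.1 hl).elim (a2 l) fun hl => by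
    refine ⟨(hex l hl).1, ?_⟩
    rw [← funext (lt_map mk r'), ← evl_map, hmk]
    change (EE A B Δ).subtype _ ∈ Δ
    rw [evl_map, evl_congr (u := lt r) fun i hi =>
      (lt_map (EE A B Δ).subtype r' i).trans (lt_congr hR.two hr' ((hex l hl).1 i hi))]
    exact (hex l hl).2
  obtain ⟨ρ, hρ⟩ := hA.xq.exists_rho
  let ψ : EE A B Δ →* OG q := ρ.comp (((MonoidHom.fst G₀ G).comp (EE A B Δ).subtype).codRestrict _
    fun x => x.2.1.1)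
  have hψ : ∀ x : EE A B Δ, Ac A.Q A.z A.π x.1.1 (ψ x) := fun x => hρ ⟨x.1.1, x.2.1.1⟩
  let χ := QuotientGroup.lift (Δ.subgroupOf (EE A B Δ)) ψ fun x hx =>
    hA.xq.ac_unique (hψ x) (hA.xq.ac_Q (h.mem _ hx).1)
  have hχ : ∀ x, χ (mk x) = ψ x := fun _ => rfl
  set Kb := closure (lt (fun j => mk (r' j)) '' {i | i < n})
  have hm : EG q ≤ Kb.map χ := by
    rw [MonoidHom.map_closure, ← Set.image_comp]
    refine hR.gen.trans (closure_mono (Set.image_congr fun i hi => ?_).le)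
    rw [Function.comp, lt_map]
    refine lt_congr hR.two (fun j hj => hA.xq.ac_unique ?_ (hψ _)) hi
    rw [hr' j hj, hr.fst j hj]; exact hc j hj
  have hinj : ∀ x ∈ Kb, χ x = 1 → x = 1 := by
    have e1 := ((χ.comp Kb.subtype).ker).card_mul_index
    rw [index_ker, MonoidHom.range_comp, range_subtype] at e1
    have e2 := card_le_of_le hm
    have e3 : 0 < Nat.card (Kb.map χ) := Nat.card_pos
    have e4 : (χ.comp Kb.subtype).ker = ⊥ := by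
      rw [← card_le_one_iff_eq_bot]
      by_contra hh
      nlinarith
    intro x hx e5
    have : (⟨x, hx⟩ : Kb) ∈ (χ.comp Kb.subtype).ker := e5
    rw [e4, mem_bot] at this
    exact congrArg Subtype.val this
  refine ⟨(Kb.comap mk).map (EE A B Δ).subtype, map_subtype_le _, fun x hx =>
    ⟨⟨x, h.le_EE hA hB hx⟩, by
      show mk _ ∈ Kb
      rw [(hmk _).2 hx]; exact one_mem _, rfl⟩, fun c₀ hc₀ => ?_, ?_⟩
  · obtain ⟨κ, hκ, e1⟩ := hm (hA.xc.inE _ _ (hρ ⟨c₀, hc₀⟩))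
    obtain ⟨x, rfl⟩ := QuotientGroup.mk'_surjective _ κ
    obtain ⟨y, hy⟩ := h.fst _ (hA.xq.mem_of_ac2 (hψ x) (((hχ x).symm.trans e1) ▸ hρ ⟨c₀, hc₀⟩))
    refine ⟨x.1.2 * y, x * ⟨_, h.le_EE hA hB hy⟩, ?_, Prod.ext (by simp) rfl⟩
    show mk _ ∈ Kb
    rw [map_mul, (hmk ⟨_, h.le_EE hA hB hy⟩).2 hy, mul_one]; exact hκ
  · rintro ⟨x, hx, e1⟩
    have e2 : x.1 = (1, B.z) := e1
    refine h.inj (e2 ▸ (hmk x).1 (hinj _ hx (hA.xq.ac_unique (hψ x) ?_)))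
    rw [e2]; exact hA.xq.ac_one

theorem CoxSys.exists_c (hA : XP q e f A) {n : ℕ} {p : ℕ → ℕ} {R : ℕ → OG q} (hR : CoxSys q n p R) :
    ∃ c : ℕ → G₀, c 0 = 1 ∧ ∀ j < n, Ac A.Q A.z A.π (c j) (R j) := by
  classical
  choose c hc using fun j (hj : j < n) => hA.xc.onto _ (hR.mem j hj)
  refine ⟨fun j => if j = 0 then 1 else if hj : j < n then c j hj else 1, rfl, fun j hj => ?_⟩
  by_cases a : j = 0
  · simp only [if_pos a]; rw [a, hR.zero]; exact hA.xq.ac_one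
  · simp only [if_neg a, dif_pos hj]; exact hc j hj

/-- comparison of the centralizers, when no further relator is needed -/
theorem exists_KG0 {G₀ : Type u} {G : Type v} [Group G₀] [Group G] [Finite G₀] [Finite G]
    {A : Dt G₀ V} {B : Dt G V} (hA : XP q e f A) (hB : XP q e f B)
    (hV : 3 ≤ Module.finrank (ZMod 2) V) {n : ℕ} {p : ℕ → ℕ} {R : ℕ → OG q} (hR : CoxSys q n p R)
    {N : ℕ} (hP : PB.{max u v} n civ (coxRel n p) N) (hN : N ≤ Nat.card (EG q)) :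
    ∃ Δ K, DG A B Δ ∧ KG A B Δ K := by
  obtain ⟨Δ, h⟩ := exists_DG hA hB
  obtain ⟨c, c0, hc⟩ := hR.exists_c hA
  obtain ⟨r, hr⟩ := exists_Lf h hA hB hV hR c0 hc
  obtain ⟨K, hK⟩ := exists_KG h hA hB hR hc hr (ex := []) (by rwa [List.append_nil]) hN (by simp)
  exact ⟨Δ, K, h, hK⟩

end Cfsg.Agent.XL
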