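import Cfsg.Agent.XL.A1

/-! # Comparison of the normalizers of the four-groups -/

set_option autoImplicit false

namespace Cfsg.Agent.XL

open Cfsg Cfsg.Agent.GT Cfsg.Agent.TT Cfsg.Agent.Cl.Orth Cfsg.Agent.TC Subgroup

theorem s3_abs {H : Type*} [Group H] {a b : H} (ha : a * a = 1) (hb : b * b = 1)
    (hab : (a * b) ^ 3 = 1) {g : H} (hg : g ∈ closure ({a, b} : Set H)) :
    g = 1 ∨ g = a ∨ g = b ∨ g = a * b ∨ g = b * a ∨ g = a * b * a := by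
  have ia : a⁻¹ = a := inv_eq_of_mul_eq_one_left ha
  have ib : b⁻¹ = b := inv_eq_of_mul_eq_one_left hb
  have br : b * (a * b) = a * b * a := by
    have : a * b * a * (b * (a * b)) = 1 := by rw [← hab, pow_three]; group
    rw [← inv_eq_of_mul_eq_one_right this]; simp [ia, ib, mul_assoc]
  have k : ∀ x, x = a ∨ x = b → ∀ g, (g = 1 ∨ g = a ∨ g = b ∨ g = a * b ∨ g = b * a ∨ g = a * b * a) →
      x * g = 1 ∨ x * g = a ∨ x * g = b ∨ x * g = a * b ∨ x * g = b * a ∨ x * g = a * b * a := by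
    rintro x (rfl | rfl) g (rfl | rfl | rfl | rfl | rfl | rfl) <;>
      simp [← mul_assoc, ha, hb]
    · simp [mul_assoc, ← br]
    · rw [mul_assoc x a x, br]; simp [mul_assoc, ha]
  induction hg using closure_induction_left with
  | one => simp
  | mul_left x hx g _ ih => exact k x hx g ih
  | inv_mul_cancel x hx g _ ih =>
    rcases hx with rfl | rfl
    · rw [ia]; exact k _ (Or.inl rfl) g ih
    · rw [ib]; exact k _ (Or.inr rfl) g ih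

theorem s3_rel {H : Type*} [Group H] {M : Subgroup H} {a b : H} (na : a ∈ N[M]) (nb : b ∈ N[M])
    (ha : a * a ∈ M) (hb : b * b ∈ M) (hab : (a * b) ^ 3 ∈ M) {g : H}
    (hg : g ∈ M ⊔ closure ({a, b} : Set H)) :
    ∃ w, (w = 1 ∨ w = a ∨ w = b ∨ w = a * b ∨ w = b * a ∨ w = a * b * a) ∧ w⁻¹ * g ∈ M := by
  have hl : closure ({a, b} : Set H) ≤ N[M] := (closure_le _).2 (by
    rintro x (rfl | rfl) <;> assumption)
  obtain ⟨m, hm, k, hk, rfl⟩ := (mem_sup_of_le_norm' hl).1 hg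
  let mk := QuotientGroup.mk' (M.subgroupOf N[M])
  have hmk : ∀ x : N[M], mk x = 1 ↔ x.1 ∈ M := fun x => QuotientGroup.eq_one_iff x
  have h1 : mk ⟨k, hl hk⟩ ∈ closure ({mk ⟨a, na⟩, mk ⟨b, nb⟩} : Set _) := by
    clear hg
    induction hk using closure_induction with
    | mem x hx => rcases hx with rfl | rfl <;> exact subset_closure (by simp)
    | one => exact (map_one mk).symm ▸ one_mem _
    | mul x y hx hy a b => exact (map_mul mk ⟨x, hl hx⟩ ⟨y, hl hy⟩).symm ▸ mul_mem a b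
    | inv x hx a => exact (map_inv mk ⟨x, hl hx⟩).symm ▸ inv_mem a
  have fin : ∀ w : N[M], mk ⟨k, hl hk⟩ = mk w → w.1⁻¹ * (m * k) ∈ M := fun w e => by
    have := (hmk (w⁻¹ * ⟨k, hl hk⟩)).1 (by rw [map_mul, map_inv, e, inv_mul_cancel])
    have h2 := mul_mem (conj_mem_of_mem_norm (inv_mem w.2) hm) this
    convert h2 using 1; simp [mul_assoc]
  rcases s3_abs (by rw [← map_mul, hmk]; exact ha) (by rw [← map_mul, hmk]; exact hb)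
    (by rw [← map_mul, ← map_pow, hmk]; exact hab) h1 with e | e | e | e | e | e
  · exact ⟨_, by simp, fin 1 (by rw [e, map_one])⟩
  · exact ⟨_, by simp, fin _ e⟩
  · exact ⟨_, by simp, fin _ e⟩
  · exact ⟨_, by simp, fin (⟨a, na⟩ * ⟨b, nb⟩) (by rw [e, map_mul])⟩
  · exact ⟨_, by simp, fin (⟨b, nb⟩ * ⟨a, na⟩) (by rw [e, map_mul])⟩
  · exact ⟨_, by simp, fin (⟨a, na⟩ * ⟨b, nb⟩ * ⟨a, na⟩) (by rw [e, map_mul, map_mul])⟩

section tri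

variable {G : Type*} [Group G] {Q S : Subgroup G} {z s q n x y t : G}

theorem TR.ns (h : TR Q z S s) (hn : n ∈ S) : n * s * n⁻¹ = s := h.symm.qz hn

theorem TR.n_sz (h : TR Q z S s) (hnS : n ∈ S) (hn : n * z * n⁻¹ = s * z) :
    n * (s * z) * n⁻¹ = z := by
  rw [show n * (s * z) * n⁻¹ = n * s * n⁻¹ * (n * z * n⁻¹) by group, h.ns hnS, hn, ← mul_assoc,
    h.hS.zz, one_mul]

theorem TR.q_sz (h : TR Q z S s) (hqQ : q ∈ Q) (hq : q * s * q⁻¹ = s * z) :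
    q * (s * z) * q⁻¹ = s := by
  rw [show q * (s * z) * q⁻¹ = q * s * q⁻¹ * (q * z * q⁻¹) by group, h.qz hqQ, hq, mul_assoc,
    h.hQ.zz, mul_one]

theorem TR.n_inv (h : TR Q z S s) (hnS : n ∈ S) (hn : n * z * n⁻¹ = s * z) :
    n⁻¹ * z * n⁻¹⁻¹ = s * z := by
  conv_lhs => rw [← h.n_sz hnS hn]
  group

theorem TR.conjP' (h : TR Q z S s) (hn : n ∈ S) (hc : x ∈ C1[z] ⊓ C1[s]) :
    n * x * n⁻¹ ∈ C1[z] ⊓ C1[s] :=
  let a := h.symm.conjP hn ⟨hc.2, hc.1⟩; ⟨a.2, a.1⟩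

theorem TR.cm_Y2 (h : TR Q z S s) (hn : n ∈ S) (hc : x ∈ C1[z] ⊓ C1[s]) : cm n x ∈ S ⊓ C1[z] :=
  h.symm.cm_Y1 hn ⟨hc.2, hc.1⟩

theorem TR.of_Y3 (h : TR Q z S s) (hqQ : q ∈ Q) (ht : t ∈ cj[q] S) (hP : t ∈ C1[z] ⊓ C1[s]) :
    q⁻¹ * t * q ∈ S ⊓ C1[z] :=
  ⟨mem_conj.1 ht, by simpa using (h.conjP (inv_mem hqQ) hP).1⟩

theorem TR.cube (h : TR Q z S s) (hqQ : q ∈ Q) (hq : q * s * q⁻¹ = s * z) (hnS : n ∈ S)
    (hn : n * z * n⁻¹ = s * z) : (q * n) ^ 3 ∈ cj[q] S ∧ (q * n) ^ 3 ∈ C1[z] ⊓ C1[s] := by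
  have e := h.cj_eq hq hn
  have a1 : q * n * z * (q * n)⁻¹ = s := by
    rw [show q * n * z * (q * n)⁻¹ = q * (n * z * n⁻¹) * q⁻¹ by group, hn, h.q_sz hqQ hq]
  have a2 : q * n * s * (q * n)⁻¹ = s * z := by
    rw [show q * n * s * (q * n)⁻¹ = q * (n * s * n⁻¹) * q⁻¹ by group, h.ns hnS, hq]
  have a3 : q * n * (s * z) * (q * n)⁻¹ = z := by
    rw [show q * n * (s * z) * (q * n)⁻¹ = q * (n * (s * z) * n⁻¹) * q⁻¹ by group, h.n_sz hnS hn,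
      h.qz hqQ]
  have c : ∀ x, (q * n) ^ 3 * x * ((q * n) ^ 3)⁻¹ =
      q * n * (q * n * (q * n * x * (q * n)⁻¹) * (q * n)⁻¹) * (q * n)⁻¹ := fun x => by
    rw [pow_three]; group
  refine ⟨?_, mem_cent1.2 (mul_inv_eq_iff_eq_mul.1 (by rw [c, a1, a2, a3])),
    mem_cent1.2 (mul_inv_eq_iff_eq_mul.1 (by rw [c, a2, a3, a1]))⟩
  rw [show (q * n) ^ 3 = q * n * q⁻¹ * (q * q) * (n * q * n⁻¹) * (n * n) by rw [pow_three]; group]
  refine mul_mem (mul_mem (mul_mem (conj_mem_conj.2 hnS) ?_) (e ▸ conj_mem_conj.2 hqQ)) ?_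
  · rcases h.hQ.sq q hqQ with a | a <;> rw [a]
    exacts [one_mem _, h.qz hqQ ▸ conj_mem_conj.2 h.zS]
  · rcases h.hS.sq n hnS with a | a <;> rw [a]
    exacts [one_mem _, e ▸ h.ns hnS ▸ conj_mem_conj.2 h.sQ]

theorem TR.cm_Y3 (h : TR Q z S s) (hq : q * s * q⁻¹ = s * z) (hnS : n ∈ S)
    (hn : n * z * n⁻¹ = s * z) (ht : t ∈ cj[q] S) (hP : t ∈ C1[z] ⊓ C1[s]) (hy : y ∈ S ⊓ C1[z]) :
    t * y * t⁻¹ = y ∨ t * y * t⁻¹ = z * y := by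
  rw [h.cj_eq hq hn] at ht
  have a := h.symm.of_Y3 hnS ht ⟨hP.2, hP.1⟩
  have b : n⁻¹ * y * n ∈ S ⊓ C1[z] :=
    ⟨S.mul_mem (S.mul_mem (S.inv_mem hnS) hy.1) hnS, by simpa using (h.conjP' (inv_mem hnS) (h.Y2P hy)).1⟩
  have e : t * y * t⁻¹ = n * cm (n⁻¹ * t * n) (n⁻¹ * y * n) * n⁻¹ * y := by unfold cm; group
  rcases h.cm_sz a b with c | c <;> rw [e, c]
  · simp
  · rw [h.n_sz hnS hn]; simp

theorem TR.inverts (h : TR Q z S s) (hnS : n ∈ S) (hx : x ∈ C1[s]) :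
    n * cm n x * n⁻¹ = (cm n x)⁻¹ := by
  have : n * n * x = x * (n * n) := by
    rcases h.hS.sq n hnS with a | a <;> rw [a]
    · simp
    · exact (mem_cent1.1 hx).symm
  calc n * cm n x * n⁻¹ = n * n * x * n⁻¹ * x⁻¹ * n⁻¹ := by unfold cm; group
    _ = _ := by rw [this]; unfold cm; group

end tri

variable {V : Type*} [AddCommGroup V] [Module (ZMod 2) V] {G₀ G : Type*} [Group G₀] [Group G]
  {q : QuadraticForm (ZMod 2) V} {e f : V} {A : Dt G₀ V} {B : Dt G V}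
  {Δ K : Subgroup (G₀ × G)} {p r : G₀ × G} {g : OG q}

/-- the standing hypotheses -/
structure KH (q : QuadraticForm (ZMod 2) V) (e f : V) (A : Dt G₀ V) (B : Dt G V)
    (Δ K : Subgroup (G₀ × G)) : Prop where
  hA : XP q e f A
  hB : XP q e f B
  dg : DG A B Δ
  kg : KG A B Δ K

namespace KH

theorem eq_one (h : KH q e f A B Δ K) {d : G} (a : ((1 : G₀), d) ∈ K) : d = 1 := by
  rcases EE.of_Q h.dg h.hA h.hB (h.kg.le a) (one_mem _) with b | b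
  · exact h.dg.uniq h.hB (one_mem _) b
  · exact (h.kg.inj (by simpa using mul_mem (inv_mem a) (h.kg.dg b))).elim

theorem uniq (h : KH q e f A B Δ K) {c : G₀} {d d' : G} (a : (c, d) ∈ K) (b : (c, d') ∈ K) :
    d' = d := (inv_mul_eq_one.1 (h.eq_one (by simpa using mul_mem (inv_mem a) b))).symm

theorem ext (h : KH q e f A B Δ K) (a : p ∈ K) (b : r ∈ K) (c : p.1 = r.1) : p = r :=
  Prod.ext c (h.uniq (c := r.1) b (c ▸ a))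

theorem eq_one' [Finite G₀] (h : KH q e f A B Δ K) {c : G₀} (a : (c, (1 : G)) ∈ K) : c = 1 := by
  obtain ⟨g, b⟩ := h.hA.xq.exists_ac (h.kg.le a).1.1
  have := h.hB.xq.ac_unique (EE.ac h.dg h.hA h.hB (h.kg.le a) b) h.hB.xq.ac_one
  subst this
  rcases EE.one h.dg h.hA h.hB (h.kg.le a) b with d | d
  · exact h.dg.uniq' h.hA h.hB (one_mem _) d
  · exact (h.kg.inj (by simpa using mul_mem (inv_mem a) (h.kg.dg d))).elim

theorem uniq' [Finite G₀] (h : KH q e f A B Δ K) {c c' : G₀} {d : G} (a : (c, d) ∈ K)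
    (b : (c', d) ∈ K) : c' = c :=
  (inv_mul_eq_one.1 (h.eq_one' (by simpa using mul_mem (inv_mem a) b))).symm

theorem mem_Δ (h : KH q e f A B Δ K) (a : p ∈ K) (b : p.1 ∈ A.Q) : p ∈ Δ := by
  obtain ⟨y, c⟩ := h.dg.fst _ b
  rwa [h.ext a (h.kg.dg c) rfl]

theorem snd [Finite G] (h : KH q e f A B Δ K) {d : G} (hd : d ∈ C1[B.z]) : ∃ c, (c, d) ∈ K := by
  obtain ⟨g, a⟩ := h.hB.xq.exists_ac hd
  obtain ⟨c, b⟩ := h.hA.xc.onto g (h.hB.xc.inE _ _ a)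
  obtain ⟨d', m⟩ := h.kg.fst c b.1
  obtain ⟨x, k⟩ := h.dg.snd h.hA h.hB (h.hB.xq.mem_of_ac2 (EE.ac h.dg h.hA h.hB (h.kg.le m) b) a)
  exact ⟨c * x, by simpa using mul_mem m (h.kg.dg k)⟩

theorem ac (h : KH q e f A B Δ K) (hp : p ∈ K) (a : Ac A.Q A.z A.π p.1 g) : Ac B.Q B.z B.π p.2 g :=
  EE.ac h.dg h.hA h.hB (h.kg.le hp) a

theorem C1 (h : KH q e f A B Δ K) (hp : p ∈ K) : p.1 ∈ C1[A.z] := (h.kg.le hp).1.1

theorem C2 (h : KH q e f A B Δ K) (hp : p ∈ K) : p.2 ∈ C1[B.z] := (h.kg.le hp).1.2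

theorem P_iff (h : KH q e f A B Δ K) (hp : p ∈ K) : p.1 ∈ C1[A.s] ↔ p.2 ∈ C1[B.s] :=
  EE.mem_P h.dg h.hA h.hB (h.kg.le hp)

theorem Y2 [Finite G] (h : KH q e f A B Δ K) (hp : p ∈ K) (a : p.1 ∈ A.S) : p.2 ∈ B.S ⊓ C1[B.z] :=
  EE.Y2 h.dg h.hA h.hB (h.kg.le hp) ⟨a, h.C1 hp⟩

theorem Y2' [Finite G₀] (h : KH q e f A B Δ K) (hp : p ∈ K) (a : p.2 ∈ B.S) :
    p.1 ∈ A.S ⊓ C1[A.z] := by
  have a' : p.2 ∈ B.S ⊓ C1[B.z] := ⟨a, h.C2 hp⟩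
  refine h.hA.xt.mem_Y2 h.hA.card ⟨h.C1 hp, (h.P_iff hp).2 (h.hB.tr.Y2P a').2⟩ fun x₀ hx => ?_
  obtain ⟨x, b⟩ := h.dg.fst x₀ hx.1
  have c : (cm x₀ p.1, cm x p.2) ∈ Δ := by
    have := mul_mem b (EE.conj (h.kg.le hp) (inv_mem b))
    convert this using 1
    exact Prod.ext (by simp [cm, mul_assoc]) (by simp [cm, mul_assoc])
  rcases h.hB.tr.cm_sz ⟨(h.dg.mem _ b).2.1, (h.dg.Y1 h.hA h.hB b).1 hx.2⟩ a' with d | d <;>
    rw [d] at c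
  exacts [Or.inl (h.dg.uniq' h.hA h.hB (one_mem _) c), Or.inr (h.dg.uniq' h.hA h.hB h.dg.sz c)]

theorem sigma_not (h : KH q e f A B Δ K) : ((1 : G₀), B.s) ∉ EE A B Δ := fun a => by
  rcases EE.of_Q h.dg h.hA h.hB a (one_mem _) with b | b
  · exact h.hB.tr.hS.ne (h.dg.uniq h.hB (one_mem _) b)
  · have := h.dg.uniq h.hB (one_mem _) (show ((1 : G₀), B.s * B.z) ∈ Δ by simpa using b)
    exact h.hB.tr.ne ((mul_eq_one_iff_eq_inv.1 this).trans h.hB.xq.inv)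

theorem exists_n [Finite G₀] [Finite G] (h : KH q e f A B Δ K) {n₀ : G₀} (hn : n₀ ∈ A.S)
    (hz : n₀ * A.z * n₀⁻¹ = A.s * A.z) :
    ∃ n ∈ B.S, n * B.z * n⁻¹ = B.s * B.z ∧ (n₀, n) * (n₀, n) ∈ K ∧
      ∀ p ∈ K, p.1 ∈ A.S → (n₀, n) * p * (n₀, n)⁻¹ ∈ K := by
  have tA := h.hA.tr
  have tB := h.hB.tr
  have ss := h.kg.dg h.dg.ss
  have step : ∃ n ∈ B.S, n * B.z * n⁻¹ = B.s * B.z ∧
      ∀ p ∈ K, p.1 ∈ A.S → (n₀, n) * p * (n₀, n)⁻¹ ∈ K := by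
    obtain ⟨-, -, n, hnS, -, -, -, hnz⟩ := tB.exists_qn
    have key : ∀ p ∈ K, p.1 ∈ A.S → (n₀, n) * p * (n₀, n)⁻¹ ∉ K →
        (n₀ * p.1 * n₀⁻¹, n * p.2 * n⁻¹ * B.s) ∈ K := fun p hp a b => by
      have b' : (n₀ * p.1 * n₀⁻¹, n * p.2 * n⁻¹) ∉ K := b
      have m : (p.1 * A.s, p.2 * B.s) ∈ K := mul_mem hp ss
      rcases tA.hS.conj n₀ hn _ a with c | c <;>
        rcases tB.hS.conj n hnS _ (h.Y2 hp a).1 with d | d <;> rw [c, d] at b' ⊢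
      · exact (b' hp).elim
      · rwa [mul_assoc, tB.hS.zz, mul_one]
      · exact m
      · exact (b' m).elim
    by_cases hall : ∀ p ∈ K, p.1 ∈ A.S → (n₀, n) * p * (n₀, n)⁻¹ ∈ K
    · exact ⟨n, hnS, hnz, hall⟩
    push Not at hall
    obtain ⟨x, hx, x1, x2⟩ := hall
    let W := (K ⊓ cj[(n₀, n)⁻¹] K ⊓ A.S.prod ⊤).map (MonoidHom.snd G₀ G)
    have hW : ∀ p ∈ K, p.1 ∈ A.S → (p.2 ∈ W ↔ (n₀, n) * p * (n₀, n)⁻¹ ∈ K) := fun p hp a => by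
      refine ⟨?_, fun b => ⟨p, ⟨⟨hp, mem_conj.2 (by simpa using b)⟩, a, trivial⟩, rfl⟩⟩
      rintro ⟨r, ⟨⟨r1, r2⟩, -⟩, r3⟩
      have r3' : r.2 = p.2 := r3
      have : r = p := Prod.ext (h.uniq' (d := p.2) hp (r3' ▸ r1)) r3'
      simpa [← this] using mem_conj.1 r2
    obtain ⟨k, hk, k1, k2⟩ := tB.hS.exists_cent_not (W := W)
      (by rintro _ ⟨r, ⟨⟨r1, -⟩, r2⟩, rfl⟩; exact (h.Y2 r1 r2.1).1)
      ((hW _ ss tA.hS.mem).2 (by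
        have : (n₀, n) * (A.s, B.s) * (n₀, n)⁻¹ = (A.s, B.s) := Prod.ext (tA.ns hn) (tB.ns hnS)
        rwa [this])) (h.Y2 hx x1).1 (mt (hW x hx x1).1 x2)
    have kz : Commute k B.z := k1 _ ((hW _ (h.kg.dg h.dg.zz) tA.zS).2 (by
      have : (n₀, n) * (A.z, B.z) * (n₀, n)⁻¹ = (A.s * A.z, B.s * B.z) := Prod.ext hz hnz
      rw [this]; exact h.kg.dg h.dg.sz))
    refine ⟨n * k, mul_mem hnS hk, by
      rw [show n * k * B.z * (n * k)⁻¹ = n * (k * B.z * k⁻¹) * n⁻¹ by group, kz.eq,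
        mul_inv_cancel_right, hnz], fun p hp a => ?_⟩
    have e1 : (n₀, n * k) * p * (n₀, n * k)⁻¹ = (n₀ * p.1 * n₀⁻¹, n * (k * p.2 * k⁻¹) * n⁻¹) :=
      Prod.ext rfl (by simp [mul_assoc])
    rw [e1]
    by_cases b : (n₀, n) * p * (n₀, n)⁻¹ ∈ K
    · rw [(k1 _ ((hW p hp a).2 b)).eq, mul_inv_cancel_right]; exact b
    · have c : Commute k (p.2 * x.2) := k1 _ ((hW _ (mul_mem hp hx) (mul_mem a x1)).2 (by
        have := mul_mem (key p hp a b) (key x hx x1 x2)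
        have m : n * x.2 * n⁻¹ ∈ B.S := mul_mem (mul_mem hnS (h.Y2 hx x1).1) (inv_mem hnS)
        rw [Prod.mk_mul_mk, mul_assoc _ B.s, ← mul_assoc B.s, (tB.hS.zc _ m).eq, mul_assoc _ B.s,
          tB.hS.zz, mul_one] at this
        convert this using 1
        exact Prod.ext (by simp [mul_assoc]) (by simp [mul_assoc])))
      have d : ¬ Commute k p.2 := fun d => k2 (by simpa using d.inv_right.mul_right c)
      rw [tB.hS.conj_of_not hk (h.Y2 hp a).1 d,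
        show n * (p.2 * B.s) * n⁻¹ = n * p.2 * n⁻¹ * (n * B.s * n⁻¹) by group, tB.ns hnS]
      exact key p hp a b
  obtain ⟨n, hnS, hnz, hall⟩ := step
  by_cases a : (n₀, n) * (n₀, n) ∈ K
  · exact ⟨n, hnS, hnz, a, hall⟩
  refine ⟨n * B.z, mul_mem hnS tB.zS, by rw [← hnz]; group, ?_, fun p hp b => ?_⟩
  · have e1 : n * B.z * (n * B.z) = B.s * (n * n) := by
      have : B.z * (n * n) = n * n * B.z := by
        rcases tB.hS.sq n hnS with c | c <;> rw [c]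
        · simp
        · exact tB.zs
      rw [show n * B.z * (n * B.z) = n * B.z * n⁻¹ * (n * n * B.z) by group, hnz, ← this,
        mul_assoc, ← mul_assoc B.z, tB.hQ.zz, one_mul]
    rw [Prod.mk_mul_mk] at a ⊢
    rw [e1]
    rcases tA.hS.sq n₀ hn with c | c <;> rcases tB.hS.sq n hnS with d | d <;> rw [c, d] at a ⊢
    · exact (a (one_mem _)).elim
    · rw [tB.hS.zz]; exact one_mem _
    · rwa [mul_one]
    · exact (a ss).elim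
  · have := hall p hp b
    convert this using 1
    refine Prod.ext rfl ?_
    change n * B.z * p.2 * (n * B.z)⁻¹ = n * p.2 * n⁻¹
    rw [mul_assoc n, ← mem_cent1.1 (h.C2 hp)]; group

end KH

/-- the elements `q̂` and `n̂` -/
structure NH (q : QuadraticForm (ZMod 2) V) (e f : V) (A : Dt G₀ V) (B : Dt G V)
    (Δ K : Subgroup (G₀ × G)) (a b : G₀ × G) : Prop extends KH q e f A B Δ K where
  aΔ : a ∈ Δ
  as : a.1 * A.s * a.1⁻¹ = A.s * A.z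
  b1 : b.1 ∈ A.S
  b2 : b.2 ∈ B.S
  bz1 : b.1 * A.z * b.1⁻¹ = A.s * A.z
  bz2 : b.2 * B.z * b.2⁻¹ = B.s * B.z
  bb : b * b ∈ K
  bY : ∀ p ∈ K, p.1 ∈ A.S → b * p * b⁻¹ ∈ K

theorem KH.sigma_sq (h : KH q e f A B Δ K) : ((1 : G₀), B.s) * (1, B.s) = 1 :=
  Prod.ext (by simp) h.hB.tr.hS.zz

theorem KH.exists_NH [Finite G₀] [Finite G] (h : KH q e f A B Δ K) {q₀ n₀ : G₀} (hq : q₀ ∈ A.Q)
    (hs : q₀ * A.s * q₀⁻¹ = A.s * A.z) (hn : n₀ ∈ A.S) (hz : n₀ * A.z * n₀⁻¹ = A.s * A.z) :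
    ∃ a b, a.1 = q₀ ∧ b.1 = n₀ ∧ NH q e f A B Δ K a b := by
  obtain ⟨k, a⟩ := h.dg.fst q₀ hq
  obtain ⟨n, b1, b2, b3, b4⟩ := h.exists_n hn hz
  exact ⟨_, (n₀, n), rfl, rfl, h, a, hs, hn, b1, hz, b2, b3, b4⟩

/-- the part of the graph normalized by `n̂` -/
def MM (A : Dt G₀ V) (K : Subgroup (G₀ × G)) (b : G₀ × G) : Subgroup (G₀ × G) :=
  K ⊓ C1[A.s].prod ⊤ ⊓ cj[b⁻¹] K

theorem mem_MM {b : G₀ × G} : p ∈ MM A K b ↔ p ∈ K ∧ p.1 ∈ C1[A.s] ∧ b * p * b⁻¹ ∈ K := by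
  simp only [MM, mem_inf, mem_prod, mem_top, and_true, mem_conj, inv_inv, and_assoc]

/-- the graph on the normalizer of the four-group -/
def NN (A : Dt G₀ V) (K : Subgroup (G₀ × G)) (a b : G₀ × G) : Subgroup (G₀ × G) :=
  MM A K b ⊔ closure {a, b}

namespace NH

variable {a b : G₀ × G}

theorem aK (h : NH q e f A B Δ K a b) : a ∈ K := h.kg.dg h.aΔ

theorem a1 (h : NH q e f A B Δ K a b) : a.1 ∈ A.Q := (h.dg.mem _ h.aΔ).1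

theorem a2 (h : NH q e f A B Δ K a b) : a.2 ∈ B.Q := (h.dg.mem _ h.aΔ).2.1

theorem as2 (h : NH q e f A B Δ K a b) : a.2 * B.s * a.2⁻¹ = B.s * B.z := by
  have : (a.1 * A.s * a.1⁻¹, a.2 * B.s * a.2⁻¹) ∈ Δ := mul_mem (mul_mem h.aΔ h.dg.ss) (inv_mem h.aΔ)
  rw [h.as] at this
  exact h.dg.uniq h.hB h.dg.sz this

theorem Y2M (h : NH q e f A B Δ K a b) (hp : p ∈ K) (h1 : p.1 ∈ A.S) : p ∈ MM A K b :=
  mem_MM.2 ⟨hp, h.hA.tr.hS.le_cent1 h1, h.bY p hp h1⟩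

theorem dich [Finite G₀] [Finite G] (h : NH q e f A B Δ K a b) (hp : p ∈ K) (h1 : p.1 ∈ C1[A.s]) :
    b * p * b⁻¹ ∈ K ∨ b * p * b⁻¹ * (1, B.s) ∈ K := by
  have tA := h.hA.tr
  have tB := h.hB.tr
  have h2 := (h.P_iff hp).1 h1
  have d0 := tA.cm_Y2 h.b1 ⟨h.C1 hp, h1⟩
  have d1 := tB.cm_Y2 h.b2 ⟨h.C2 hp, h2⟩
  obtain ⟨d', m⟩ := h.kg.fst _ d0.2
  have d2 := h.Y2 m d0.1
  let Y : Subgroup (G₀ × G) := K ⊓ A.S.prod ⊤
  have nK : ∀ r ∈ K, r.1 ∈ C1[A.s] → r ∈ N[Y] := fun r hr r1 =>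
    mem_normalizer_of_conj_le (conj_le_iff_forall.2 fun y hy =>
      ⟨K.mul_mem (K.mul_mem hr hy.1) (K.inv_mem hr), conj_mem_of_le_norm tA.hS.nQ r1 hy.2.1, trivial⟩)
  have nb : b ∈ N[Y] := mem_normalizer_of_conj_le (conj_le_iff_forall.2 fun y hy =>
    ⟨h.bY y hy.1 hy.2.1, A.S.mul_mem (A.S.mul_mem h.b1 hy.2.1) (A.S.inv_mem h.b1), trivial⟩)
  have nd : ((1 : G₀), d'⁻¹ * cm b.2 p.2) ∈ N[Y] := by
    have := mul_mem (inv_mem (nK _ m (tA.Y2P d0).2))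
      (mul_mem (mul_mem (mul_mem nb (nK p hp h1)) (inv_mem nb)) (inv_mem (nK p hp h1)))
    convert this using 1
    exact Prod.ext (by simp [cm, mul_assoc]) rfl
  have hV : d'⁻¹ * cm b.2 p.2 ∈ VV B.z B.s := by
    rw [VV_comm]
    refine tB.symm.V_of_cent (mul_mem (inv_mem d2.1) d1.1) fun y hy => ?_
    obtain ⟨y₀, k⟩ := h.snd hy.2
    have k2 := (conj_mem_of_mem_norm nd (show (y₀, y) ∈ Y from ⟨k, (h.Y2' k hy.1).1, trivial⟩)).1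
    have : ((1 : G₀), d'⁻¹ * cm b.2 p.2) * (y₀, y) * (1, d'⁻¹ * cm b.2 p.2)⁻¹ =
      (y₀, d'⁻¹ * cm b.2 p.2 * y * (d'⁻¹ * cm b.2 p.2)⁻¹) := Prod.ext (by simp) rfl
    rw [this] at k2
    exact (mul_inv_eq_iff_eq_mul.1 (h.uniq k k2)).symm
  have i1 : b.2 * d' * b.2⁻¹ = d'⁻¹ := by
    have k : (b.1 * cm b.1 p.1 * b.1⁻¹, b.2 * d' * b.2⁻¹) ∈ K := h.bY _ m d0.1
    rw [tA.inverts h.b1 h1] at k
    exact h.uniq (inv_mem m) k
  have i2 := tB.inverts h.b2 h2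
  generalize hδ : d'⁻¹ * cm b.2 p.2 = δ at hV
  have e1 : cm b.2 p.2 = d' * δ := by rw [← hδ]; group
  have i3 : b.2 * δ * b.2⁻¹ = δ := by
    rw [e1, show b.2 * (d' * δ) * b.2⁻¹ = b.2 * d' * b.2⁻¹ * (b.2 * δ * b.2⁻¹) by group, i1,
      (tB.V_comm hV (tB.Y2P d2)).eq, mul_inv_rev, inv_eq_of_mul_eq_one_left (tB.V_sq hV)] at i2
    exact mul_left_cancel i2
  have e2 : b * p * b⁻¹ = (cm b.1 p.1, d') * p * (1, δ) := by
    refine Prod.ext (by simp [cm]) ?_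
    change b.2 * p.2 * b.2⁻¹ = d' * p.2 * δ
    rw [mul_assoc d', (tB.V_comm hV ⟨h.C2 hp, h2⟩).eq, ← mul_assoc, ← e1]; unfold cm; group
  rw [e2]
  rcases tB.memV.1 hV with c | c | c | c <;> rw [c] at i3 ⊢
  · left; rw [← Prod.one_eq_mk, mul_one]; exact mul_mem m hp
  · rw [h.bz2] at i3; exact absurd (by simpa using i3) tB.hS.ne
  · right
    rw [mul_assoc, h.sigma_sq, mul_one]
    exact mul_mem m hp
  · rw [tB.n_sz h.b2 h.bz2] at i3; exact absurd (by simpa using i3) tB.hS.ne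

theorem cube_aux [Finite G] (h : NH q e f A B Δ K a b) : ∃ t ∈ K, ∃ δ ∈ cj[a.2] B.S,
    δ ∈ C1[B.z] ⊓ C1[B.s] ∧ (a * b) ^ 3 = t * (1, δ) ∧ ∃ y ∈ K, y.1 ∈ A.S ∧ t = a * y * a⁻¹ := by
  obtain ⟨c1, c2⟩ := h.hA.tr.cube h.a1 h.as h.b1 h.bz1
  obtain ⟨c3, c4⟩ := h.hB.tr.cube h.a2 h.as2 h.b2 h.bz2
  have y0 := h.hA.tr.of_Y3 h.a1 c1 c2
  obtain ⟨y, m⟩ := h.kg.fst _ y0.2
  have y1 := h.Y2 m y0.1
  refine ⟨_, mul_mem (mul_mem h.aK m) (inv_mem h.aK), (a.2 * y * a.2⁻¹)⁻¹ * (a.2 * b.2) ^ 3,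
    mul_mem (inv_mem (conj_mem_conj.2 y1.1)) c3,
    mul_mem (inv_mem (h.hB.tr.conjP h.a2 (h.hB.tr.Y2P y1))) c4,
    Prod.ext (by simp [mul_assoc]) (by simp [mul_assoc]), _, m, y0.1, rfl⟩

theorem Y1M [Finite G₀] [Finite G] (h : NH q e f A B Δ K a b) (hp : p ∈ K)
    (h1 : p.1 ∈ A.Q ⊓ C1[A.s]) : p ∈ MM A K b := by
  have tA := h.hA.tr
  have tB := h.hB.tr
  refine mem_MM.2 ⟨hp, h1.2, (h.dich hp h1.2).resolve_right fun hn => h.sigma_not ?_⟩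
  have u1 : a.1⁻¹ * p.1 * a.1 ∈ A.Q ⊓ C1[A.s] :=
    ⟨A.Q.mul_mem (A.Q.mul_mem (A.Q.inv_mem h.a1) h1.1) h.a1, by simpa using (tA.conjP (inv_mem h.a1) (tA.Y1P h1)).2⟩
  have u2 := tA.of_Y3 h.a1 (t := b.1⁻¹ * (a.1⁻¹ * p.1 * a.1) * b.1⁻¹⁻¹)
    (tA.cj_eq h.as (tA.n_inv h.b1 h.bz1) ▸ conj_mem_conj.2 u1.1) (tA.conjP' (inv_mem h.b1) (tA.Y1P u1))
  have u3 : b.1⁻¹ * (a.1⁻¹ * (b.1⁻¹ * (a.1⁻¹ * p.1 * a.1) * b.1⁻¹⁻¹) * a.1) * b.1⁻¹⁻¹ ∈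
      A.S ⊓ C1[A.z] := ⟨A.S.mul_mem (A.S.mul_mem (A.S.inv_mem h.b1) u2.1) (A.S.inv_mem (A.S.inv_mem h.b1)),
    (tA.conjP' (inv_mem h.b1) (tA.Y2P u2)).1⟩
  obtain ⟨y, m⟩ := h.kg.fst _ u3.2
  generalize hy : (b.1⁻¹ * (a.1⁻¹ * (b.1⁻¹ * (a.1⁻¹ * p.1 * a.1) * b.1⁻¹⁻¹) * a.1) * b.1⁻¹⁻¹, y) = Y
    at m
  have y1 : Y.1 ∈ A.S ⊓ C1[A.z] := hy ▸ u3
  have y2 := h.Y2 m y1.1
  have e0 : (a * (b * (a * (b * Y * b⁻¹) * a⁻¹) * b⁻¹) * a⁻¹).1 = p.1 := by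
    rw [← hy]; simp [mul_assoc]
  have mA : a * (b * Y * b⁻¹) * a⁻¹ ∈ K := mul_mem (mul_mem h.aK (h.bY Y m y1.1)) (inv_mem h.aK)
  have pA : (a * (b * Y * b⁻¹) * a⁻¹).1 ∈ C1[A.s] := (tA.conjP h.a1 (tA.conjP' h.b1 (tA.Y2P y1))).2
  have aE := h.kg.le h.aK
  have zE := zeta_mem h.dg h.hB
  obtain ⟨t, ht, δ, δ1, δ2, e1, -⟩ := h.cube_aux
  have c3 : (a * b) ^ 3 * Y * ((a * b) ^ 3)⁻¹ ∈ EE A B Δ := by
    rw [e1, show t * (1, δ) * Y * (t * (1, δ))⁻¹ = t * ((1, δ) * Y * (1, δ)⁻¹) * t⁻¹ by group]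
    refine mul_mem (mul_mem (h.kg.le ht) ?_) (inv_mem (h.kg.le ht))
    rcases tB.cm_Y3 h.as2 h.b2 h.bz2 δ1 δ2 y2 with c | c
    · rw [show ((1 : G₀), δ) * Y * (1, δ)⁻¹ = Y from Prod.ext (by simp) c]; exact h.kg.le m
    · rw [show ((1 : G₀), δ) * Y * (1, δ)⁻¹ = (1, B.z) * Y from Prod.ext (by simp) c]
      exact mul_mem zE (h.kg.le m)
  have c4 : b * (a * (b * (a * (b * Y * b⁻¹) * a⁻¹) * b⁻¹) * a⁻¹) * b⁻¹ ∈ EE A B Δ := by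
    have := mul_mem (mul_mem (inv_mem aE) c3) aE
    convert this using 1; rw [pow_three]; group
  have c5 : b * p * b⁻¹ ∈ EE A B Δ := by
    rcases h.dich mA pA with c | c
    · rwa [h.ext (mul_mem (mul_mem h.aK c) (inv_mem h.aK)) hp e0] at c4
    · have k := h.ext (mul_mem (mul_mem h.aK c) (inv_mem h.aK)) hp (by simpa using e0)
      have e2 : b * (a * (1, B.s) * a⁻¹) * b⁻¹ = (1, B.z) := by
        refine Prod.ext (by simp) ?_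
        change b.2 * (a.2 * B.s * a.2⁻¹) * b.2⁻¹ = B.z
        rw [h.as2, tB.n_sz h.b2 h.bz2]
      have := mul_mem c4 zE
      rw [← e2] at this
      rw [← k]; convert this using 1; group
  have := mul_mem (inv_mem c5) (h.kg.le hn)
  rwa [inv_mul_cancel_left] at this

theorem MK (_h : NH q e f A B Δ K a b) : MM A K b ≤ K := fun _ hp => (mem_MM.1 hp).1

theorem a_norm [Finite G₀] [Finite G] (h : NH q e f A B Δ K a b) : a ∈ N[MM A K b] :=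
  mem_normalizer_of_conj_le (conj_le_iff_forall.2 fun p hp => by
    obtain ⟨p1, p2, -⟩ := mem_MM.1 hp
    have := mul_mem (h.Y1M (p := cm a p) (mul_mem (mul_mem (mul_mem h.aK p1) (inv_mem h.aK)) (inv_mem p1))
      (h.hA.tr.cm_Y1 h.a1 ⟨h.C1 p1, p2⟩)) hp
    simpa [cm] using this)

theorem b_norm [Finite G₀] [Finite G] (h : NH q e f A B Δ K a b) : b ∈ N[MM A K b] :=
  mem_normalizer_of_conj_le (conj_le_iff_forall.2 fun p hp => by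
    obtain ⟨p1, p2, p3⟩ := mem_MM.1 hp
    have := mul_mem (h.Y2M (p := cm b p) (mul_mem p3 (inv_mem p1))
      (h.hA.tr.cm_Y2 h.b1 ⟨h.C1 p1, p2⟩).1) hp
    simpa [cm] using this)

theorem aa [Finite G₀] [Finite G] (h : NH q e f A B Δ K a b) : a * a ∈ MM A K b :=
  h.Y1M (mul_mem h.aK h.aK) (by
    change a.1 * a.1 ∈ _
    rcases h.hA.xq.sq _ h.a1 with c | c <;> rw [c]
    exacts [one_mem _, h.hA.tr.VY1 h.hA.tr.zV])

theorem bbM (h : NH q e f A B Δ K a b) : b * b ∈ MM A K b := h.Y2M h.bb (mul_mem h.b1 h.b1)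

theorem cube [Finite G₀] [Finite G] (h : NH q e f A B Δ K a b) : (a * b) ^ 3 ∈ MM A K b := by
  have tB := h.hB.tr
  obtain ⟨t, ht, δ, δ1, δ2, e1, y, y1, y2, e2⟩ := h.cube_aux
  have tM : t ∈ MM A K b := e2 ▸ conj_mem_of_mem_norm h.a_norm (h.Y2M y1 y2)
  have nm := mul_mem h.a_norm h.b_norm
  have nd : ((1 : G₀), δ) ∈ N[MM A K b] := by
    have := mul_mem (inv_mem (le_normalizer tM)) (pow_mem nm 3)
    rwa [e1, inv_mul_cancel_left] at this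
  have hV : δ ∈ VV B.z B.s := h.hB.xt.V_of_cent h.hB.card δ2.1 fun x hx => by
    obtain ⟨x₀, k⟩ := h.dg.snd h.hA h.hB hx.1
    have k2 := h.MK (conj_mem_of_mem_norm nd (h.Y1M (h.kg.dg k)
      ⟨(h.dg.mem _ k).1, (h.dg.Y1 h.hA h.hB k).2 hx.2⟩))
    rw [show ((1 : G₀), δ) * (x₀, x) * (1, δ)⁻¹ = (x₀, δ * x * δ⁻¹) from Prod.ext (by simp) rfl] at k2
    exact (mul_inv_eq_iff_eq_mul.1 (h.uniq (h.kg.dg k) k2)).symm
  have c1 : a * b * t * (a * b)⁻¹ = t := h.ext (h.MK (conj_mem_of_mem_norm nm tM)) ht (by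
    have : t.1 = (a * b).1 ^ 3 := by simpa using (congrArg Prod.fst e1).symm
    rw [Prod.fst_mul, Prod.fst_mul _ t, Prod.fst_inv, this]; generalize (a * b).1 = u; group)
  have c2 : a.2 * (b.2 * δ * b.2⁻¹) * a.2⁻¹ = δ := by
    have k : a * b * (t * (1, δ)) * (a * b)⁻¹ = t * (1, δ) := by
      rw [← e1]; generalize a * b = u; group
    rw [show a * b * (t * (1, δ)) * (a * b)⁻¹ = a * b * t * (a * b)⁻¹ * (a * b * (1, δ) * (a * b)⁻¹) by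
      group, c1] at k
    have := congrArg Prod.snd (mul_left_cancel k)
    simpa [mul_assoc] using this
  rcases tB.memV.1 hV with c | c | c | c <;> rw [c] at c2 e1
  · rw [e1, ← Prod.one_eq_mk, mul_one]; exact tM
  · rw [h.bz2, tB.q_sz h.a2 h.as2] at c2; exact absurd c2 tB.ne
  · rw [tB.ns h.b2, h.as2] at c2; exact absurd (by simpa using c2) tB.hQ.ne
  · rw [tB.n_sz h.b2 h.bz2, tB.qz h.a2] at c2; exact absurd (by simpa using c2) tB.hS.ne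

theorem sqM [Finite G₀] [Finite G] (h : NH q e f A B Δ K a b) (hp : p ∈ K) (h1 : p.1 ∈ C1[A.s]) :
    p * p ∈ MM A K b := by
  refine mem_MM.2 ⟨mul_mem hp hp, mul_mem h1 h1, ?_⟩
  rw [show b * (p * p) * b⁻¹ = b * p * b⁻¹ * (b * p * b⁻¹) by group]
  rcases h.dich hp h1 with c | c
  · exact mul_mem c c
  · have := mul_mem c c
    have k : Commute (b * p * b⁻¹) (1, B.s) := Prod.ext (by simp)
      (mem_cent1.1 (h.hB.tr.conjP' h.b2 ⟨h.C2 hp, (h.P_iff hp).1 h1⟩).2)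
    rwa [mul_assoc, ← mul_assoc (1, B.s), ← k.eq, mul_assoc _ (1, B.s), h.sigma_sq,
      mul_one] at this

theorem oddM [Finite G₀] [Finite G] (h : NH q e f A B Δ K a b) (hp : p ∈ K) (h1 : p.1 ∈ C1[A.s])
    {m : ℕ} (hm : p.1 ^ (2 * m + 1) = 1) : p ∈ MM A K b := by
  have e1 : p ^ (2 * m + 1) = 1 := h.ext (pow_mem hp _) (one_mem _) hm
  have := pow_mem (h.sqM hp h1) (m + 1)
  rwa [← sq, ← pow_mul, show 2 * (m + 1) = 2 * m + 1 + 1 by ring, pow_succ, e1, one_mul] at this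

theorem cosets [Finite G₀] [Finite G] (h : NH q e f A B Δ K a b) (hp : p ∈ NN A K a b) :
    ∃ w, (w = 1 ∨ w = a ∨ w = b ∨ w = a * b ∨ w = b * a ∨ w = a * b * a) ∧ w⁻¹ * p ∈ MM A K b :=
  s3_rel h.a_norm h.b_norm h.aa h.bbM h.cube hp

theorem mem_M [Finite G₀] [Finite G] (h : NH q e f A B Δ K a b) (hp : p ∈ NN A K a b)
    (h1 : p.1 ∈ C1[A.z] ⊓ C1[A.s]) : p ∈ MM A K b := by
  have tA := h.hA.tr
  obtain ⟨w, hw, m⟩ := h.cosets hp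
  have m1 : w.1 ∈ C1[A.z] ⊓ C1[A.s] := by
    have k : w.1⁻¹ * p.1 ∈ C1[A.z] ⊓ C1[A.s] := ⟨h.C1 (h.MK m), (mem_MM.1 m).2.1⟩
    simpa using mul_mem h1 (inv_mem k)
  have m2 := mul_inv_eq_iff_eq_mul.2 (mem_cent1.1 m1.1)
  have m3 := mul_inv_eq_iff_eq_mul.2 (mem_cent1.1 m1.2)
  have az := tA.qz h.a1
  rcases hw with rfl | rfl | rfl | rfl | rfl | rfl
  · simpa using m
  · rw [h.as] at m3; exact absurd (by simpa using m3) tA.hQ.ne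
  · rw [h.bz1] at m2; exact absurd (by simpa using m2) tA.hS.ne
  · rw [Prod.fst_mul, show a.1 * b.1 * A.z * (a.1 * b.1)⁻¹ = a.1 * (b.1 * A.z * b.1⁻¹) * a.1⁻¹ by
      group, h.bz1, tA.q_sz h.a1 h.as] at m2
    exact absurd m2 tA.ne
  · rw [Prod.fst_mul, show b.1 * a.1 * A.z * (b.1 * a.1)⁻¹ = b.1 * (a.1 * A.z * a.1⁻¹) * b.1⁻¹ by
      group, az, h.bz1] at m2
    exact absurd (by simpa using m2) tA.hS.ne
  · rw [Prod.fst_mul, Prod.fst_mul, show a.1 * b.1 * a.1 * A.z * (a.1 * b.1 * a.1)⁻¹ =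
      a.1 * (b.1 * (a.1 * A.z * a.1⁻¹) * b.1⁻¹) * a.1⁻¹ by group, az, h.bz1, tA.q_sz h.a1 h.as] at m2
    exact absurd m2 tA.ne

/-- the first projection is injective on the graph of the normalizer -/
theorem N_inj [Finite G₀] [Finite G] (h : NH q e f A B Δ K a b) (hp : p ∈ NN A K a b)
    (h1 : p.1 = 1) : p = 1 :=
  h.ext (h.MK (h.mem_M hp (h1 ▸ one_mem _))) (one_mem _) h1

end NH

end Cfsg.Agent.XL
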