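import Cfsg.Agent.XL.A2
import Cfsg.Agent.TC.WK

/-! # Amalgams inside a product of a model and a given group -/

set_option autoImplicit false

namespace Cfsg.Agent.XL

open Cfsg Cfsg.Agent.GT Cfsg.Agent.TT Cfsg.Agent.TC Cfsg.Agent.M24 Subgroup MulAction
open scoped Pointwise

variable {X G Ω : Type*} [Group X] [Group G] [MulAction X Ω] {idx : Ω → ℕ} {m : ℕ → X}
  {f : ℕ → ℕ → ℕ} {iv : ℕ → ℕ} {k : ℕ} {bs : List ℕ} {v : ℕ → X × G} {M K B : Subgroup (X × G)}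
  {p r : X × G} {w w' ls ls0 : List ℕ}

/-- membership in a list -/
noncomputable def lm (l : List ℕ) (i : ℕ) : Bool := lany l (Nat.beq i)

theorem lm_iff {l : List ℕ} {i : ℕ} : lm l i = true ↔ i ∈ l := by
  simp [lm, lany_iff, Nat.beq_eq]

/-- inclusion of lists -/
noncomputable def lsub (a b : List ℕ) : Bool := lall a (lm b)

theorem lsub_iff {a b : List ℕ} : lsub a b = true ↔ ∀ i ∈ a, i ∈ b := by
  simp [lsub, lall_iff, lm_iff]

/-- all the letters are below `k` -/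
noncomputable def llt (k : ℕ) (a : List ℕ) : Bool := lall a fun i => Nat.ble (Nat.succ i) k

theorem llt_iff {a : List ℕ} : llt k a = true ↔ ∀ i ∈ a, i < k := by
  simp [llt, lall_iff, Nat.ble_eq, Nat.succ_le_iff]

/-- a permutation model with letters and a base -/
structure Md (idx : Ω → ℕ) (m : ℕ → X) (f : ℕ → ℕ → ℕ) (k : ℕ) (bs : List ℕ) : Prop where
  inj : Function.Injective idx
  act : ∀ i < k, ∀ x, idx (m i • x) = f i (idx x)
  base : ∀ g : X, (∀ x, idx x ∈ bs → g • x = x) → g = 1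

/-- two words agree on the base -/
noncomputable def eqw (f : ℕ → ℕ → ℕ) (k : ℕ) (bs w w' : List ℕ) : Bool :=
  band (band (llt k w) (llt k w')) (lall bs fun q => Nat.beq (apl f w q) (apl f w' q))

theorem Md.ap (h : Md idx m f k bs) (hw : ∀ i ∈ w, i < k) (x : Ω) :
    idx (evl m w • x) = apl f w (idx x) := apl_evl (fun i hi => h.act i (hw i hi)) x

theorem Md.ext (h : Md idx m f k bs) {a b : X} (e : ∀ x, idx x ∈ bs → a • x = b • x) : a = b :=
  (inv_mul_eq_one.1 (h.base (b⁻¹ * a) fun x hx => by rw [mul_smul, e x hx, inv_smul_smul])).symm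

theorem Md.eq (h : Md idx m f k bs) (e : eqw f k bs w w' = true) : evl m w = evl m w' := by
  simp only [eqw, band_eq, Bool.and_eq_true, llt_iff, lall_iff, Nat.beq_eq] at e
  exact h.ext fun x hx => h.inj (by rw [h.ap e.1.1, h.ap e.1.2, e.2 _ hx])

theorem Md.ne (h : Md idx m f k bs) {x : Ω} {q : ℕ} (hx : idx x = q)
    (e : (band (band (llt k w) (llt k w')) (!Nat.beq (apl f w q) (apl f w' q))) = true) :
    evl m w ≠ evl m w' := fun a => by
  simp only [band_eq, Bool.and_eq_true, llt_iff, Bool.not_eq_true', ← Bool.not_eq_true, Nat.beq_eq] at e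
  exact e.2 (by rw [← hx, ← h.ap e.1.1, ← h.ap e.1.2, a])

/-- the first projection is injective -/
def Gr (M : Subgroup (X × G)) : Prop := ∀ p ∈ M, p.1 = 1 → p = 1

theorem Gr.mono (h : Gr K) (e : M ≤ K) : Gr M := fun p hp => h p (e hp)

theorem Gr.ext (h : Gr M) (a : p ∈ M) (b : r ∈ M) (e : p.1 = r.1) : p = r :=
  (inv_mul_eq_one.1 (h _ (mul_mem (inv_mem b) a) (by simp [e]))).symm

theorem Gr.comm (h : Gr M) (a : p ∈ M) (b : r ∈ M) (e : Commute p.1 r.1) : Commute p r :=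
  h.ext (mul_mem a b) (mul_mem b a) e

/-- the subgroup generated by some letters -/
def Mb {D : Type*} [Group D] (v : ℕ → D) (ls : List ℕ) : Subgroup D := closure (v '' {i | i ∈ ls})

section
variable {D : Type*} [Group D] {u : ℕ → D} {S : Subgroup D}

theorem Mb.of {i : ℕ} (h : i ∈ ls) : u i ∈ Mb u ls := subset_closure ⟨i, h, rfl⟩

theorem Mb.le (h : ∀ i ∈ ls, u i ∈ S) : Mb u ls ≤ S :=
  (closure_le _).2 (by rintro _ ⟨i, hi, rfl⟩; exact h i hi)

theorem Mb.ev (h : ∀ i ∈ w, i ∈ ls) : evl u w ∈ Mb u ls := evl_mem fun i hi => Mb.of (h i hi)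

theorem Mb.ev' (h : lsub w ls = true) : evl u w ∈ Mb u ls := Mb.ev (lsub_iff.1 h)

theorem Mb.mono (h : ∀ i ∈ ls0, i ∈ ls) : Mb u ls0 ≤ Mb u ls := Mb.le fun i hi => Mb.of (h i hi)

theorem Mb.map {D' : Type*} [Group D'] (φ : D →* D') : (Mb u ls).map φ = Mb (fun i => φ (u i)) ls := by
  rw [Mb, MonoidHom.map_closure, Set.image_image]; rfl

theorem Mb.congr {u' : ℕ → D} (h : ∀ i ∈ ls, u i = u' i) : Mb u ls = Mb u' ls := by
  exact congrArg Subgroup.closure (Set.image_congr h)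

theorem evl_lmap (g : ℕ → ℕ) : ∀ l : List ℕ, evl (fun i => u (g i)) l = evl u (l.map g)
  | [] => rfl
  | i :: l => by rw [evl, evl_lmap g l, List.map_cons, evl]

theorem Mb.range (l : List ℕ) :
    closure ((fun i => u (lget l 0 i)) '' {i | i < l.length}) = Mb u l := by
  congr 1
  ext x
  constructor
  · rintro ⟨i, hi, rfl⟩
    exact ⟨_, by rw [lget_eq_getD, List.getD_eq_getElem _ _ hi]; exact List.getElem_mem hi, rfl⟩
  · rintro ⟨_, hi, rfl⟩
    obtain ⟨i, h, rfl⟩ := List.getElem_of_mem hi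
    exact ⟨i, h, by simp only [lget_eq_getD, List.getD_eq_getElem _ _ h]⟩

theorem Mb.norm [Finite D] {g : D} (h : ∀ i ∈ ls, g * u i * g⁻¹ ∈ Mb u ls) : g ∈ N[Mb u ls] :=
  mem_normalizer_of_conj fun x hx => by
    have : Mb u ls ≤ (Mb u ls).comap (MulAut.conj g).toMonoidHom := Mb.le h
    exact this hx

theorem Mb.cent {g : D} (h : ∀ i ∈ ls, Commute g (u i)) {x : D} (hx : x ∈ Mb u ls) : Commute g x := by
  have : Mb u ls ≤ C1[g] := Mb.le fun i hi => mem_centralizer_singleton_iff.2 (h i hi).symm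
  exact (mem_centralizer_singleton_iff.1 (this hx)).symm

end

/-- letters in the product over the letters of the model -/
structure AM (m : ℕ → X) (v : ℕ → X × G) (iv : ℕ → ℕ) (k : ℕ) : Prop where
  fst : ∀ i < k, (v i).1 = m i
  inv : ∀ i < k, iv i < k ∧ v (iv i) * v i = 1

theorem AM.ev (h : AM m v iv k) (hw : ∀ i ∈ w, i < k) : (evl v w).1 = evl m w :=
  (evl_map (MonoidHom.fst X G) v w).trans (evl_congr fun i hi => h.fst i (hw i hi))

theorem evl_snd' (w : List ℕ) : (evl v w).2 = evl (fun i => (v i).2) w := evl_map (MonoidHom.snd X G) v w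

theorem AM.map (h : AM m v iv k) (hl : ∀ i ∈ ls, i < k) : (Mb v ls).map (MonoidHom.fst X G) = Mb m ls :=
  (Mb.map _).trans (Mb.congr fun i hi => h.fst i (hl i hi))

theorem AM.mem (h : AM m v iv k) (hl : ∀ i ∈ ls, i < k) (hp : p ∈ Mb v ls) : p.1 ∈ Mb m ls :=
  h.map hl ▸ mem_map_of_mem _ hp

theorem AM.lift (h : AM m v iv k) (hl : ∀ i ∈ ls, i < k) {c : X} (hc : c ∈ Mb m ls) :
    ∃ p ∈ Mb v ls, p.1 = c := by rwa [← h.map hl] at hc

theorem AM.eq (h : AM m v iv k) (d : Md idx m f k bs) (hM : Gr M) (a : evl v w ∈ M) (b : evl v w' ∈ M)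
    (e : eqw f k bs w w' = true) : evl v w = evl v w' := by
  have e' := e
  simp only [eqw, band_eq, Bool.and_eq_true, llt_iff] at e'
  exact hM.ext a b (by rw [h.ev e'.1.1, h.ev e'.1.2, d.eq e])

theorem AM.eq' (h : AM m v iv k) (d : Md idx m f k bs) (hM : Gr (Mb v ls))
    (e : band (band (lsub w ls) (lsub w' ls)) (eqw f k bs w w') = true) : evl v w = evl v w' := by
  simp only [band_eq, Bool.and_eq_true] at e
  exact h.eq d hM (Mb.ev' e.1.1) (Mb.ev' e.1.2) e.2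

/-- check of the hypotheses of a coset enumeration -/
noncomputable def stepChk (f : ℕ → ℕ → ℕ) (iv : ℕ → ℕ) (k : ℕ) (bs : List ℕ) (mems ex : List (List ℕ))
    (ls ls0 : List ℕ) (iv' : ℕ → ℕ) (base : List (List ℕ)) (sub : ℕ) : Bool :=
  band (band (llt k ls) (lsub ls0 ls))
    (band (nall ls.length fun i => band (band (Nat.ble (Nat.succ (iv' i)) ls.length)
        (Nat.beq (lget ls 0 (iv' i)) (iv (lget ls 0 i))))
        (bor (!sub.testBit i) (lm ls0 (lget ls 0 i))))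
      (base.all fun l => band (llt ls.length l) (bor (ex.any fun e => e == l.map (lget ls 0))
        (band (mems.any (lsub (l.map (lget ls 0)))) (eqw f k bs (l.map (lget ls 0)) [])))))

theorem AM.idx_le (h : AM m v iv k) (d : Md idx m f k bs) {mems ex base : List (List ℕ)}
    {iv' : ℕ → ℕ} {k' sub N : ℕ} (hC : Cert k' iv' base sub N) (hk : ls.length = k')
    (hm : ∀ l ∈ mems, Gr (Mb v l)) (he : ∀ l ∈ ex, evl v l = 1)
    (hc : stepChk f iv k bs mems ex ls ls0 iv' base sub = true) :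
    (∀ i ∈ ls, i < k) ∧ Mb v ls0 ≤ Mb v ls ∧ (Mb v ls0).relIndex (Mb v ls) ≠ 0 ∧
      (Mb v ls0).relIndex (Mb v ls) ≤ N := by
  subst hk
  simp only [stepChk, band_eq, bor_eq, Bool.and_eq_true, Bool.or_eq_true, llt_iff, lsub_iff, nall_iff,
    Nat.ble_eq, Nat.beq_eq, lm_iff, List.all_eq_true, List.any_eq_true, beq_iff_eq,
    Bool.not_eq_true'] at hc
  obtain ⟨⟨h1, h2⟩, h3, h4⟩ := hc
  refine ⟨h1, Mb.mono h2, ?_⟩
  have hl : ∀ i < ls.length, lget ls 0 i < k := fun i hi => h1 _ (by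
    rw [lget_eq_getD, List.getD_eq_getElem _ _ hi]; exact List.getElem_mem hi)
  rw [← Mb.range ls]
  refine hC.relIndex _ _ (fun i hi => ⟨(h3 i hi).1.1, ?_⟩) (fun l hl' => ⟨(h4 l hl').1, ?_⟩)
    fun i hi hs => Mb.of ((h3 i hi).2.resolve_left (by simp [hs]))
  · rw [(h3 i hi).1.2]; exact (h.inv _ (hl i hi)).2
  · rw [evl_lmap]
    rcases (h4 l hl').2 with ⟨e, a, rfl⟩ | ⟨⟨e, a, b⟩, c⟩
    · exact he _ a
    · exact h.eq d (hm e a) (Mb.ev b) (one_mem _) c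

/-- orbit check -/
noncomputable def orbLe (f : ℕ → ℕ → ℕ) (ls ls0 : List ℕ) (r hi N : ℕ) (t : T) : Bool :=
  band (band (t.srt (nat_lit 0) hi) (connChk f ls r t))
    (band (lall ls0 fun i => Nat.beq (f i r) r) (Nat.ble N t.size))

theorem orb_le {D Y : Type*} [Group D] [MulAction D Y] {ix : Y → ℕ} (hi : Function.Injective ix)
    {u : ℕ → D} {f : ℕ → ℕ → ℕ} (ha : ∀ i ∈ ls, ∀ x, ix (u i • x) = f i (ix x)) {x : Y} {n N : ℕ} {t : T}
    (h0 : ∀ i ∈ ls0, i ∈ ls) (hc : orbLe f ls ls0 (ix x) n N t = true) :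
    Mb u ls0 ≤ stabilizer D x ∧
      ((stabilizer D x).relIndex (Mb u ls) = 0 ∨ N ≤ (stabilizer D x).relIndex (Mb u ls)) := by
  simp only [orbLe, band_eq, Bool.and_eq_true, lall_iff, Nat.beq_eq, Nat.ble_eq] at hc
  obtain ⟨⟨h1, h2⟩, h3, h4⟩ := hc
  refine ⟨Mb.le fun i h => hi ((ha i (h0 i h) x).trans (h3 i h)), ?_⟩
  have hk : ∀ q ∈ t.keys, ∃ g ∈ Mb u ls, ix (g • x) = q :=
    conn_gen h2 ⟨1, one_mem _, by rw [one_smul]⟩ fun s hs b ⟨g, hg, e⟩ =>
      ⟨u s * g, mul_mem (Mb.of hs) hg, by rw [mul_smul, ha s hs, e]⟩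
  rw [relIndex, show (stabilizer D x).subgroupOf (Mb u ls) = stabilizer (Mb u ls) x from rfl,
    index_stabilizer]
  refine (Set.finite_or_infinite (orbit (Mb u ls) x)).symm.imp Set.Infinite.ncard fun hf => h4.trans ?_
  rw [T.size_eq, ← List.toFinset_card_of_nodup (T.srt_nodup h1), ← Set.ncard_coe_finset,
    ← Set.ncard_image_of_injective _ hi]
  refine Set.ncard_le_ncard (fun q hq => ?_) (hf.image _)
  obtain ⟨g, hg, eg⟩ := hk q (by simpa using hq)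
  exact ⟨_, ⟨⟨g, hg⟩, rfl⟩, eg⟩

theorem stab_of_idx {D : Type*} [Group D] {A B S : Subgroup D} {N : ℕ} (h1 : A ≤ S)
    (h2 : A.relIndex B ≠ 0) (h3 : A.relIndex B ≤ N) (h4 : S.relIndex B = 0 ∨ N ≤ S.relIndex B) :
    S ⊓ B ≤ A := by
  have e := relIndex_inf_mul_relIndex A S B
  rw [inf_eq_left.2 h1] at e
  have e0 : S.relIndex B ≠ 0 := fun a => h2 (by rw [← e, a, mul_zero])
  have e1 : A.relIndex (S ⊓ B) ≠ 0 := fun a => h2 (by rw [← e, a, zero_mul])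
  rw [← relIndex_eq_one]
  have := h4.resolve_left e0
  by_contra c
  have : 2 * S.relIndex B ≤ A.relIndex (S ⊓ B) * S.relIndex B := Nat.mul_le_mul_right _ (by omega)
  omega

/-- one step: a coset enumeration and an orbit of the model -/
theorem AM.step (h : AM m v iv k) (d : Md idx m f k bs) {mems ex base : List (List ℕ)}
    {iv' : ℕ → ℕ} {k' sub N : ℕ} (hC : Cert k' iv' base sub N) (hk : ls.length = k')
    (hm : ∀ l ∈ mems, Gr (Mb v l)) (he : ∀ l ∈ ex, evl v l = 1) (h0 : Gr (Mb v ls0))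
    (hc : stepChk f iv k bs mems ex ls ls0 iv' base sub = true)
    {Y : Type*} [MulAction X Y] {ix : Y → ℕ} (hi : Function.Injective ix) {f' : ℕ → ℕ → ℕ}
    (ha : ∀ i < k, ∀ x, ix (m i • x) = f' i (ix x)) {x : Y} {q n : ℕ} {t : T} (hx : ix x = q)
    (ho : orbLe f' ls ls0 q n N t = true) :
    Gr (Mb v ls) ∧ ∀ p ∈ Mb v ls, p.1 • x = x → p ∈ Mb v ls0 := by
  obtain ⟨h1, -, h3, h4⟩ := h.idx_le d hC hk hm he hc
  letI : MulAction (X × G) Y := MulAction.compHom Y (MonoidHom.fst X G)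
  have h2 : ∀ i ∈ ls0, i ∈ ls := by
    simp only [stepChk, band_eq, Bool.and_eq_true, lsub_iff] at hc; exact hc.1.2
  obtain ⟨a, b⟩ := orb_le (u := v) hi (fun i hi' y => by
    rw [← ha i (h1 i hi') y, ← h.fst i (h1 i hi')]; rfl) h2 (hx ▸ ho)
  have c := stab_of_idx a h3 h4 b
  exact ⟨fun p hp e => h0 p (c ⟨show p.1 • x = x by rw [e, one_smul], hp⟩) e, fun p hp e => c ⟨e, hp⟩⟩

theorem Gr.exists_hom (h : Gr M) (ht : ∀ c, ∃ p ∈ M, p.1 = c) :
    ∃ φ : X →* G, ∀ p ∈ M, φ p.1 = p.2 := by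
  choose s a b using ht
  refine ⟨MonoidHom.mk' (fun c => (s c).2) fun c c' => ?_, fun p hp => ?_⟩
  · rw [h.ext (a (c * c')) (mul_mem (a c) (a c')) (by simp [b])]; rfl
  · exact congrArg Prod.snd (h.ext (a _) hp (b _))

theorem Gr.norm [Finite X] [Finite G] (h : Gr M) (hB : B ≤ M) (hp : p ∈ M)
    (e : ∀ r ∈ B, ∃ r' ∈ B, r'.1 = p.1 * r.1 * p.1⁻¹) : p ∈ N[B] :=
  mem_normalizer_of_conj fun r hr =>
    let ⟨r', a, b⟩ := e r hr
    h.ext (hB a) (mul_mem (mul_mem hp (hB hr)) (inv_mem hp)) b ▸ a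

/-- the conjugates of the letters of `ls0` by the word `s` are among the words `ws` -/
noncomputable def nmChk (f : ℕ → ℕ → ℕ) (k : ℕ) (bs ls0 : List ℕ) (ws : List (List ℕ)) (s : List ℕ) :
    Bool :=
  lall ls0 fun i => ws.any fun w => band (lsub w ls0) (eqw f k bs (i :: s) (s ++ w))

theorem Md.norm [Finite X] (d : Md idx m f k bs) {s : List ℕ} {ws : List (List ℕ)}
    (hc : nmChk f k bs ls0 ws s = true) : evl m s ∈ N[Mb m ls0] := by
  simp only [nmChk, band_eq, Bool.and_eq_true, lall_iff, List.any_eq_true, lsub_iff] at hc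
  refine Mb.norm fun i hi => ?_
  obtain ⟨w, -, a, b⟩ := hc i hi
  have := d.eq b
  rw [evl, evl_append] at this
  rw [this, mul_inv_cancel_right]
  exact Mb.ev a

theorem AM.norm [Finite X] [Finite G] (h : AM m v iv k) (hM : Gr M) (hl : ∀ i ∈ ls0, i < k)
    (h0 : Mb v ls0 ≤ M) (hp : p ∈ M) (hc : p.1 ∈ N[Mb m ls0]) : p ∈ N[Mb v ls0] :=
  hM.norm h0 hp fun _ hr => h.lift hl (conj_mem_of_mem_norm hc (h.mem hl hr))

/-- digits of a word written in base 32 -/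
noncomputable def dw (a : ℕ) : List ℕ :=
  Nat.rec (motive := fun _ => ℕ → List ℕ) (fun _ => [])
    (fun _ ih a => Bool.rec (motive := fun _ => List ℕ)
      (Nat.sub (Nat.land a (nat_lit 31)) (nat_lit 1) :: ih (Nat.shiftRight a (nat_lit 5))) []
      (Nat.beq a (nat_lit 0))) (nat_lit 1000) a

/-- key of the images of the base -/
noncomputable def ky (n : ℕ) (bs : List ℕ) (φ : ℕ → ℕ) : ℕ :=
  List.rec (motive := fun _ => ℕ) (nat_lit 0) (fun q _ ih => Nat.add (Nat.mul ih n) (φ q)) bs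

/-- action on keys -/
noncomputable def fk (g : ℕ → ℕ) (n len : ℕ) : ℕ → ℕ :=
  Nat.rec (motive := fun _ => ℕ → ℕ) (fun _ => nat_lit 0)
    (fun _ ih key => force (Nat.div key n) fun r => force (ih r) fun a => force (Nat.mod key n) fun q =>
      Nat.add (Nat.mul a n) (g q)) len

theorem ky_cons (n q : ℕ) (bs : List ℕ) (φ : ℕ → ℕ) : ky n (q :: bs) φ = ky n bs φ * n + φ q := rfl

theorem fk_ky {n : ℕ} {g φ : ℕ → ℕ} : ∀ {bs : List ℕ}, (∀ q ∈ bs, φ q < n) →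
    fk g n bs.length (ky n bs φ) = ky n bs fun q => g (φ q)
  | [], _ => rfl
  | q :: bs, h => by
    have a := h q List.mem_cons_self
    have e : ∀ key, fk g n (q :: bs).length key = fk g n bs.length (key / n) * n + g (key % n) :=
      fun key => by simp only [fk, List.length_cons, force_eq]; rfl
    rw [e, ky_cons, ky_cons, Nat.mul_add_mod_of_lt a, Nat.add_comm _ (φ q), Nat.add_mul_div_right _ _ (by omega),
      Nat.div_eq_of_lt a, Nat.zero_add, fk_ky fun q hq => h q (List.mem_cons_of_mem _ hq)]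

theorem ky_inj {n : ℕ} {φ ψ : ℕ → ℕ} : ∀ {bs : List ℕ}, (∀ q ∈ bs, φ q < n ∧ ψ q < n) →
    ky n bs φ = ky n bs ψ → ∀ q ∈ bs, φ q = ψ q
  | [], _, _ => by simp
  | q :: bs, h, e => by
    obtain ⟨a, b⟩ := h q List.mem_cons_self
    rw [ky_cons, ky_cons] at e
    have e1 := congrArg (· % n) e
    simp only [Nat.mul_add_mod_of_lt a, Nat.mul_add_mod_of_lt b] at e1
    exact List.forall_mem_cons.2 ⟨e1, ky_inj (fun q hq => h q (List.mem_cons_of_mem _ hq))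
      (Nat.eq_of_mul_eq_mul_right (m := n) (by omega) (by omega))⟩

theorem ky_congr {n : ℕ} {φ ψ : ℕ → ℕ} : ∀ {bs : List ℕ}, (∀ q ∈ bs, φ q = ψ q) → ky n bs φ = ky n bs ψ
  | [], _ => rfl
  | q :: bs, h => by
    rw [ky_cons, ky_cons, h q List.mem_cons_self, ky_congr fun q hq => h q (List.mem_cons_of_mem _ hq)]

/-- enumeration of a subgroup generated by letters -/
noncomputable def enumChk (f : ℕ → ℕ → ℕ) (k n : ℕ) (bs ls : List ℕ) (t : T) (P : List ℕ → ℕ → Bool) : Bool :=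
  band (band (llt k ls) (t.has (ky n bs fun q => q))) (t.all fun key a b =>
    band (lall ls fun i => force (fk (f i) n bs.length key) t.has)
      (band (band (lsub (dw a) ls) (Nat.beq (ky n bs (apl f (dw a))) key)) (P (dw a) b)))

/-- the points are numbered below `n` -/
structure Md.Num (idx : Ω → ℕ) (n : ℕ) (bs : List ℕ) : Prop where
  lt : ∀ x, idx x < n
  ex : ∀ q ∈ bs, ∃ x, idx x = q

theorem Md.enum' [Finite X] (h : Md idx m f k bs) {n : ℕ} (hn : Md.Num idx n bs) {t : T}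
    {P : List ℕ → ℕ → Bool} (hc : enumChk f k n bs ls t P = true) :
    (∀ g ∈ Mb m ls, ∃ w b, (∀ i ∈ w, i ∈ ls) ∧ evl m w = g ∧ P w b = true) ∧
      ∀ hi, t.srt 0 hi = true → Nat.card (Mb m ls) = t.size := by
  simp only [enumChk, band_eq, Bool.and_eq_true, llt_iff, T.all_iff, lall_iff, force_eq, lsub_iff,
    Nat.beq_eq] at hc
  obtain ⟨⟨h1, h2⟩, h3⟩ := hc
  choose! pt hpt using fun q (hq : q ∈ bs) => let ⟨x, e⟩ := hn.ex q hq; (⟨some x, x, rfl, e⟩ :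
    ∃ o : Option Ω, ∃ x, o = some x ∧ idx x = q)
  let im : X → ℕ → ℕ := fun g q => (pt q).elim 0 fun x => idx (g • x)
  have him : ∀ g, ∀ x, idx x ∈ bs → im g (idx x) = idx (g • x) := fun g x hx => by
    obtain ⟨y, a, b⟩ := hpt _ hx
    simp only [im, a, h.inj b, Option.elim]
  have hlt : ∀ g, ∀ q ∈ bs, im g q < n := fun g q hq => by
    obtain ⟨x, rfl⟩ := hn.ex q hq
    rw [him g x hq]; exact hn.lt _
  have hi : ∀ g g', ky n bs (im g) = ky n bs (im g') → g = g' := fun g g' e => h.ext fun x hx => h.inj (by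
    rw [← him g x hx, ← him g' x hx]; exact ky_inj (fun q hq => ⟨hlt g q hq, hlt g' q hq⟩) e _ hx)
  have hk : ∀ g ∈ Mb m ls, ky n bs (im g) ∈ t.keys := fun g hg => by
    have := closure_smul_mem (X := X) (E := {g | ky n bs (im g) ∈ t.keys}) (Set.toFinite _) (by
      rintro _ ⟨i, hi, rfl⟩ g hg
      obtain ⟨a, b, e⟩ := T.mem_keys.1 hg
      have := T.has_sound ((h3 _ _ _ e).1 i hi)
      rw [fk_ky (hlt g)] at this
      refine (congrArg (· ∈ t.keys) (ky_congr fun q hq => ?_)).mpr this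
      obtain ⟨x, rfl⟩ := hn.ex q hq
      rw [him _ x hq, him _ x hq, smul_eq_mul, mul_smul, h.act i (h1 i hi)]) g hg 1 (by
        refine (congrArg (· ∈ t.keys) (ky_congr fun q hq => ?_)).mpr (T.has_sound h2)
        obtain ⟨x, rfl⟩ := hn.ex q hq
        rw [him _ x hq, one_smul])
    simpa using this
  refine ⟨fun g hg => ?_, fun _ hs => ?_⟩
  · obtain ⟨a, b, e⟩ := T.mem_keys.1 (hk g hg)
    obtain ⟨-, ⟨c, d⟩, e'⟩ := h3 _ _ _ e
    refine ⟨_, b, c, hi _ _ ((ky_congr fun q hq => ?_).trans d), e'⟩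
    obtain ⟨x, rfl⟩ := hn.ex q hq
    rw [him _ x hq, h.ap fun i hi => h1 i (c i hi)]
  · rw [T.size_eq, ← List.toFinset_card_of_nodup (T.srt_nodup hs), ← Nat.card_eq_finsetCard]
    refine Nat.card_eq_of_bijective (fun g => ⟨_, List.mem_toFinset.2 (hk g.1 g.2)⟩)
      ⟨fun g g' e => Subtype.ext (hi _ _ (congrArg Subtype.val e)), fun ⟨q, hq⟩ => ?_⟩
    obtain ⟨a, b, e⟩ := T.mem_keys.1 (List.mem_toFinset.1 hq)
    obtain ⟨-, ⟨c, d⟩, -⟩ := h3 _ _ _ e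
    refine ⟨⟨_, Mb.ev c⟩, Subtype.ext ((ky_congr fun q hq => ?_).trans d)⟩
    obtain ⟨x, rfl⟩ := hn.ex q hq
    rw [him _ x hq, h.ap fun i hi => h1 i (c i hi)]

theorem Md.enum [Finite X] (h : Md idx m f k bs) {n : ℕ} (hn : Md.Num idx n bs) {t : T}
    {P : List ℕ → ℕ → Bool} (hc : enumChk f k n bs ls t P = true) :
    ∀ g ∈ Mb m ls, ∃ w b, (∀ i ∈ w, i < k) ∧ evl m w = g ∧ P w b = true := fun g hg => by
  obtain ⟨w, b, a, e⟩ := (h.enum' hn hc).1 g hg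
  simp only [enumChk, band_eq, Bool.and_eq_true, llt_iff] at hc
  exact ⟨w, b, fun i hi => hc.1.1 i (a i hi), e⟩

theorem Md.eq_iff (h : Md idx m f k bs) {n : ℕ} (hn : Md.Num idx n bs) :
    eqw f k bs w w' = true ↔ ((∀ i ∈ w, i < k) ∧ ∀ i ∈ w', i < k) ∧ evl m w = evl m w' := by
  refine ⟨fun e => ⟨?_, h.eq e⟩, fun ⟨⟨a, b⟩, e⟩ => ?_⟩
  · simp only [eqw, band_eq, Bool.and_eq_true, llt_iff] at e; exact e.1
  · simp only [eqw, band_eq, Bool.and_eq_true, llt_iff, lall_iff, Nat.beq_eq]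
    refine ⟨⟨a, b⟩, fun q hq => ?_⟩
    obtain ⟨x, rfl⟩ := hn.ex q hq
    rw [← h.ap a, ← h.ap b, e]

/-- the word equals one of the list -/
noncomputable def inw (f : ℕ → ℕ → ℕ) (k : ℕ) (bs : List ℕ) (ws : List (List ℕ)) (w : List ℕ) : Bool :=
  ws.any (eqw f k bs w)

/-- the list enumerates the subgroup -/
def Lists {D : Type*} [Group D] (u : ℕ → D) (k : ℕ) (S : Subgroup D) (ws : List (List ℕ)) : Prop :=
  (∀ w ∈ ws, (∀ i ∈ w, i < k) ∧ evl u w ∈ S) ∧ ∀ g ∈ S, ∃ w ∈ ws, evl u w = g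

theorem Md.lists [Finite X] (h : Md idx m f k bs) {n : ℕ} (hn : Md.Num idx n bs) {t : T}
    {ws : List (List ℕ)} (hc : band (ws.all fun w => band (llt k w) (lsub w ls))
      (enumChk f k n bs ls t fun w _ => inw f k bs ws w) = true) : Lists m k (Mb m ls) ws := by
  simp only [band_eq, Bool.and_eq_true, List.all_eq_true, llt_iff] at hc
  refine ⟨fun w hw => ⟨(hc.1 w hw).1, Mb.ev' (hc.1 w hw).2⟩, fun g hg => ?_⟩
  obtain ⟨w, -, -, rfl, e⟩ := h.enum hn hc.2 g hg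
  obtain ⟨w', a, b⟩ := List.any_eq_true.1 e
  exact ⟨w', a, (h.eq b).symm⟩

theorem Md.inw_iff (h : Md idx m f k bs) {n : ℕ} (hn : Md.Num idx n bs) {S : Subgroup X}
    {ws : List (List ℕ)} (hl : Lists m k S ws) :
    inw f k bs ws w = true ↔ (∀ i ∈ w, i < k) ∧ evl m w ∈ S := by
  simp only [inw, List.any_eq_true, h.eq_iff hn]
  exact ⟨fun ⟨w', a, b, c⟩ => ⟨b.1, c ▸ (hl.1 w' a).2⟩, fun ⟨a, b⟩ =>
    let ⟨w', c, d⟩ := hl.2 _ b; ⟨w', c, ⟨a, (hl.1 w' c).1⟩, d.symm⟩⟩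

/-- the words commute -/
noncomputable def cmb (f : ℕ → ℕ → ℕ) (k : ℕ) (bs w w' : List ℕ) : Bool :=
  eqw f k bs (w' ++ w) (w ++ w')

theorem Md.cm_iff (h : Md idx m f k bs) {n : ℕ} (hn : Md.Num idx n bs) :
    cmb f k bs w w' = true ↔ ((∀ i ∈ w, i < k) ∧ ∀ i ∈ w', i < k) ∧ Commute (evl m w) (evl m w') := by
  simp only [cmb, h.eq_iff hn, evl_append, List.forall_mem_append]
  exact ⟨fun ⟨a, b⟩ => ⟨a.2, b⟩, fun ⟨a, b⟩ => ⟨⟨a.symm, a⟩, b⟩⟩

theorem cent_le_stab [DecidableEq Ω] {z : X} {F : Finset Ω} (hF : ∀ x, x ∈ F ↔ z • x = x) :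
    C1[z] ≤ stabilizer X F := fun c hc => Finset.eq_of_subset_of_card_le (fun x hx => by
  obtain ⟨y, hy, rfl⟩ := Finset.mem_smul_finset.1 hx
  rw [hF, ← mul_smul, ← mem_cent1.1 hc, mul_smul, (hF y).1 hy]) (Finset.card_smul_finset c F).ge

/-- graph of an isomorphism of centralizers -/
structure KZ (K : Subgroup (X × G)) (y : X × G) : Prop where
  gr : Gr K
  gr' : ∀ p ∈ K, p.2 = 1 → p = 1
  fst : ∀ c ∈ C1[y.1], ∃ d, (c, d) ∈ K
  snd : ∀ d ∈ C1[y.2], ∃ c, (c, d) ∈ K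
  cent : K ≤ C1[y]
  mem : y ∈ K

theorem KZ.ext' {y : X × G} (h : KZ K y) (a : p ∈ K) (b : r ∈ K) (e : p.2 = r.2) : p = r :=
  (inv_mul_eq_one.1 (h.gr' _ (mul_mem (inv_mem b) a) (by simp [e]))).symm

theorem KZ.comm' {y : X × G} (h : KZ K y) (a : p ∈ K) (b : r ∈ K) (e : Commute p.2 r.2) : Commute p r :=
  h.ext' (mul_mem a b) (mul_mem b a) e

theorem KH.kz {V : Type*} [AddCommGroup V] [Module (ZMod 2) V] {q : QuadraticForm (ZMod 2) V} {e f : V}
    {A : Dt X V} {B : Dt G V} {Δ : Subgroup (X × G)} [Finite X] [Finite G] (h : KH q e f A B Δ K) :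
    KZ K (A.z, B.z) :=
  ⟨fun p hp e => Prod.ext e (h.eq_one (e ▸ hp)), fun p hp e => Prod.ext (h.eq_one' (e ▸ hp)) e,
    h.kg.fst, fun _ => h.snd, fun _ hp => mem_centralizer_singleton_iff.2 (Prod.ext
      (mem_centralizer_singleton_iff.1 (h.C1 hp)) (mem_centralizer_singleton_iff.1 (h.C2 hp))),
    h.kg.dg h.dg.zz⟩

theorem KZ.exists_v {y b : X × G} (h : KZ K y) {j : ℕ} (hb : b * b ∈ K) (hj : b.1 = m j)
    (hm : ∀ i < k, iv i < k ∧ m (iv i) * m i = 1 ∧ (iv i = j ↔ i = j) ∧ (i ≠ j → Commute (m i) y.1)) :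
    ∃ v, AM m v iv k ∧ v j = b ∧ ∀ i < k, i ≠ j → v i ∈ K := by
  have : ∀ i, ∃ p : X × G, (i = j → p = b) ∧ (i < k → i ≠ j → p ∈ K ∧ p.1 = m i) := fun i => by
    by_cases e : i = j
    · exact ⟨b, fun _ => rfl, fun _ a => absurd e a⟩
    by_cases a : i < k
    · obtain ⟨d, hd⟩ := h.fst _ (mem_cent1.2 ((hm i a).2.2.2 e))
      exact ⟨_, fun a => absurd a e, fun _ _ => ⟨hd, rfl⟩⟩
    · exact ⟨1, fun a => absurd a e, fun b => absurd b a⟩
  choose v h1 h2 using this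
  have h3 : ∀ i < k, (v i).1 = m i := fun i hi => by
    by_cases e : i = j
    · rw [h1 i e, hj, e]
    · exact (h2 i hi e).2
  refine ⟨v, ⟨h3, fun i hi => ⟨(hm i hi).1, h.gr _ ?_ ?_⟩⟩, h1 j rfl, fun i hi e => (h2 i hi e).1⟩
  · by_cases e : i = j
    · rwa [h1 i e, h1 _ ((hm i hi).2.2.1.2 e)]
    · exact mul_mem (h2 _ (hm i hi).1 fun a => e ((hm i hi).2.2.1.1 a)).1 (h2 i hi e).1
  · rw [Prod.fst_mul, h3 i hi, h3 _ (hm i hi).1, (hm i hi).2.1]

theorem KH.start {V : Type*} [AddCommGroup V] [Module (ZMod 2) V] {q : QuadraticForm (ZMod 2) V} {e f : V}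
    {A : Dt X V} {B : Dt G V} {Δ : Subgroup (X × G)} [Finite X] [Finite G] (h : KH q e f A B Δ K)
    {z s : X} {Q S : Subgroup X} (e1 : A.z = z) (e2 : A.s = s) (e3 : A.Q = Q) (e4 : A.S = S) {i0 j : ℕ}
    (h0 : i0 < k ∧ i0 ≠ j) (h1 : m i0 ∈ Q) (h2 : m i0 * s = s * z * m i0) (h3 : m j ∈ S)
    (h4 : m j * z = s * z * m j)
    (hm : ∀ i < k, iv i < k ∧ m (iv i) * m i = 1 ∧ (iv i = j ↔ i = j) ∧ (i ≠ j → Commute (m i) z))
    (hN : ∀ i ∈ ls, i < k ∧ (i ≠ j → i ≠ i0 → m i ∈ S ∨ Commute (m i) s ∧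
      (m i ∈ Q ∨ ∃ r, m i ^ (2 * r + 1) = 1))) :
    ∃ v, AM m v iv k ∧ (∀ i < k, i ≠ j → v i ∈ K) ∧ Gr (Mb v ls) := by
  subst e1 e2 e3 e4
  obtain ⟨a, b, ha, hb, n⟩ := h.exists_NH h1 (mul_inv_eq_iff_eq_mul.2 h2) h3 (mul_inv_eq_iff_eq_mul.2 h4)
  obtain ⟨v, a1, a2, a3⟩ := h.kz.exists_v n.bb hb hm
  refine ⟨v, a1, a3, Gr.mono (K := NN A K a b) (fun p hp => n.N_inj hp) (Mb.le fun i hi => ?_)⟩
  obtain ⟨c, d⟩ := hN i hi
  by_cases e : i = j
  · rw [e, a2]; exact mem_sup_right (subset_closure (by simp))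
  by_cases e' : i = i0
  · rw [e', h.kz.gr.ext (a3 _ h0.1 h0.2) n.aK ((a1.fst _ h0.1).trans ha.symm)]
    exact mem_sup_right (subset_closure (by simp))
  rw [← a1.fst i c] at d
  rcases d e e' with d | ⟨d, d' | ⟨r, d'⟩⟩
  exacts [mem_sup_left (n.Y2M (a3 i c e) d), mem_sup_left (n.Y1M (a3 i c e) ⟨d', mem_cent1.2 d⟩),
    mem_sup_left (n.oddM (a3 i c e) (mem_cent1.2 d) d')]

theorem card_map_of {D D' : Type*} [Group D] [Group D'] {S : Subgroup D} {φ : D →* D'}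
    (h : ∀ p ∈ S, φ p = 1 → p = 1) : Nat.card (S.map φ) = Nat.card S :=
  (Nat.card_eq_of_bijective (φ.subgroupMap S) ⟨(injective_iff_map_eq_one _).2 fun p e =>
    Subtype.ext (h p p.2 (congrArg Subtype.val e)), φ.subgroupMap_surjective S⟩).symm

theorem Md.ne' (h : Md idx m f k bs) {n : ℕ} (hn : Md.Num idx n bs)
    (e : band (band (llt k w) (llt k w')) (!eqw f k bs w w') = true) : evl m w ≠ evl m w' := fun a => by
  simp only [band_eq, Bool.and_eq_true, llt_iff, Bool.not_eq_true', ← Bool.not_eq_true, h.eq_iff hn] at e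
  exact e.2 ⟨e.1, a⟩

/-- relators from fixed-point-free action -/
theorem KZ.fpf {y : X × G} (h : KZ K y) (hB : B ≤ K) (hy : y ∈ B) (hr : r ∈ N[B]) {n : ℕ}
    (hn : r.1 ^ n = 1) (hc : ∀ c ∈ C1[y.1], (∀ p ∈ B, Commute c p.1) →
      (∃ p ∈ B, p.1 = c) ∧ (Commute r.1 c → c = 1)) : r ^ n = 1 := by
  have h1 : ∀ p ∈ B, Commute (r ^ n).2 p.2 := fun p hp => commute_iff_conj.2 (congrArg Prod.snd
    (h.gr.ext (hB ((mem_normalizer_iff.1 (pow_mem hr n) p).1 hp)) (hB hp) (by simp [hn])))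
  obtain ⟨c, hK⟩ := h.snd _ (mem_centralizer_singleton_iff.2 (h1 y hy))
  obtain ⟨⟨p, a, b⟩, e⟩ := hc c (mem_centralizer_singleton_iff.2 (congrArg Prod.fst
    (mem_centralizer_singleton_iff.1 (h.cent hK)))) fun p hp =>
      congrArg Prod.fst (h.comm' hK (hB hp) (h1 p hp)).eq
  rw [h.gr.ext (hB a) hK b] at a
  have := h.ext' (hB ((mem_normalizer_iff.1 hr _).1 a)) hK
    (commute_iff_conj.1 ((Commute.refl r.2).pow_right n))
  have e1 := e (commute_iff_conj.2 (congrArg Prod.fst this))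
  exact Prod.ext hn (congrArg Prod.snd (h.gr (c, (r ^ n).2) hK e1) :)

theorem KZ.fpf' {y : X × G} (h : KZ K y) (a : AM m v iv k) (hl : ∀ i ∈ ls0, i < k) (hB : Mb v ls0 ≤ K)
    (hy : y ∈ Mb v ls0) (hw : ∀ i ∈ w, i < k ∧ v i ∈ N[Mb v ls0]) {n : ℕ} (hn : evl m (pww w n) = 1)
    (hc : ∀ c ∈ C1[y.1], (∀ i ∈ ls0, Commute c (m i)) →
      c ∈ Mb m ls0 ∧ (Commute (evl m w) c → c = 1)) : evl v (pww w n) = 1 := by
  have e := a.ev fun i hi => (hw i hi).1
  rw [evl_pww] at hn ⊢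
  refine h.fpf hB hy (evl_mem fun i hi => (hw i hi).2) (e ▸ hn) fun c h1 h2 => ?_
  obtain ⟨b, d⟩ := hc c h1 fun i hi => a.fst i (hl i hi) ▸ h2 _ (Mb.of hi)
  exact ⟨a.lift hl b, e ▸ d⟩

/-- the homomorphism from a simple model -/
theorem KZ.exists_hom [IsSimpleGroup X] {y : X × G} (h : KZ K y) (a : AM m v iv k) (hl : ∀ i ∈ ls, i < k)
    (hG : Gr (Mb v ls)) (ht : Mb m ls = ⊤) (h0 : ∀ i ∈ ls0, i ∈ ls ∧ v i ∈ K) (hK : C1[y.1] ≤ Mb m ls0)
    (hy : y.2 ≠ 1) : ∃ φ : X →* G, Function.Injective φ ∧ φ y.1 = y.2 ∧ C1[y.2] ≤ φ.range ∧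
      ∀ p ∈ Mb v ls, φ p.1 = p.2 := by
  obtain ⟨φ, e⟩ := hG.exists_hom fun c => a.lift hl (ht ▸ mem_top c)
  have k : ∀ p ∈ K, φ p.1 = p.2 := fun p hp => by
    obtain ⟨r, b, c⟩ := a.lift (fun i hi => hl i (h0 i hi).1) (hK (mem_cent1.2 (congrArg Prod.fst
      (mem_cent1.1 (h.cent hp)))))
    exact h.gr.ext (Mb.le (fun i hi => (h0 i hi).2) b) hp c ▸ e r (Mb.mono (fun i hi => (h0 i hi).1) b)
  refine ⟨φ, (MonoidHom.ker_eq_bot_iff φ).1 ((φ.normal_ker.eq_bot_or_eq_top).resolve_right fun b =>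
    hy ((k y h.mem).symm.trans (show _ ∈ φ.ker from b ▸ mem_top _))), k y h.mem, fun d hd => ?_, e⟩
  obtain ⟨c, hc⟩ := h.snd d hd
  exact ⟨c, k _ hc⟩

end Cfsg.Agent.XL
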