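import Cfsg.Agent.XL.Mod

/-! # From the hypotheses of the statements to coordinates -/

set_option autoImplicit false

namespace Cfsg.Agent.XL

open Cfsg Cfsg.Agent.GT Cfsg.Agent.TT Cfsg.Agent.Cl.Orth Cfsg.Agent.TC Cfsg.Agent.M24 Subgroup

/-- the numerical form of the hypothesis -/
structure LT {G : Type*} [Group G] (Q : Subgroup G) (z g : G) (w N : ℕ) : Prop extends LQ Q z where
  cQ' : Nat.card Q = 2 ^ (2 * w + 1)
  cC : Nat.card C1[z] = Nat.card Q * N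
  sQ : g * z * g⁻¹ ∈ Q
  sne : g * z * g⁻¹ ≠ z

variable {V : Type*} [AddCommGroup V] [Module (ZMod 2) V] {q : QuadraticForm (ZMod 2) V} {e f : V}
  {G : Type*} [Group G] [Finite G] {Q S : Subgroup G} {z s g : G} {π : G → V} {w N : ℕ}

theorem LT.of_stmt (hz : orderOf z = 2) {Q : Subgroup C1[z]} [Q.Normal]
    (hF : generalizedFittingSubgroup C1[z] = Q) (hQ : IsExtraspecial 2 Q)
    (hcard : Nat.card Q = 2 ^ (2 * w + 1)) (hN : Nat.card (C1[z] ⧸ Q) = N)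
    (hnwc : ∃ g : G, (∃ hq : g * z * g⁻¹ ∈ C1[z], (⟨g * z * g⁻¹, hq⟩ : C1[z]) ∈ Q) ∧
      g * z * g⁻¹ ≠ z) : ∃ g, LT (Q.map (C1[z]).subtype) z g w N := by
  have hF' : fstarOf C1[z] = Q.map (C1[z]).subtype := by rw [← map_subtype_fstar, hF]
  obtain ⟨w', hw'⟩ := ES.of_isExtraspecial hQ
  have h := LQ.of_fstar hz hF' (hw'.map _ fun x _ e => Subtype.ext e).isExtraspecial
  obtain ⟨g, ⟨hg, hgQ⟩, hne⟩ := hnwc
  have c := card_map_of_injective (K := Q) (subtype_injective C1[z])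
  exact ⟨g, h, c.trans hcard, by rw [c, ← hN, mul_comm]; exact Q.card_eq_card_quotient_mul_card_subgroup,
    ⟨_, hgQ, rfl⟩, hne⟩

theorem LT.lp (h : LT Q z g w N) (hw : 2 ≤ w) : LP Q z (cj[g] Q) (g * z * g⁻¹) :=
  LP.of_conj h.toLQ h.sQ h.sne (eight_lt_of_width hw h.cQ')

theorem XQ.toXP (h : XQ q Q z π) (hp : LP Q z S s) (hS : Nat.card Q ≤ Nat.card S) (hyp : Hyp q e f)
    (hi : (EG q).index = 2) (hN : Nat.card C1[z] = Nat.card Q * N) (h2 : Nat.card (OG q) = 2 * N)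
    (H : commutator (OG q) = EG q ∧ (5 ≤ Module.finrank (ZMod 2) V ∨
      ∀ u, q u = 0 → B q e u = 0 → u = 0 ∨ u = e) ∨ TR Q z S s) :
    ∃ π, XP q e f ⟨Q, z, S, s, π⟩ := by
  haveI := h.finite_V
  obtain ⟨f', h'⟩ := h.bn.rad0.exists_hyp ((h.sq1 s hp.sQ).1 hp.hS.zz) fun a => by
    rcases (h.ker s hp.sQ).1 a with b | b
    exacts [hp.hS.ne b, hp.ne b]
  obtain ⟨σ, a, -⟩ := h'.exists_map hyp
  have k := h.congr σ.1 σ.2
  have c : XC q Q z (σ.1 ∘ π) := k.toXC hi hN h2 fun M m1 m2 => by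
    rcases H with H | H
    · exact XQ.le_of_comm H.1 m1
    · haveI := normal_of_index_eq_two m1
      refine hyp.EG_le_of_normal h.bn.rad0 M fun u hu _ => ?_
      obtain ⟨y, -, b⟩ := (XT.mk k H a hyp).eich_onto hS u hu
      exact (m2 _).2 ⟨y, b⟩
  exact ⟨_, c, ⟨k, H.elim (fun H => c.tr hp a hyp H.2) id, a, hyp⟩, hS⟩

/-- the data attached to the numerical hypothesis -/
abbrev dt {V : Type*} (Q : Subgroup G) (z g : G) (π : G → V) : Dt G V :=
  ⟨Q, z, cj[g] Q, g * z * g⁻¹, π⟩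

theorem LT.xp8 (h : LT Q z g 4 174182400) : ∃ π, XP (qP 4) (vP 4 1) (vP 4 16) (dt Q z g π) := by
  rcases exists_XQ h.toLQ h.cQ' with ⟨π, a⟩ | ⟨m, e, π, a⟩
  · exact a.toXP (h.lp (by norm_num)) (card_conj _ _).ge hyp8 idx8 h.cC cardP4
      (Or.inl ⟨com8, Or.inl (by rw [rkP]; norm_num)⟩)
  · obtain rfl : m = 3 := by omega
    have := a.dvd_OG h.cC
    rw [cardM3] at this; norm_num at this

theorem LT.xp6 (h : LT Q z g 3 25920) : ∃ π, XP (qM 2) (vM 2 1) (vM 2 4) (dt Q z g π) := by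
  rcases exists_XQ h.toLQ h.cQ' with ⟨π, a⟩ | ⟨m, e, π, a⟩
  · have := a.dvd_OG h.cC
    rw [cardP3] at this; norm_num at this
  · obtain rfl : m = 2 := by omega
    exact a.toXP (h.lp (by norm_num)) (card_conj _ _).ge hyp6 idx6 h.cC cardM2
      (Or.inl ⟨com6, Or.inl (by rw [rkM]; norm_num)⟩)

theorem LT.xp5 (h : LT Q z g 2 60) : ∃ π, XP (qM 1) (vM 1 1) (vM 1 2) (dt Q z g π) := by
  rcases exists_XQ h.toLQ h.cQ' with ⟨π, a⟩ | ⟨m, e, π, a⟩
  · have := a.dvd_OG h.cC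
    rw [cardP2] at this; norm_num at this
  · obtain rfl : m = 1 := by omega
    exact a.toXP (h.lp (by norm_num)) (card_conj _ _).ge hyp5 idx5 h.cC cardM1
      (Or.inl ⟨com5, Or.inr an5.1⟩)

theorem LT.xp4 (h : LT Q z g 2 36) (ht : ∀ x ∈ Q, x ∈ cj[g] Q → x ∈ VV z (g * z * g⁻¹)) :
    ∃ π, XP (qP 2) (vP 2 1) (vP 2 4) (dt Q z g π) := by
  rcases exists_XQ h.toLQ h.cQ' with ⟨π, a⟩ | ⟨m, e, π, a⟩
  · exact a.toXP (h.lp (by norm_num)) (card_conj _ _).ge hyp4 idx4 h.cC cardP2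
      (Or.inr ⟨h.lp (by norm_num), ht⟩)
  · obtain rfl : m = 1 := by omega
    have := a.dvd_OG h.cC
    rw [cardM1] at this; norm_num at this

/-! ### coded action -/

section code

variable {d : ℕ} {vec : ℕ → V} {qv : ℕ → ZMod 2}

/-- `g` acts on the codes by `F` -/
def Cv (vec : ℕ → V) (g : OG q) (F : ℕ → ℕ) : Prop := ∀ x, g.1 (vec x) = vec (F x)

theorem Cv.mul {g g' : OG q} {F F' : ℕ → ℕ} (a : Cv vec g F) (b : Cv vec g' F') :
    Cv vec (g * g') fun x => F (F' x) := fun x => by rw [OG.mul_apply, b, a]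

theorem Cd.ext (h : Cd q d vec qv) {g g' : OG q} {F F' : ℕ → ℕ} (a : Cv vec g F) (b : Cv vec g' F')
    (c : ∀ i < d, F (2 ^ i) = F' (2 ^ i)) : g = g' := by
  have k : ∀ k ≤ d, ∀ n < 2 ^ k, g.1 (vec n) = g'.1 (vec n) := by
    intro k
    induction k with
    | zero => intro _ n hn; obtain rfl : n = 0 := by omega
              rw [h.zero, map_zero, map_zero]
    | succ k ih =>
      intro hk n hn
      by_cases t : n < 2 ^ k
      · exact ih (by omega) n t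
      · have : n = (n % 2 ^ k) ^^^ 2 ^ k := Nat.eq_of_testBit_eq fun i => by
          rw [Nat.testBit_xor, Nat.testBit_mod_two_pow, Nat.testBit_two_pow]
          rcases lt_trichotomy i k with r | rfl | r
          · simp [r, r.ne']
          · simpa using Nat.testBit_of_two_pow_le_and_two_pow_add_one_gt (by omega) hn
          · rw [Nat.testBit_lt_two_pow (hn.trans_le (Nat.pow_le_pow_right (by norm_num) r))]
            simp [r.ne, r.le]
        rw [this, h.xor, map_add, map_add, ih (by omega) _ (Nat.mod_lt _ (by positivity)), a (2 ^ k),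
          b (2 ^ k), c k hk]
  exact OG.ext' fun v => by obtain ⟨n, hn, rfl⟩ := h.surj v; exact k d le_rfl n hn

theorem Cd.smul (h : Cd q d vec qv) (c : ZMod 2) (u : ℕ) :
    c • vec u = vec (if c = 1 then u else 0) := by
  rcases zmod2_cases c with rfl | rfl <;> simp [h.zero]

/-- coded reflection -/
def rc (qv : ℕ → ZMod 2) (v x : ℕ) : ℕ := x ^^^ if bv qv x v = 1 then v else 0

/-- coded Eichler transformation -/
def ec (qv : ℕ → ZMod 2) (u v x : ℕ) : ℕ :=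
  x ^^^ (if bv qv x v = 1 then u else 0) ^^^ (if bv qv x u = 1 then v else 0) ^^^
    if qv v * bv qv x u = 1 then u else 0

theorem Cd.refl (h : Cd q d vec qv) {v : ℕ} (hv : qv v = 1) : Cv vec (refl q (vec v)) (rc qv v) :=
  fun x => by rw [refl_app2 ((h.qe v).trans hv), h.be, h.smul, rc, h.xor]

theorem Cd.eich (h : Cd q d vec qv) {u v : ℕ} (hu hv) :
    Cv vec (eich q (vec u) (vec v) hu hv) (ec qv u v) := fun x => by
  rw [eich_app2, h.be, h.be, h.qe, h.smul, h.smul, h.smul, ec, h.xor, h.xor, h.xor]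

theorem Cv.one : Cv vec (1 : OG q) fun x => x := fun _ => rfl

/-- coded action of a word -/
noncomputable def apc (F : ℕ → ℕ → ℕ) (w : List ℕ) : ℕ → ℕ :=
  List.rec (fun x => x) (fun i _ ih x => force (F i x) ih) w

theorem Cv.evl {R : ℕ → OG q} {F : ℕ → ℕ → ℕ} :
    ∀ {w : List ℕ}, (∀ i ∈ w, Cv vec (R i) (F i)) → Cv vec (evl R w) (apc F w)
  | [], _ => Cv.one
  | i :: w, h => fun x => by
    have : apc F (i :: w) x = force (F i x) (apc F w) := rfl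
    rw [this, force_eq]
    exact (Cv.evl fun j hj => h j (List.mem_cons_of_mem _ hj)).mul (h i List.mem_cons_self) x

end code

theorem w8_ok : evl (lt fun j => refl (qP 4) (vP 4 (r8 0)) * refl _ (vP 4 (r8 j))) w8 = 1 := by
  have k : ∀ j < 8, Cv (vP 4) (refl (qP 4) (vP 4 (r8 j))) (rc (cP 4) (r8 j)) := fun j hj =>
    (cdP 4).refl (by revert j; decide +kernel)
  refine (cdP 4).ext (Cv.evl (F := fun j x => rc (cP 4) (r8 0) (rc (cP 4) (r8 (max j 1)) x))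
    fun i hi => ?_) Cv.one (by decide +kernel)
  have : i = 0 ∨ 2 ≤ i ∧ i < 8 := by revert i; decide +kernel
  rcases this with rfl | ⟨a, b⟩
  · exact (k 0 (by norm_num)).mul (k 1 (by norm_num))
  · rw [lt, if_neg (by omega), if_neg (by omega), max_eq_left (by omega)]
    exact (k 0 (by norm_num)).mul (k i b)

/-- Eichler transformation from codes -/
noncomputable def e4 (u v : ℕ) : OG (qP 2) :=
  if h : cP 2 u = 0 ∧ bv (cP 2) u v = 0 then
    eich _ (vP 2 u) (vP 2 v) (((cdP 2).qe u).trans h.1) (((cdP 2).be u v).trans h.2) else 1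

theorem e4_cv {u v : ℕ} (h : cP 2 u = 0 ∧ bv (cP 2) u v = 0) : Cv (vP 2) (e4 u v) (ec (cP 2) u v) := by
  rw [e4, dif_pos h]; exact (cdP 2).eich _ _

theorem e4_isE {u v : ℕ} (h : cP 2 u = 0 ∧ bv (cP 2) u v = 0) (h0 : u < 16 ∧ u ≠ 0) : IsE (e4 u v) := by
  rw [e4, dif_pos h]
  exact ⟨_, _, _, _, fun c => h0.2 ((cdP 2).inj u h0.1 c), rfl⟩

/-- the generators of `Ω₄⁺(2)` -/
noncomputable def R4 (j : ℕ) : OG (qP 2) := e4 (lget [1, 1, 4, 1, 4] 0 j) (lget [0, 2, 8, 8, 2] 0 j)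

theorem R4_cv {j : ℕ} (hj : j < 5) :
    Cv (vP 2) (R4 j) (ec (cP 2) (lget [1, 1, 4, 1, 4] 0 j) (lget [0, 2, 8, 8, 2] 0 j)) :=
  e4_cv (by revert j; decide +kernel)

theorem R4_inv {j : ℕ} (hj : j < 5) : (R4 j)⁻¹ = R4 j :=
  inv_eq_of_mul_eq_one_left ((cdP 2).ext ((R4_cv hj).mul (R4_cv hj)) Cv.one
    (by revert j; decide +kernel))

theorem cox4 : CoxSys (qP 2) 5 pA R4 where
  two := by norm_num
  par := by decide +kernel
  zero := (cdP 2).ext (R4_cv (by norm_num)) Cv.one (by decide +kernel)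
  mem j hj := by
    rw [R4, e4, dif_pos (by revert j; decide +kernel)]; exact eich_mem_EG _ _
  three j hj a := by
    have b : pA j < 5 := by omega
    have c := (R4_cv b).mul (R4_cv hj)
    rw [R4_inv b, pow_three]
    exact (cdP 2).ext (c.mul (c.mul c)) Cv.one (by clear c; revert j; decide +kernel)
  isE j hj i hi a := by
    have b : i < 5 := by omega
    have c := (R4_cv b).mul (R4_cv hj)
    have : ∃ u < 16, ∃ v < 16, (cP 2 u = 0 ∧ bv (cP 2) u v = 0) ∧ u ≠ 0 ∧ ∀ k < 2 * 2,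
        ec (cP 2) (lget [1, 1, 4, 1, 4] 0 i) (lget [0, 2, 8, 8, 2] 0 i)
          (ec (cP 2) (lget [1, 1, 4, 1, 4] 0 j) (lget [0, 2, 8, 8, 2] 0 j) (2 ^ k)) =
        ec (cP 2) u v (2 ^ k) := by
      clear c b; revert i; interval_cases j <;> decide +kernel
    obtain ⟨u, hu, v, -, a1, a2, a3⟩ := this
    rw [R4_inv b, (cdP 2).ext c (e4_cv a1) a3]
    exact e4_isE a1 ⟨hu, a2⟩
  gen := by
    set H := closure (lt R4 '' {i | i < 5})
    have m : ∀ j < 5, R4 j ∈ H := fun j hj => by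
      interval_cases j
      · rw [(cdP 2).ext (R4_cv (by norm_num)) Cv.one (by decide +kernel)]; exact one_mem _
      · exact subset_closure ⟨0, by simp, rfl⟩
      · exact subset_closure ⟨2, by simp, rfl⟩
      · exact subset_closure ⟨3, by simp, rfl⟩
      · exact subset_closure ⟨4, by simp, rfl⟩
    have k : ∀ u, u = 1 ∨ u = 4 → ∀ n < 16, bv (cP 2) 1 n = 0 → bv (cP 2) 4 n = 0 → ∀ a b,
        eich (qP 2) (vP 2 u) (vP 2 n) a b ∈ H := fun u hu n hn a1 a2 a b => by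
      have : ∃ i < 5, ∃ j < 5, ∀ k < 2 * 2, ec (cP 2) u n (2 ^ k) =
          ec (cP 2) (lget [1, 1, 4, 1, 4] 0 i) (lget [0, 2, 8, 8, 2] 0 i)
          (ec (cP 2) (lget [1, 1, 4, 1, 4] 0 j) (lget [0, 2, 8, 8, 2] 0 j) (2 ^ k)) := by
        clear a b
        rcases hu with rfl | rfl <;> revert n <;> decide +kernel
      obtain ⟨i, hi, j, hj, c⟩ := this
      rw [(cdP 2).ext ((cdP 2).eich a b) ((R4_cv hi).mul (R4_cv hj)) c]
      exact mul_mem (m i hi) (m j hj)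
    refine hyp4.EG_le (bnP 2).rad0 H (fun w a b => ?_) fun w a b => ?_ <;>
      obtain ⟨n, hn, rfl⟩ := (cdP 2).surj w
    · exact k 1 (Or.inl rfl) n hn ((cdP 2).be _ _ ▸ a) ((cdP 2).be _ _ ▸ b) _ _
    · exact k 4 (Or.inr rfl) n hn ((cdP 2).be _ _ ▸ a) ((cdP 2).be _ _ ▸ b) _ _

universe u v

/-- comparison of two groups -/
theorem exists_KH {G₀ : Type u} {G : Type v} [Group G₀] [Group G] [Finite G₀] [Finite G]
    {A : Dt G₀ V} {B : Dt G V} (hA : XP q e f A) (hB : XP q e f B)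
    (hV : 3 ≤ Module.finrank (ZMod 2) V) {n : ℕ} {p : ℕ → ℕ} {R : ℕ → OG q} (hR : CoxSys q n p R)
    {N : ℕ} (hP : PB.{max u v} n civ (coxRel n p) N) (hN : N ≤ Nat.card (EG q)) :
    ∃ Δ K, KH q e f A B Δ K :=
  let ⟨Δ, K, a, b⟩ := exists_KG0 hA hB hV hR hP hN; ⟨Δ, K, hA, hB, a, b⟩

theorem exists_KH4 {G₀ : Type u} {G : Type v} [Group G₀] [Group G] [Finite G₀] [Finite G]
    {A : Dt G₀ (VP 2)} {B : Dt G (VP 2)} (hA : XP (qP 2) (vP 2 1) (vP 2 4) A)
    (hB : XP (qP 2) (vP 2 1) (vP 2 4) B) : ∃ Δ K, KH (qP 2) (vP 2 1) (vP 2 4) A B Δ K :=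
  exists_KH hA hB (by rw [rkP]; norm_num) cox4 pb4 cardE4.ge

theorem exists_KH5 {G₀ : Type u} {G : Type v} [Group G₀] [Group G] [Finite G₀] [Finite G]
    {A : Dt G₀ (VM 1)} {B : Dt G (VM 1)} (hA : XP (qM 1) (vM 1 1) (vM 1 2) A)
    (hB : XP (qM 1) (vM 1 1) (vM 1 2) B) : ∃ Δ K, KH (qM 1) (vM 1 1) (vM 1 2) A B Δ K :=
  exists_KH hA hB (by rw [rkM]; norm_num) cox5 pb5 cardE5.ge

theorem exists_KH6 {G₀ : Type u} {G : Type v} [Group G₀] [Group G] [Finite G₀] [Finite G]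
    {A : Dt G₀ (VM 2)} {B : Dt G (VM 2)} (hA : XP (qM 2) (vM 2 1) (vM 2 4) A)
    (hB : XP (qM 2) (vM 2 1) (vM 2 4) B) : ∃ Δ K, KH (qM 2) (vM 2 1) (vM 2 4) A B Δ K :=
  exists_KH hA hB (by rw [rkM]; norm_num) cox6 pb6 cardE6.ge

end Cfsg.Agent.XL
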