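import Cfsg.Agent.XL.A1
import Cfsg.Agent.M24.Perm

/-! # Coxeter type systems generated by reflections; coded vectors -/

set_option autoImplicit false

namespace Cfsg.Agent.XL

open Cfsg Cfsg.Agent.GT Cfsg.Agent.Cl.Orth Cfsg.Agent.TC Cfsg.Agent.M24 Subgroup

variable {V : Type*} [AddCommGroup V] [Module (ZMod 2) V] {q : QuadraticForm (ZMod 2) V} {e f : V}

/-- vectors reached from the simple roots -/
inductive Rt (q : QuadraticForm (ZMod 2) V) (a : ℕ → V) (n : ℕ) : V → Prop
  | base (j : ℕ) : j < n → Rt q a n (a j)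
  | step (u v : V) : Rt q a n u → Rt q a n v → B q u v = 1 → Rt q a n (u + v)

theorem refl_braid {u v : V} (hu : q u = 1) (hb : B q u v = 1) :
    refl q u * refl q v * refl q u = refl q (u + v) := by
  have := conj_refl (refl q u) v
  rwa [refl_inv, refl_app2 hu, B_comm, hb, one_smul, add_comm] at this

theorem eich_eq_refl {u v : V} (hu : q u = 0) (hb : B q u v = 0) (hv : q v = 1) :
    refl q v * refl q (v + u) = eich q u v hu hb := by
  rw [← refl_mul_refl_eq_eich hu hb (by rw [hv]; decide), hv, one_smul, vsub]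

theorem eich_all (hB : BNondeg q) (hyp : Hyp q e f) {H : Subgroup (OG q)}
    (h1 : 5 ≤ Module.finrank (ZMod 2) V ∨ ∀ u, q u = 0 → B q e u = 0 → u = 0 ∨ u = e)
    (h : ∀ w hw, q w = 1 → eich q e w hyp.he hw ∈ H) (w : V) (hw : B q e w = 0) :
    eich q e w hyp.he hw ∈ H := by
  rcases zmod2_cases (q w) with a | a
  · by_cases hn : w = 0 ∨ w = e
    · have : eich q e w hyp.he hw = 1 := by
        rcases hn with rfl | rfl
        · exact eich_zero _ _
        · have := eich_add_smul (Q := q) (u := w) (v := 0) 1 hyp.he (by simp) (by simpa using hw)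
          simp only [one_smul, zero_add] at this
          rw [this, eich_zero]
      rw [this]; exact one_mem _
    have h5 := h1.resolve_right fun k => hn (k w a hw)
    push Not at hn
    obtain ⟨f', u', a1, a2, a3, a4, a5⟩ := hB.rad0.exists_two_hyp hyp.he a hyp.e_ne hw (fun c e => by
      rcases zmod2_cases c with rfl | rfl
      · exact hn.1 (by simpa using e)
      · exact hn.2 (by simpa using e))
    obtain ⟨x, b1, -, b3, -, b5⟩ := Hyp.exists_nonsing4 hB.rad0 a1 a2 hw a3 a4 a5 h5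
    have := mul_mem (h (w + x) (by simp [hw, b1]) (by rw [Q_add, a, b3, z2_ne b5]; simp))
      (h x b1 (z2_ne b5))
    rwa [eich_mul, eich_congr _ _ hyp.he hw rfl (by rw [add_assoc, vadd_self, add_zero])] at this
  · exact h w hw a

theorem CoxSys.of_refl [Finite V] (hB : BNondeg q) (hyp : Hyp q e f)
    (hV : 3 ≤ Module.finrank (ZMod 2) V)
    (h1 : 5 ≤ Module.finrank (ZMod 2) V ∨ (∀ u, q u = 0 → B q e u = 0 → u = 0 ∨ u = e) ∧
      ∀ u, q u = 0 → B q f u = 0 → u = 0 ∨ u = f)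
    {n : ℕ} {p : ℕ → ℕ} {a : ℕ → V} (hn : 2 ≤ n) (hp : ∀ j < n, 2 ≤ j → p j ≠ 0)
    (hq : ∀ j < n, q (a j) = 1)
    (hb : ∀ j < n, ∀ i < j, a i ≠ a j ∧ B q (a i) (a j) = if p j = i then 1 else 0)
    (hr : ∀ v, q v = 1 → Rt q a n v) : CoxSys q n p fun j => refl q (a 0) * refl q (a j) := by
  obtain ⟨i2, nE⟩ := index_EG hB hyp hV
  have e0 : ∀ i j, (refl q (a 0) * refl q (a i))⁻¹ * (refl q (a 0) * refl q (a j)) =
      refl q (a i) * refl q (a j) := fun i j => by
    rw [mul_inv_rev, mul_assoc, inv_mul_cancel_left, refl_inv]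
  refine ⟨hn, hp, refl_mul_self _, fun j hj => (mul_mem_iff_of_index_two i2).2
    (iff_of_false (nE _ (hq 0 (by omega))) (nE _ (hq j hj))), fun j hj k => ?_, fun j hj i hi k => ?_, ?_⟩
  · have b := (hb j hj _ k).2
    rw [if_pos rfl] at b
    have b1 := refl_braid (hq (p j) (by omega)) b
    have b2 := refl_braid (hq j hj) (B_comm q _ _ ▸ b)
    rw [e0, pow_three]
    calc _ = refl q (a (p j)) * refl q (a j) * refl q (a (p j)) *
        (refl q (a j) * refl q (a (p j)) * refl q (a j)) := by group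
      _ = 1 := by rw [b1, b2, add_comm, refl_mul_self]
  · obtain ⟨b1, b2⟩ := hb j hj i hi
    rw [if_neg k] at b2
    refine ⟨a i + a j, a i, by rw [Q_add, hq i (by omega), hq j hj, b2]; decide,
      by simp [B_self2, B_comm q (a j), b2], fun c => b1 (by rw [← vsub, sub_eq_zero] at c; exact c), ?_⟩
    rw [e0, ← eich_eq_refl _ _ (hq i (by omega)), ← add_assoc, vadd_self, zero_add]
  · set H := closure (lt (fun j => refl q (a 0) * refl q (a j)) '' {i | i < n})
    have k1 : ∀ v, Rt q a n v → q v = 1 ∧ refl q (a 0) * refl q v ∈ H := by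
      intro v hv
      induction hv with
      | base j hj =>
        refine ⟨hq j hj, ?_⟩
        by_cases c : j = 0
        · rw [c, refl_mul_self]; exact one_mem _
        · by_cases d : j = 1
          · exact subset_closure ⟨0, show 0 < n by omega, by simp [lt, d]⟩
          · exact subset_closure ⟨j, hj, by simp [lt, c, d]⟩
      | step u v _ _ b a1 a2 =>
        refine ⟨by rw [Q_add, a1.1, a2.1, b]; decide, ?_⟩
        have := mul_mem (mul_mem a1.2 (inv_mem a2.2)) a1.2
        rw [← refl_braid a1.1 b]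
        convert this using 1
        rw [mul_inv_rev, refl_inv (Q := q) v]; group
    have k2 : ∀ u (hu : q u = 0) w hw, q w = 1 → eich q u w hu hw ∈ H := fun u hu w hw c => by
      have := mul_mem (inv_mem (k1 w (hr w c)).2) (k1 (w + u) (hr _ (by
        rw [Q_add, c, hu, B_comm, hw]; decide))).2
      rwa [mul_inv_rev, mul_assoc, inv_mul_cancel_left, refl_inv, eich_eq_refl hu hw c] at this
    exact hyp.EG_le hB.rad0 H (fun w a _ => eich_all hB hyp (h1.imp_right And.left) (k2 _ _) w a)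
      fun w _ a => eich_all hB hyp.symm (h1.imp_right And.right) (k2 _ _) w a

/-- bit of a number -/
def bt (n i : ℕ) : ZMod 2 := if n.testBit i then 1 else 0

theorem bt_xor (n m i : ℕ) : bt (n ^^^ m) i = bt n i + bt m i := by
  unfold bt; rw [Nat.testBit_xor]
  cases n.testBit i <;> cases m.testBit i <;> decide

/-- a coding of the vectors by numbers -/
structure Cd (q : QuadraticForm (ZMod 2) V) (d : ℕ) (vec : ℕ → V) (qv : ℕ → ZMod 2) : Prop where
  surj : ∀ v, ∃ n < 2 ^ d, vec n = v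
  xor : ∀ n m, vec (n ^^^ m) = vec n + vec m
  qe : ∀ n, q (vec n) = qv n
  inj : ∀ n < 2 ^ d, vec n = 0 → n = 0

/-- coded polar form -/
def bv (qv : ℕ → ZMod 2) (n m : ℕ) : ZMod 2 := qv (n ^^^ m) + qv n + qv m

variable {d : ℕ} {vec : ℕ → V} {qv : ℕ → ZMod 2}

theorem Cd.be (h : Cd q d vec qv) (n m : ℕ) : B q (vec n) (vec m) = bv qv n m := by
  unfold bv
  rw [← h.qe, ← h.qe, ← h.qe, h.xor, Q_add]
  generalize q (vec n) = a; generalize q (vec m) = b; generalize B q (vec n) (vec m) = c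
  revert a b c; decide

theorem Cd.zero (h : Cd q d vec qv) : vec 0 = 0 := by
  have := h.xor 0 0
  simpa using this

theorem Cd.eq_iff (h : Cd q d vec qv) {n m : ℕ} (hn : n < 2 ^ d) (hm : m < 2 ^ d) :
    vec n = vec m ↔ n = m :=
  ⟨fun e => Nat.xor_eq_zero_iff.1 (h.inj _ (Nat.xor_lt_two_pow hn hm) (by rw [h.xor, e, vadd_self])),
    fun e => e ▸ rfl⟩

/-- closure of a set of codes along a list of pairs -/
def rtChk (qv : ℕ → ZMod 2) : List (ℕ × ℕ) → ℕ → ℕ
  | [], m => m
  | p :: l, m => rtChk qv l (if m.testBit p.1 ∧ m.testBit p.2 ∧ bv qv p.1 p.2 = 1 then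
      m ||| 2 ^ (p.1 ^^^ p.2) else m)

theorem Cd.rt (h : Cd q d vec qv) {a : ℕ → V} {n : ℕ} : ∀ (l : List (ℕ × ℕ)) {m : ℕ},
    (∀ k, m.testBit k → Rt q a n (vec k)) → ∀ k, (rtChk qv l m).testBit k → Rt q a n (vec k)
  | [], _, hm => hm
  | p :: l, m, hm => h.rt l fun k hk => by
    split_ifs at hk with c
    · rw [Nat.testBit_or, Bool.or_eq_true, Nat.testBit_two_pow] at hk
      rcases hk with hk | hk
      · exact hm k hk
      · rw [← of_decide_eq_true hk, h.xor]
        exact .step _ _ (hm _ c.1) (hm _ c.2.1) (h.be _ _ ▸ c.2.2)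
    · exact hm k hk

theorem Cd.cox [Finite V] (h : Cd q d vec qv) (hB : BNondeg q) (hyp : Hyp q e f)
    (hV : 3 ≤ Module.finrank (ZMod 2) V)
    (h1 : 5 ≤ Module.finrank (ZMod 2) V ∨ (∀ u, q u = 0 → B q e u = 0 → u = 0 ∨ u = e) ∧
      ∀ u, q u = 0 → B q f u = 0 → u = 0 ∨ u = f)
    {n : ℕ} {p c : ℕ → ℕ} (l : List (ℕ × ℕ)) (hn : 2 ≤ n) (hp : ∀ j < n, 2 ≤ j → p j ≠ 0)
    (hq : ∀ j < n, c j < 2 ^ d ∧ qv (c j) = 1 ∧
      ∀ i < j, c i ≠ c j ∧ bv qv (c i) (c j) = if p j = i then 1 else 0)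
    (hr : ∀ k < 2 ^ d, qv k = 1 →
      (rtChk qv l (orAll n fun j => 2 ^ c j)).testBit k = true) :
    CoxSys q n p fun j => refl q (vec (c 0)) * refl q (vec (c j)) :=
  CoxSys.of_refl (a := fun j => vec (c j)) hB hyp hV h1 hn hp (fun j hj => (h.qe _).trans (hq j hj).2.1)
    (fun j hj i hi => ⟨mt (h.eq_iff (hq i (by omega)).1 (hq j hj).1).1 ((hq j hj).2.2 i hi).1,
      (h.be _ _).trans ((hq j hj).2.2 i hi).2⟩) fun v hv => by
    obtain ⟨k, hk, rfl⟩ := h.surj v
    refine h.rt l (fun k hk => ?_) k (hr k hk (h.qe k ▸ hv))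
    obtain ⟨j, hj, c1⟩ := (testBit_orAll _ _ _).1 hk
    rw [Nat.testBit_two_pow] at c1
    exact of_decide_eq_true c1 ▸ .base j hj

end Cfsg.Agent.XL
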