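import Cfsg.Agent.XL.Rel2

/-! # The final identification with two classes of involutions -/

set_option autoImplicit false

namespace Cfsg.Agent.XL

open Cfsg Cfsg.Agent.GT Cfsg.Agent.TT Cfsg.Agent.TC Cfsg.Agent.M24 Subgroup

variable {X G : Type*} [Group X] [Group G] [Finite X] [Finite G] {φ : X →* G} {z t : X}

theorem UF.le_of {L H E : Subgroup G} {z : G} (u : UF L H z) (hS : IsPiHallOf {2} (C1[z] ⊓ H) H)
    (h0 : E ≤ H) (h1 : E ≤ ⁅E, E⁆) (h2 : ⁅⁅H, H⁆, ⁅H, H⁆⁆ ≤ E) (hz : z ∈ E) {k : ℕ} (hk : E.relIndex H = 2 ^ k)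
    (hc : ∀ x ∈ E, x * x = 1 → x ≠ 1 → ∃ e ∈ E, x = e * z * e⁻¹) {p q : ℕ} (hp : p.Prime) (hq : q.Prime)
    (h3 : 2 < p) (hlt : p < q) (hn : ¬ p ∣ q - 1) (hd : p * q ∣ Nat.card E) (a1 : ¬ p ^ 2 ∣ Nat.card H)
    (a2 : ¬ q ^ 2 ∣ Nat.card H) (no : ∀ a ∈ E, ∀ b ∈ E, orderOf a = p → orderOf b = q → ¬ Commute a b) :
    L ≤ H := by
  have e1 : E ≤ ⁅H, H⁆ := h1.trans (commutator_mono h0 h0)
  have e2 : E = ⁅⁅H, H⁆, ⁅H, H⁆⁆ := le_antisymm (h1.trans (commutator_mono e1 e1)) h2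
  have e3 := relIndex_mul_relIndex _ _ _ e1 (der1_le H)
  obtain ⟨i, -, b1⟩ := (Nat.dvd_prime_pow Nat.prime_two).1 (hk ▸ Dvd.intro_left _ e3)
  obtain ⟨j, -, b2⟩ := (Nat.dvd_prime_pow Nat.prime_two).1 (hk ▸ Dvd.intro _ e3)
  have z0 : z ∈ C1[z] ⊓ H := ⟨mem_cent1.2 rfl, u.mem⟩
  obtain ⟨u1, s1, c1⟩ := u.der hS z0 inf_le_left (e1 hz) b1
  obtain ⟨u2, -, c2⟩ := u1.der s1 ⟨z0, e1 hz⟩ (inf_le_left.trans inf_le_left) (e2 ▸ hz) (e2 ▸ b2)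
  rw [← e2] at u2 c2
  refine (u2.se hc).elim (fun e => c1 (c2 e)) fun ⟨D, a, b, c⟩ => ?_
  obtain ⟨n, e4⟩ := ((syl_isPGroup Nat.prime_two hS).to_le (inf_le_inf_left _ h0)).exists_card_eq
  have e5 := card_mul_relIndex (inf_le_right : C1[z] ⊓ E ≤ E)
  rw [e4, inf_relIndex_right] at e5
  obtain ⟨x, hx, y, hy, d1, d2, d3⟩ := pq_comm a b hp hq hlt hn (Dvd.dvd.trans (Nat.Coprime.dvd_of_dvd_mul_left
    (Nat.Coprime.pow_right n (Nat.coprime_two_right.2 ((hp.odd_of_ne_two (by omega)).mul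
      (hq.odd_of_ne_two (by omega))))) (e5 ▸ hd)) c) (fun e => a1 (e.trans (card_dvd_of_le h0)))
    fun e => a2 (e.trans (card_dvd_of_le h0))
  exact absurd d3 (no x hx y hy d1 d2)

omit [Finite X] [Finite G] in
theorem map_cent2 (hi : Function.Injective φ) (h : C1[φ z] ≤ φ.range) :
    (C1[z] ⊓ C1[t]).map φ = C1[φ z] ⊓ C1[φ t] := le_antisymm (by
  rintro _ ⟨c, hc, rfl⟩
  exact ⟨mem_cent1.2 (by rw [← map_mul, mem_cent1.1 hc.1, map_mul]),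
    mem_cent1.2 (by rw [← map_mul, mem_cent1.1 hc.2, map_mul])⟩) fun d hd =>
  let ⟨c, e⟩ := h hd.1
  ⟨c, ⟨mem_cent1.2 (hi (by rw [map_mul, map_mul, e]; exact mem_cent1.1 hd.1)),
    mem_cent1.2 (hi (by rw [map_mul, map_mul, e]; exact mem_cent1.1 hd.2))⟩, e⟩

theorem not_conj_of_char (hi : Function.Injective φ) (h : C1[φ z] ≤ φ.range)
    (h2 : IsPGroup 2 (C1[z] ⊓ C1[t] : Subgroup X))
    (hN : ∀ g ∈ C1[φ t], g ∈ N[(C1[z] ⊓ C1[t]).map φ] → g ∈ C1[φ z])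
    (hd : Nat.card (C1[z] ⊓ C1[t] : Subgroup X) * 2 ∣ Nat.card C1[z]) : ¬ IsConj (φ z) (φ t) := fun c => by
  obtain ⟨g, e⟩ := isConj_iff.1 c
  have a := card_map_of_injective (K := C1[z] ⊓ C1[t]) hi
  have p := h2.map φ
  rw [map_cent2 hi h] at a p hN
  have s := syl_of_norm_le Nat.prime_two (syl_mk Nat.prime_two le_rfl p (by simp)) inf_le_right
    fun x hx => ⟨hN x hx.1 hx.2, hx.1⟩
  have b := card_mul_relIndex (inf_le_right : C1[φ z] ⊓ C1[φ t] ≤ C1[φ t])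
  have c1 : Nat.card C1[φ t] = Nat.card C1[z] := by
    rw [← e, ← conj_cent1, card_conj, ← map_cent1 hi h, card_map_of_injective hi]
  rw [a, c1] at b
  exact syl_not_dvd Nat.prime_two s (Nat.dvd_of_mul_dvd_mul_left Nat.card_pos (b ▸ hd))

omit [Finite X] [Finite G] in
theorem char_of_pow {T : Subgroup X} {n : ℕ} (z1 : φ z ≠ 1) (h1 : ∀ x ∈ T, x ^ n = 1 ∨ x ^ n = z)
    (h2 : ∃ x ∈ T, x ^ n = z) {g : G} (hg : g ∈ N[T.map φ]) : g ∈ C1[φ z] := by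
  obtain ⟨x, a, rfl⟩ := h2
  obtain ⟨y, b, e⟩ := conj_mem_of_mem_norm hg (mem_map_of_mem φ a)
  have := congrArg (· ^ n) e
  simp only [conj_pow, ← map_pow] at this
  rcases h1 y b with c | c <;> rw [c] at this
  · exact absurd (by simpa using this.symm) z1
  · exact mem_cent1.2 (mul_inv_eq_iff_eq_mul.1 this.symm)

/-- the structure of the centralizer of the second involution -/
structure CT (z t : X) (E : Subgroup X) (p q : ℕ) : Prop where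
  zz : z * z = 1
  tt : t * t = 1
  z1 : z ≠ 1
  t1 : t ≠ 1
  cls : ∀ x, x * x = 1 → x ≠ 1 → ∃ g, x = g * z * g⁻¹ ∨ x = g * t * g⁻¹
  clK : ∀ x ∈ C1[z], x * x = 1 → x ≠ 1 → (∃ g, x = g * z * g⁻¹) ∨ ∃ k ∈ C1[z], x = k * t * k⁻¹
  syl : IsPiHallOf {2} (C1[z] ⊓ C1[t]) C1[t]
  le : E ≤ C1[t]
  perf : E ≤ ⁅E, E⁆
  der : ⁅⁅C1[t], C1[t]⁆, ⁅C1[t], C1[t]⁆⁆ ≤ E
  mem : z ∈ E
  idx : ∃ k, E.relIndex C1[t] = 2 ^ k
  clE : ∀ x ∈ E, x * x = 1 → x ≠ 1 → ∃ e ∈ E, x = e * z * e⁻¹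
  hp : p.Prime ∧ q.Prime ∧ 2 < p ∧ p < q ∧ ¬ p ∣ q - 1
  dvd : p * q ∣ Nat.card E
  sq : ¬ p ^ 2 ∣ Nat.card C1[t] ∧ ¬ q ^ 2 ∣ Nat.card C1[t]
  no : ∀ a ∈ E, ∀ b ∈ E, orderOf a = p → orderOf b = q → ¬ Commute a b

theorem CT.surj {E : Subgroup X} {p q : ℕ} (c : CT z t E p q) (hi : Function.Injective φ)
    (h : C1[φ z] ≤ φ.range) (n : ¬ IsConj (φ z) (φ t)) : Function.Surjective φ := by
  have sq : ∀ {x}, x * x = 1 → φ x * φ x = 1 := fun e => by rw [← map_mul, e, map_one]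
  have sq' : ∀ {x}, φ x * φ x = 1 → x * x = 1 := fun e => hi (by rw [map_mul, e, map_one])
  have ne : ∀ {x}, x ≠ 1 → φ x ≠ 1 := fun e a => e (hi (a.trans (map_one φ).symm))
  have ne' : ∀ {x}, φ x ≠ 1 → x ≠ 1 := fun e a => e (by rw [a, map_one])
  have cj' : ∀ {x g y}, x = g * y * g⁻¹ → φ x = φ g * φ y * (φ g)⁻¹ := fun e => by
    rw [e, map_mul, map_mul, map_inv]
  have l : (C1[t]).map φ ≤ C1[φ t] := by
    rintro _ ⟨x, hx, rfl⟩; exact mem_cent1.2 (by rw [← map_mul, mem_cent1.1 hx, map_mul])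
  have u : UF C1[φ t] ((C1[t]).map φ) (φ z) := ⟨l, ⟨z, c.le c.mem, rfl⟩, sq c.zz, ne c.z1, fun g hg ⟨x, hx, e⟩ => by
    have x2 : x * x = 1 := sq' (by simpa [e] using conj_mul_self g⁻¹ (sq c.zz))
    have x1 : x ≠ 1 := ne' (e ▸ fun a => ne c.z1 (by simpa [mul_assoc] using congrArg (fun y => g * y * g⁻¹) a))
    obtain ⟨y, a | a⟩ := c.cls x x2 x1
    · have b : y⁻¹ * t * y ∈ C1[z] := mem_conj.1 (by
        rw [conj_cent1, ← a]; exact mem_cent1.2 (mem_cent1.1 hx).symm)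
      rcases c.clK _ b (by simpa using conj_mul_self y⁻¹ c.tt) (fun a => c.t1 (by
        simpa [mul_assoc] using congrArg (fun w => y * w * y⁻¹) a)) with ⟨k, d⟩ | ⟨k, hk, d⟩
      · refine absurd (isConj_iff.2 ⟨φ (y * k), ?_⟩) n
        rw [← cj' (show t = y * k * z * (y * k)⁻¹ by
          rw [mul_inv_rev, mul_assoc y, mul_assoc y, ← mul_assoc (k * z), ← d]; group)]
      · have d1 : y * k ∈ C1[t] := mem_cent1.2 (by
          rw [mul_assoc, ← inv_mul_cancel_right (k * t) k, ← d]; group)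
        have d2 : g * φ (y * k) ∈ C1[φ z] := mem_cent1.2 (by
          have := cj' (show x = y * k * z * (y * k)⁻¹ by
            rw [a, mul_assoc y k, mem_cent1.1 hk]; group)
          rw [mul_assoc, ← inv_mul_cancel_right (φ (y * k) * φ z) (φ (y * k)), ← this, e]; group)
        have d3 := (map_cent2 (t := t) hi h).ge ⟨d2, mul_mem hg (l ⟨_, d1, rfl⟩)⟩
        exact (mul_mem_cancel_right (mem_map_of_mem φ d1)).1 (map_mono inf_le_right d3)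
    · refine absurd (isConj_iff.2 ⟨(φ y)⁻¹ * g⁻¹, ?_⟩) n
      rw [show (φ y)⁻¹ * g⁻¹ * φ z * ((φ y)⁻¹ * g⁻¹)⁻¹ = (φ y)⁻¹ * (g⁻¹ * φ z * g) * φ y by group, ← e, cj' a]
      group⟩
  obtain ⟨k, hk⟩ := c.idx
  have s : IsPiHallOf {2} (C1[φ z] ⊓ (C1[t]).map φ) ((C1[t]).map φ) := by
    rw [← map_cent1 hi h, ← map_inf _ _ _ hi]
    exact syl_mk Nat.prime_two (map_mono inf_le_right) ((syl_isPGroup Nat.prime_two c.syl).map φ)
      (by rw [relIndex_map_map_of_injective _ _ hi]; exact syl_not_dvd Nat.prime_two c.syl)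
  have ht := u.le_of (E := E.map φ) s (map_mono c.le) (by rw [← map_commutator]; exact map_mono c.perf)
    (by rw [← map_commutator, ← map_commutator]; exact map_mono c.der) ⟨z, c.mem, rfl⟩
    ((relIndex_map_map_of_injective _ _ hi).trans hk)
    (by
      rintro _ ⟨x, hx, rfl⟩ a b
      obtain ⟨e, he, d⟩ := c.clE x hx (sq' a) (ne' b)
      exact ⟨_, ⟨e, he, rfl⟩, cj' d⟩)
    c.hp.1 c.hp.2.1 c.hp.2.2.1 c.hp.2.2.2.1 c.hp.2.2.2.2 (by rw [card_map_of_injective hi]; exact c.dvd)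
    (by rw [card_map_of_injective hi]; exact c.sq.1) (by rw [card_map_of_injective hi]; exact c.sq.2)
    (by
      rintro _ ⟨x, hx, rfl⟩ _ ⟨y, hy, rfl⟩ a b d
      rw [orderOf_injective φ hi] at a b
      exact c.no x hx y hy a b (hi (by rw [map_mul, map_mul, d.eq])))
  refine MonoidHom.range_eq_top.1 (eq_top_of_two (sq c.zz) (sq c.tt) (ne c.z1) h (ht.trans (map_le_range _ _)) n ?_)
  rintro _ ⟨x, rfl⟩ a b
  obtain ⟨g, e⟩ := c.cls x (sq' a) (ne' b)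
  exact ⟨_, ⟨g, rfl⟩, e.imp cj' cj'⟩

end Cfsg.Agent.XL
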