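import Cfsg.Agent.XL.Cox
import Cfsg.Agent.XL.A1t
import Cfsg.Agent.XL.A2
import Cfsg.Agent.XL.TcA4
import Cfsg.Agent.XL.TcD5
import Cfsg.Agent.XL.TcE6
import Cfsg.Agent.XL.TcE7
import Cfsg.Agent.XL.TcE8
import Cfsg.Agent.XL.TcA22
import Cfsg.Agent.TT.LargeF

/-! # The four quadratic spaces -/

set_option autoImplicit false

namespace Cfsg.Agent.XL

open Cfsg Cfsg.Agent.GT Cfsg.Agent.TT Cfsg.Agent.Cl.Orth Cfsg.Agent.TC Cfsg.Agent.M24 Subgroup

/-- plus type -/
abbrev VP (m : ℕ) : Type := HV (ZMod 2) m PUnit.{1}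
/-- minus type -/
abbrev VM (m : ℕ) : Type := HV (ZMod 2) m (Fin 2 → ZMod 2)
/-- plus type -/
noncomputable abbrev qP (m : ℕ) : QuadraticForm (ZMod 2) (VP m) := HS m 0
/-- minus type -/
noncomputable abbrev qM (m : ℕ) : QuadraticForm (ZMod 2) (VM m) := HS m (Q2 1 1)
/-- coded vectors -/
def vP (m n : ℕ) : VP m := (fun i => bt n i, fun i => bt n (m + i), PUnit.unit)
/-- coded vectors -/
def vM (m n : ℕ) : VM m := (fun i => bt n i, fun i => bt n (m + i), fun i => bt n (2 * m + i))
/-- coded form -/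
def cP (m n : ℕ) : ZMod 2 := ((List.range m).map fun i => bt n i * bt n (m + i)).sum
/-- coded form -/
def cM (m n : ℕ) : ZMod 2 :=
  cP m n + (bt n (2 * m) ^ 2 + bt n (2 * m) * bt n (2 * m + 1) + bt n (2 * m + 1) ^ 2)

theorem bt_surj (k : ℕ) (x : ℕ → ZMod 2) : ∃ n < 2 ^ k, ∀ i < k, bt n i = x i := by
  induction k generalizing x with
  | zero => exact ⟨0, by simp, by simp⟩
  | succ k ih =>
    obtain ⟨n, a, b⟩ := ih fun i => x (i + 1)
    refine ⟨Nat.bit (x 0 = 1) n, by rw [pow_succ]; cases decide (x 0 = 1) <;> simp [Nat.bit] <;> omega,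
      fun i hi => ?_⟩
    cases i with
    | zero =>
      unfold bt; rw [Nat.testBit_bit_zero]
      rcases zmod2_cases (x 0) with c | c <;> simp [c]
    | succ i => unfold bt at b ⊢; rw [Nat.testBit_bit_succ]; exact b i (by omega)

theorem bt_inj {k n : ℕ} (hn : n < 2 ^ k) (h : ∀ i < k, bt n i = 0) : n = 0 :=
  Nat.eq_of_testBit_eq fun i => by
    rw [Nat.zero_testBit]
    by_cases hi : i < k
    · have := h i hi
      unfold bt at this
      by_contra c
      rw [if_pos (by simpa using c)] at this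
      exact absurd this (by decide)
    · exact Nat.testBit_lt_two_pow (hn.trans_le (Nat.pow_le_pow_right (by norm_num) (by omega)))

theorem cP_eq (m n : ℕ) : (fun i : Fin m => bt n i) ⬝ᵥ (fun i : Fin m => bt n (m + i)) = cP m n := by
  unfold cP dotProduct
  rw [Fin.sum_univ_eq_sum_range (fun i => bt n i * bt n (m + i)), ← List.sum_toFinset _ List.nodup_range,
    List.toFinset_range]

theorem cdP (m : ℕ) : Cd (qP m) (2 * m) (vP m) (cP m) where
  surj v := by
    obtain ⟨n, a, b⟩ := bt_surj (2 * m) fun i =>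
      if h : i < m then v.1 ⟨i, h⟩ else if h : i - m < m then v.2.1 ⟨i - m, h⟩ else 0
    refine ⟨n, a, Prod.ext (funext fun i => ?_) (Prod.ext (funext fun i => ?_) rfl)⟩
    · exact (b i (by omega)).trans (by simp)
    · exact (b (m + i) (by omega)).trans (by simp)
  xor n k := Prod.ext (funext fun _ => bt_xor _ _ _) (Prod.ext (funext fun _ => bt_xor _ _ _) rfl)
  qe n := by rw [HS_apply, ← cP_eq]; simp [vP]
  inj n a b := bt_inj a fun i hi => by
    by_cases c : i < m
    · exact congrFun (congrArg Prod.fst b) ⟨i, c⟩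
    · have := congrFun (congrArg (fun v : VP m => v.2.1) b) ⟨i - m, by omega⟩
      simp only [vP, show m + (i - m) = i by omega] at this
      exact this

theorem cdM (m : ℕ) : Cd (qM m) (2 * m + 2) (vM m) (cM m) where
  surj v := by
    obtain ⟨n, a, b⟩ := bt_surj (2 * m + 2) fun i =>
      if h : i < m then v.1 ⟨i, h⟩ else if h : i - m < m then v.2.1 ⟨i - m, h⟩ else
        if h : i - 2 * m < 2 then v.2.2 ⟨i - 2 * m, h⟩ else 0
    refine ⟨n, a, Prod.ext (funext fun i => ?_) (Prod.ext (funext fun i => ?_) (funext fun i => ?_))⟩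
    · exact (b i (by omega)).trans (by simp)
    · exact (b (m + i) (by omega)).trans (by simp)
    · refine (b (2 * m + i) (by omega)).trans ?_
      rw [dif_neg (by omega), dif_neg (by omega), dif_pos (by omega)]
      simp
  xor n k := Prod.ext (funext fun _ => bt_xor _ _ _)
    (Prod.ext (funext fun _ => bt_xor _ _ _) (funext fun _ => bt_xor _ _ _))
  qe n := by rw [HS_apply, cM, ← cP_eq, Q2_apply]; simp [vM]
  inj n a b := bt_inj a fun i hi => by
    by_cases c : i < m
    · exact congrFun (congrArg Prod.fst b) ⟨i, c⟩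
    · by_cases d : i < 2 * m
      · have := congrFun (congrArg (fun v : VM m => v.2.1) b) ⟨i - m, by omega⟩
        simp only [vM, show m + (i - m) = i by omega] at this
        exact this
      · have := congrFun (congrArg (fun v : VM m => v.2.2) b) ⟨i - 2 * m, by omega⟩
        simp only [vM, show 2 * m + (i - 2 * m) = i by omega] at this
        exact this

theorem bnP (m : ℕ) : BNondeg (qP m) := bnondeg_HS bnondeg_zero

theorem bnM (m : ℕ) : BNondeg (qM m) := bnondeg_HS aniso_one_one.bnondeg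

theorem rkP (m : ℕ) : Module.finrank (ZMod 2) (VP m) = 2 * m := by
  rw [finrank_HV, Module.finrank_zero_of_subsingleton]; simp

theorem rkM (m : ℕ) : Module.finrank (ZMod 2) (VM m) = 2 * m + 2 := by rw [finrank_HV]; simp

theorem Cd.hyp {V : Type*} [AddCommGroup V] [Module (ZMod 2) V] {q : QuadraticForm (ZMod 2) V}
    {d : ℕ} {vec : ℕ → V} {qv : ℕ → ZMod 2} (h : Cd q d vec qv) {a b : ℕ}
    (c : qv a = 0 ∧ qv b = 0 ∧ bv qv a b = 1) : Hyp q (vec a) (vec b) :=
  ⟨(h.qe a).trans c.1, (h.qe b).trans c.2.1, (h.be a b).trans c.2.2⟩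

theorem hyp8 : Hyp (qP 4) (vP 4 1) (vP 4 16) := (cdP 4).hyp (by decide)
theorem hyp4 : Hyp (qP 2) (vP 2 1) (vP 2 4) := (cdP 2).hyp (by decide)
theorem hyp6 : Hyp (qM 2) (vM 2 1) (vM 2 4) := (cdM 2).hyp (by decide)
theorem hyp5 : Hyp (qM 1) (vM 1 1) (vM 1 2) := (cdM 1).hyp (by decide)

theorem cardP2 : Nat.card (OG (qP 2)) = 72 := by
  rw [card_OG_plus (F := ZMod 2) 1]; simp [Finset.prod_range_succ]
theorem cardP3 : Nat.card (OG (qP 3)) = 40320 := by
  rw [card_OG_plus (F := ZMod 2) 2]; simp [Finset.prod_range_succ]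
theorem cardP4 : Nat.card (OG (qP 4)) = 348364800 := by
  rw [card_OG_plus (F := ZMod 2) 3]; simp [Finset.prod_range_succ]
theorem cardM1 : Nat.card (OG (qM 1)) = 120 := by
  rw [card_OG_minus aniso_one_one 1]; simp [Finset.prod_range_succ]
theorem cardM2 : Nat.card (OG (qM 2)) = 51840 := by
  rw [card_OG_minus aniso_one_one 2]; simp [Finset.prod_range_succ]
theorem cardM3 : Nat.card (OG (qM 3)) = 394813440 := by
  rw [card_OG_minus aniso_one_one 3]; simp [Finset.prod_range_succ]

theorem idx8 : (EG (qP 4)).index = 2 := (index_EG (bnP 4) hyp8 (by rw [rkP]; norm_num)).1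
theorem idx4 : (EG (qP 2)).index = 2 := (index_EG (bnP 2) hyp4 (by rw [rkP]; norm_num)).1
theorem idx6 : (EG (qM 2)).index = 2 := (index_EG (bnM 2) hyp6 (by rw [rkM]; norm_num)).1
theorem idx5 : (EG (qM 1)).index = 2 := (index_EG (bnM 1) hyp5 (by rw [rkM]; norm_num)).1

theorem cardE8 : Nat.card (EG (qP 4)) = 174182400 := by
  have := (EG (qP 4)).card_mul_index; rw [idx8, cardP4] at this; omega
theorem cardE4 : Nat.card (EG (qP 2)) = 36 := by
  have := (EG (qP 2)).card_mul_index; rw [idx4, cardP2] at this; omega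
theorem cardE6 : Nat.card (EG (qM 2)) = 25920 := by
  have := (EG (qM 2)).card_mul_index; rw [idx6, cardM2] at this; omega
theorem cardE5 : Nat.card (EG (qM 1)) = 60 := by
  have := (EG (qM 1)).card_mul_index; rw [idx5, cardM1] at this; omega

theorem com8 : commutator (OG (qP 4)) = EG (qP 4) := 
  commutator_HS bnondeg_zero (by norm_num) (by rw [Module.finrank_zero_of_subsingleton]; simp)
theorem com6 : commutator (OG (qM 2)) = EG (qM 2) :=
  commutator_HS aniso_one_one.bnondeg (by norm_num) (by simp)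
theorem com5 : commutator (OG (qM 1)) = EG (qM 1) :=
  commutator_HS_one aniso_one_one.bnondeg (fun _ => aniso_one_one.eq_zero) (by simp)

/-- the orthogonal groups of the statements -/
noncomputable def om8 : Omega (ZMod 2) (quadFormPlus 4 (ZMod 2)) ≃* EG (qP 4) :=
  omegaEquiv (oPlus 4 _) com8
/-- the orthogonal groups of the statements -/
noncomputable def om6 : Omega (ZMod 2) (quadFormMinus 2 (ZMod 2) 1 1) ≃* EG (qM 2) :=
  omegaEquiv (oMinus 2 1 1) com6
/-- the orthogonal groups of the statements -/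
noncomputable def om5 : Omega (ZMod 2) (quadFormMinus 1 (ZMod 2) 1 1) ≃* EG (qM 1) :=
  omegaEquiv (oMinus 1 1 1) com5

theorem Cd.aniso {V : Type*} [AddCommGroup V] [Module (ZMod 2) V] {q : QuadraticForm (ZMod 2) V}
    {d : ℕ} {vec : ℕ → V} {qv : ℕ → ZMod 2} (h : Cd q d vec qv) {a : ℕ}
    (c : ∀ n < 2 ^ d, qv n = 0 → bv qv a n = 0 → n = 0 ∨ n = a) (u : V) (h1 : q u = 0)
    (h2 : B q (vec a) u = 0) : u = 0 ∨ u = vec a := by
  obtain ⟨n, hn, rfl⟩ := h.surj u
  rcases c n hn (h.qe n ▸ h1) (h.be a n ▸ h2) with rfl | rfl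
  exacts [Or.inl h.zero, Or.inr rfl]

theorem an5 : (∀ u, qM 1 u = 0 → B (qM 1) (vM 1 1) u = 0 → u = 0 ∨ u = vM 1 1) ∧
    ∀ u, qM 1 u = 0 → B (qM 1) (vM 1 2) u = 0 → u = 0 ∨ u = vM 1 2 :=
  ⟨(cdM 1).aniso (by decide), (cdM 1).aniso (by decide)⟩

/-- parents in the tree -/
noncomputable def pE : ℕ → ℕ := lget [0, 0, 1, 2, 2, 4, 5, 6] 0
/-- parents in the forest -/
noncomputable def pA : ℕ → ℕ := lget [0, 1, 1, 3, 3] 0
/-- roots -/
noncomputable def r5 : ℕ → ℕ := lget [3, 5, 8, 4] 0
/-- roots -/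
noncomputable def r6 : ℕ → ℕ := lget [5, 11, 18, 10, 32, 16] 0
/-- roots -/
noncomputable def r8 : ℕ → ℕ := lget [17, 35, 21, 68, 76, 136, 27, 34] 0
/-- the extra relator -/
def w8 : List ℕ := pww [0, 2, 3, 4, 5, 6, 7] 15

theorem cox5 : CoxSys (qM 1) 4 pE fun j => refl _ (vM 1 (r5 0)) * refl _ (vM 1 (r5 j)) :=
  (cdM 1).cox (bnM 1) hyp5 (by rw [rkM]; norm_num) (Or.inr an5)
    [(8, 5), (8, 4), (3, 5), (6, 8), (12, 5), (9, 3)] (by norm_num) (by decide +kernel)
    (by decide +kernel) (by decide +kernel)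

theorem cox6 : CoxSys (qM 2) 6 pE fun j => refl _ (vM 2 (r6 0)) * refl _ (vM 2 (r6 j)) :=
  (cdM 2).cox (bnM 2) hyp6 (by rw [rkM]; norm_num) (Or.inl (by rw [rkM]; norm_num))
    [(32, 18), (32, 16), (5, 11), (10, 18), (11, 18), (14, 18), (48, 18), (50, 11), (50, 10), (24, 11),
     (34, 11), (34, 10), (19, 5), (19, 32), (28, 32), (22, 32), (40, 11), (41, 5), (51, 18), (33, 5),
     (33, 16), (35, 5), (36, 11), (36, 16), (49, 32), (17, 5), (47, 16), (20, 11), (31, 18), (13, 10)]
    (by norm_num) (by decide +kernel) (by decide +kernel) (by decide +kernel)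

theorem cox8 : CoxSys (qP 4) 8 pE fun j => refl _ (vP 4 (r8 0)) * refl _ (vP 4 (r8 j)) :=
  (cdP 4).cox (bnP 4) hyp8 (by rw [rkP]; norm_num) (Or.inl (by rw [rkP]; norm_num))
    [(34, 27), (35, 17), (35, 21), (68, 21), (136, 76), (136, 27), (76, 21), (89, 35), (89, 68), (89, 136), (196, 27), (50, 21), (81, 35), (147, 34), (29, 35), (29, 136), (39, 68), (39, 76), (177, 76), (209, 35), (209, 27), (149, 35), (149, 27), (62, 17), (62, 21), (202, 35), (202, 34), (107, 136), (142, 35), (142, 34), (43, 17), (43, 136), (47, 136), (227, 27), (232, 35), (163, 17), (163, 76), (163, 27), (167, 27), (172, 35), (58, 35), (203, 17), (143, 17), (143, 21), (25, 136), (178, 76), (178, 27), (184, 76), (145, 76), (145, 27), (154, 17), (154, 76), (169, 76), (244, 136), (138, 76), (138, 34), (139, 76), (214, 136), (221, 21), (229, 136), (168, 76), (198, 21), (198, 136), (199, 136), (200, 68), (94, 27), (140, 27), (69, 17), (78, 21), (78, 34), (211, 34), (84, 35), (91, 68), (91, 76),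 (91, 34), (151, 34), (23, 68), (23, 34), (31, 34), (119, 21), (53, 68), (53, 27), (61, 27), (83, 21), (38, 76), (46, 136), (70, 35), (70, 34), (100, 35), (100, 27), (101, 17), (106, 136), (71, 17), (71, 27), (127, 136), (86, 27), (92, 136), (247, 76), (77, 136), (187, 35), (152, 17), (152, 21), (137, 21), (141, 68), (156, 35), (156, 68), (191, 68), (251, 21), (238, 76), (162, 136), (42, 27), (49, 34)]
    (by norm_num) (by decide +kernel) (by decide +kernel) (by decide +kernel)

universe u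

theorem pb5 : PB.{u} 4 civ (coxRel 4 pE) 60 := CxA4.cert.pb0.congr (by decide +kernel)

theorem pbD5 : PB.{u} 5 civ (coxRel 5 pE) (16 * 60) :=
  (pb5.step (base := coxRel 5 pE) CxD5.cert (by decide +kernel)).congr (by decide +kernel)

theorem pb6 : PB.{u} 6 civ (coxRel 6 pE) 25920 :=
  (pbD5.step (base := coxRel 6 pE) CxE6.cert (by decide +kernel)).congr (by decide +kernel)

theorem pb7 : PB.{u} 7 civ (coxRel 7 pE) (56 * 25920) :=
  (pb6.step (base := coxRel 7 pE) CxE7.cert (by decide +kernel)).congr (by decide +kernel)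

theorem pb8 : PB.{u} 8 civ (coxRel 8 pE ++ [w8]) 174182400 :=
  (pb7.step (base := coxRel 8 pE ++ [w8]) CxE8.cert (by decide +kernel)).congr (by decide +kernel)

theorem pb4 : PB.{u} 5 civ (coxRel 5 pA) 36 := CxA22.cert.pb0.congr (by decide +kernel)

end Cfsg.Agent.XL
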