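import Cfsg.Agent.XL.XC

/-! # The subgroup `Y₂` induces Eichler transformations -/

set_option autoImplicit false

namespace Cfsg.Agent.XL

open Cfsg Cfsg.Agent.GT Cfsg.Agent.TT Cfsg.Agent.Cl.Orth Subgroup

variable {V : Type*} [AddCommGroup V] [Module (ZMod 2) V]

/-- coordinates for a pair -/
structure XT {G : Type*} [Group G] (q : QuadraticForm (ZMod 2) V) (e f : V) (Q : Subgroup G) (z : G)
    (S : Subgroup G) (s : G) (π : G → V) : Prop where
  xq : XQ q Q z π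
  tr : TR Q z S s
  πs : π s = e
  hyp : Hyp q e f

variable {G : Type*} [Group G] {q : QuadraticForm (ZMod 2) V} {Q S : Subgroup G} {z s x y c d : G}
  {π : G → V} {g g' : OG q} {e f u : V}

theorem XQ.exists_q (h : XQ q Q z π) (hs : s ∈ Q) (he : π s = e) (hyp : Hyp q e f) :
    ∃ k ∈ Q, π k = f ∧ k * s * k⁻¹ = s * z := by
  obtain ⟨k, hk, e1⟩ := h.surj f
  refine ⟨k, hk, e1, h.conj_of_not hk hs fun c => ?_⟩
  rw [h.comm_iff hk hs, e1, he, hyp.hfe] at c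
  exact absurd c (by decide)

theorem XQ.exists_stab (h : XQ q Q z π) (hs : s ∈ Q) (he : π s = e) (hyp : Hyp q e f)
    (a : Ac Q z π c g) (hg : g.1 e = e) : ∃ c ∈ C1[z] ⊓ C1[s], Ac Q z π c g := by
  have := a.2 s hs
  rw [he, hg, ← he] at this
  rcases (h.eq_iff hs (h.conjQ a.1 hs)).1 this.symm with b | b
  · exact ⟨c, ⟨a.1, mem_cent1.2 (mul_inv_eq_iff_eq_mul.1 b)⟩, a⟩
  · obtain ⟨k, hk, -, e2⟩ := h.exists_q hs he hyp
    have a' := h.ac_mul (h.ac_Q hk) a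
    rw [one_mul] at a'
    refine ⟨k * c, ⟨a'.1, mem_cent1.2 (mul_inv_eq_iff_eq_mul.1 ?_)⟩, a'⟩
    rw [show k * c * s * (k * c)⁻¹ = k * (c * s * c⁻¹) * k⁻¹ by group, b,
      show k * (s * z) * k⁻¹ = k * s * k⁻¹ * (k * z * k⁻¹) by group, e2,
      XQ.conj_z (h.le_cent1 hk), mul_assoc, h.zz, mul_one]

theorem XC.tr (h : XC q Q z π) [Finite G] (hp : LP Q z S s) (he : π s = e) (hyp : Hyp q e f)
    (h1 : 5 ≤ Module.finrank (ZMod 2) V ∨ ∀ u, q u = 0 → B q e u = 0 → u = 0 ∨ u = e) :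
    TR Q z S s := by
  refine ⟨hp, fun x hx hx' => hp.memV.2 ?_⟩
  have hsq : x * x = 1 := by
    rcases h.sq x hx with a | a
    · exact a
    · rcases hp.hS.sq x hx' with b | b
      · exact b
      · exact absurd (b.symm.trans a) hp.ne
  have hq := (h.sq1 x hx).1 hsq
  have hb : B q e (π x) = 0 := he ▸ (h.comm_iff hp.sQ hx).1 (hp.hS.zc x hx')
  have key : π x = 0 ∨ π x = e := by
    refine h1.elim (fun h5 => ?_) fun h2 => h2 _ hq hb
    by_contra hn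
    push Not at hn
    obtain ⟨f', u', a1, a2, a3, a4, a5⟩ := h.bn.rad0.exists_two_hyp hyp.he hq hyp.e_ne hb (fun c e => by
      rcases zmod2_cases c with rfl | rfl
      · exact hn.1 (by simpa using e)
      · exact hn.2 (by simpa using e))
    obtain ⟨w, b1, -, b3, b4, b5⟩ := Hyp.exists_nonsing4 h.bn.rad0 a1 a2 hb a3 a4 a5 h5
    obtain ⟨c, hc⟩ := h.onto _ (eich_mem_EG a2.hf b4)
    obtain ⟨c, hc1, hc⟩ := h.exists_stab hp.sQ he hyp hc (eich_of_orth _ _ a3 b1)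
    have hy := h.conjQ hc1.1 hx
    have hy' : c * x * c⁻¹ ∈ S := conj_mem_of_le_norm hp.hS.nQ hc1.2 hx'
    have hcm : Commute x (c * x * c⁻¹) := by
      rw [← cm_eq_one]
      rcases ES.cm_mem h.toES hx hy with a | a
      · exact a
      · rcases ES.cm_mem hp.hS.toES hx' hy' with b | b
        · exact b
        · exact absurd (b.symm.trans a) hp.ne
    rw [h.comm_iff hx hy, hc.2 x hx, eich_app2, b3, a2.hef, z2_ne b5] at hcm
    simp [B_self2, b3, a2.hef] at hcm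
  rcases key with a | a
  · rcases (h.ker x hx).1 a with b | b <;> simp [b]
  · rcases (h.eq_iff hp.sQ hx).1 (he.trans a.symm) with b | b <;> simp [b]

namespace XT

theorem Y1_iff (h : XT q e f Q z S s π) (hx : x ∈ Q) : x ∈ C1[s] ↔ B q (π x) e = 0 := by
  rw [← h.πs, ← h.xq.comm_iff hx h.tr.sQ, mem_cent1]; rfl

theorem ac_fix (h : XT q e f Q z S s π) (a : Ac Q z π c g) (hc : c ∈ C1[s]) : g.1 e = e := by
  have := a.2 s h.tr.sQ
  rwa [mul_inv_eq_iff_eq_mul.2 (mem_cent1.1 hc), h.πs, eq_comm] at this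

theorem πV (h : XT q e f Q z S s π) {v : G} (hv : v ∈ VV z s) : π v = 0 ∨ π v = e := by
  rcases h.tr.memV.1 hv with rfl | rfl | rfl | rfl
  exacts [Or.inl h.xq.π1, Or.inl h.xq.πz, Or.inr h.πs,
    Or.inr (by rw [h.xq.mul _ h.tr.sQ _ h.xq.mem, h.πs, h.xq.πz, add_zero])]

theorem πsz (h : XT q e f Q z S s π) : π (s * z) = e := by
  rw [h.xq.mul _ h.tr.sQ _ h.xq.mem, h.πs, h.xq.πz, add_zero]

theorem V_of_π (h : XT q e f Q z S s π) (hx : x ∈ Q) (a : π x = 0 ∨ π x = e) : x ∈ VV z s := by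
  refine h.tr.memV.2 ?_
  rcases a with a | a
  · rcases (h.xq.ker x hx).1 a with b | b <;> simp [b]
  · rcases (h.xq.eq_iff h.tr.sQ hx).1 (h.πs.trans a.symm) with b | b <;> simp [b]

/-- an element of `P` whose commutators with `Y₁` lie in `V` induces an Eichler transformation -/
theorem ac_eich' (h : XT q e f Q z S s π) (hc : c ∈ C1[z] ⊓ C1[s])
    (hv : ∀ x ∈ Q ⊓ C1[s], cm c x ∈ VV z s) :
    ∃ u, ∃ hu : B q e u = 0, B q f u = 0 ∧ Ac Q z π c (eich q e u h.hyp.he hu) := by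
  obtain ⟨g, a⟩ := h.xq.exists_ac hc.1
  obtain ⟨u, hu, b1, b2⟩ := exists_eich_eq h.hyp (h.ac_fix a hc.2) fun v hv' => by
    obtain ⟨x, hx, rfl⟩ := h.xq.surj v
    have hx' : x ∈ Q ⊓ C1[s] := ⟨hx, (h.Y1_iff hx).2 (by rw [B_comm, hv'])⟩
    have k := hv x hx'
    have : c * x * c⁻¹ = cm c x * x := by unfold cm; group
    rw [← a.2 x hx, this, h.xq.mul _ (h.tr.VY1 k).1 _ hx]
    rcases h.πV k with b | b <;> rw [b] <;> simp [add_comm]
  exact ⟨u, hu, b1, b2 ▸ a⟩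

theorem ac_eich (h : XT q e f Q z S s π) (hy : y ∈ S ⊓ C1[z]) :
    ∃ u, ∃ hu : B q e u = 0, B q f u = 0 ∧ Ac Q z π y (eich q e u h.hyp.he hu) :=
  h.ac_eich' (h.tr.Y2P hy) fun x hx => by rw [← cm_inv]; exact inv_mem (h.tr.cm_V hx hy)

theorem eich_inj (hyp : Hyp q e f) {u u' : V} {hu : B q e u = 0} {hu' : B q e u' = 0}
    (h1 : B q f u = 0) (h2 : B q f u' = 0)
    (h : eich q e u hyp.he hu = eich q e u' hyp.he hu') : u = u' := by
  have a := congrArg (fun g : OG q => pr q e f (g.1 f)) h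
  simp only [eich_app2, h1, h2, hyp.hfe, pr, map_add, map_smul, LinearMap.add_apply,
    LinearMap.smul_apply, hyp.hff, hyp.hef, hyp.hee, B_comm q u f, B_comm q u' f, B_comm q u e,
    B_comm q u' e, hu, hu'] at a
  simpa [vsub, add_assoc, vadd_self] using a

theorem eich_onto [Finite G] (h : XT q e f Q z S s π) (hS : Nat.card Q ≤ Nat.card S) (u : V)
    (hu : B q e u = 0) : ∃ y ∈ S ⊓ C1[z], Ac Q z π y (eich q e u h.hyp.he hu) := by
  haveI := h.xq.finite_V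
  choose U hU1 hU2 hU3 using fun y : (S ⊓ C1[z] : Subgroup G) => h.ac_eich y.2
  let φ : (S ⊓ C1[z] : Subgroup G) →* Multiplicative (perp q e f) :=
    MonoidHom.mk' (fun y => Multiplicative.ofAdd ⟨U y, hU1 y, hU2 y⟩) fun a b => by
      rw [← ofAdd_add]
      refine congrArg _ (Subtype.ext (eich_inj h.hyp (hu := hU1 _) (hu' := by simp [hU1])
        (hU2 _) (by simp [hU2]) ?_))
      exact (h.xq.ac_unique (hU3 (a * b)) (h.xq.ac_mul (hU3 a) (hU3 b))).trans (eich_mul _ _ _)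
  have h1 : Nat.card φ.ker ≤ 4 := by
    refine le_trans (Nat.card_le_card_of_injective (fun y : φ.ker => (⟨y.1.1, ?_⟩ : VV z s))
      fun a b e => Subtype.ext (Subtype.ext (congrArg (fun y : VV z s => (y : G)) e)))
      (card_closure_pair_le h.xq.zz h.tr.hS.zz h.tr.comm)
    have e0 : U y.1 = 0 := congrArg (fun v : Multiplicative (perp q e f) => (v.toAdd : V)) y.2
    have a := hU3 y.1
    rw [eich_congr _ _ h.hyp.he (by simp) rfl e0, eich_zero] at a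
    exact h.tr.inter _ (h.xq.mem_of_ac a) y.1.2.1
  have h2 := h.tr.hS.card_le_two_mul h.tr.zS
  have h3 := h.xq.card_Q
  have h4 := h.hyp.split.card_V
  have h5 := φ.ker.card_mul_index
  rw [index_ker] at h5
  have h6 : φ.range = ⊤ := eq_top_of_card_eq _ (le_antisymm (card_le_card_group _) (by
    have : Nat.card (Multiplicative (perp q e f)) = Nat.card (perp q e f) := rfl
    rw [Nat.card_zmod] at h4
    nlinarith))
  obtain ⟨y, hy⟩ := h6 ▸ mem_top (Multiplicative.ofAdd (h.hyp.prL u))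
  have e1 : U y = pr q e f u := congrArg (fun v : Multiplicative (perp q e f) => (v.toAdd : V)) hy
  refine ⟨y, y.2, ?_⟩
  have e2 : u = U y + B q u f • e := by
    rw [e1]; conv_lhs => rw [eq_pr (Q := q) e f u, B_comm q u e, hu]
    simp [add_comm]
  rw [eich_congr _ hu h.hyp.he (by rw [← e2]; exact hu) rfl e2, eich_add_smul _ _ (hU1 y)]
  exact hU3 y

theorem sq_iff (h : XT q e f Q z S s π) (hy : y ∈ S ⊓ C1[z]) {hu : B q e u = 0}
    (a : Ac Q z π y (eich q e u h.hyp.he hu)) : y * y = 1 ↔ q u = 0 := by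
  obtain ⟨k, hk, e1, e2⟩ := h.xq.exists_q h.tr.sQ h.πs h.hyp
  have m := (h.tr.cm_Y1 hk (h.tr.Y2P hy)).1
  rw [h.tr.sq_iff hk e2 hy, h.xq.sq1 _ m]
  have : cm k y = k * (y * k * y⁻¹)⁻¹ := by unfold cm; group
  rw [this, h.xq.mul _ hk _ (inv_mem (h.xq.conjQ hy.2 hk)), h.xq.πinv (h.xq.conjQ hy.2 hk),
    a.2 k hk, e1, eich_app2, h.hyp.hfe, ← add_assoc, ← add_assoc, ← add_assoc, vadd_self, zero_add,
    one_smul, add_right_comm, ← add_smul, Q_add, Q_smul, h.hyp.he]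
  simp [hu]

theorem cm_iff (h : XT q e f Q z S s π) (hx : x ∈ Q ⊓ C1[s]) (hy : y ∈ S ⊓ C1[z])
    {hu : B q e u = 0} (a : Ac Q z π y (eich q e u h.hyp.he hu)) :
    cm x y = if B q (π x) u = 0 then 1 else s * z := by
  have : cm x y = x * (y * x * y⁻¹)⁻¹ := by unfold cm; group
  have e1 : π (cm x y) = B q (π x) u • e := by
    rw [this, h.xq.mul _ hx.1 _ (inv_mem (h.xq.conjQ hy.2 hx.1)), h.xq.πinv (h.xq.conjQ hy.2 hx.1),
      a.2 x hx.1, eich_app2, (h.Y1_iff hx.1).1 hx.2]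
    simp [← add_assoc, vadd_self]
  rcases h.tr.cm_sz hx hy with b | b <;> rw [b] at e1 ⊢ <;> split_ifs with c
  · rfl
  · rw [z2_ne c, h.xq.π1, one_smul] at e1; exact absurd e1.symm h.hyp.e_ne
  · rw [c, h.πsz, zero_smul] at e1; exact absurd e1 h.hyp.e_ne
  · rfl

/-- recognition of the elements of `Y₂` -/
theorem mem_Y2 [Finite G] (h : XT q e f Q z S s π) (hS : Nat.card Q ≤ Nat.card S)
    (hc : c ∈ C1[z] ⊓ C1[s]) (hv : ∀ x ∈ Q ⊓ C1[s], cm x c = 1 ∨ cm x c = s * z) :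
    c ∈ S ⊓ C1[z] := by
  obtain ⟨u, hu, -, a⟩ := h.ac_eich' hc fun x hx => by
    rw [← cm_inv]
    rcases hv x hx with b | b <;> rw [b]
    exacts [by simp, inv_mem h.tr.szV]
  obtain ⟨y, hy, b⟩ := h.eich_onto hS u hu
  have m : y⁻¹ * c ∈ Q ⊓ C1[s] :=
    ⟨h.xq.mem_of_ac2 b a, (mul_mem (inv_mem (h.tr.Y2P hy)) hc).2⟩
  have : y⁻¹ * c ∈ VV z s := h.tr.V_of_cent m.1 fun x hx => by
    have e1 := cm_mul_right x y (y⁻¹ * c)
    rw [mul_inv_cancel_left] at e1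
    rw [← cm_eq_one]
    refine (ES.cm_mem h.xq.toES hx.1 m.1).resolve_right fun e2 => ?_
    rw [e2, XQ.conj_z hy.2] at e1
    rcases hv x hx with b1 | b1 <;> rcases h.tr.cm_sz hx hy with b2 | b2 <;> rw [b1, b2] at e1
    · exact h.xq.ne (by simpa using e1.symm)
    · rw [mul_assoc, h.xq.zz, mul_one] at e1; exact h.tr.hS.ne e1.symm
    · exact h.tr.hS.ne (by simpa using e1)
    · exact h.xq.ne (by simpa using e1)
  simpa using mul_mem hy (h.tr.VY2 this)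

/-- the centralizer of `Y₁` in `P` -/
theorem V_of_cent [Finite G] (h : XT q e f Q z S s π) (hS : Nat.card Q ≤ Nat.card S)
    (hc : c ∈ C1[z]) (hv : ∀ x ∈ Q ⊓ C1[s], Commute x c) : c ∈ VV z s := by
  have hP : c ∈ C1[z] ⊓ C1[s] := ⟨hc, mem_cent1.2 (hv s (h.tr.VY1 h.tr.sV)).symm.eq⟩
  have hy := h.mem_Y2 hS hP fun x hx => Or.inl (cm_eq_one.2 (hv x hx))
  obtain ⟨u, hu, hf, a⟩ := h.ac_eich hy
  have : u = 0 := h.xq.bn u fun v => by
    obtain ⟨x, hx, e1⟩ := h.xq.surj (pr q e f v)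
    have hx' : x ∈ Q ⊓ C1[s] := ⟨hx, (h.Y1_iff hx).2 (by rw [e1, B_comm, pr_e h.hyp])⟩
    have k := h.cm_iff hx' hy a
    rw [cm_eq_one.2 (hv x hx'), e1, B_pr hu hf] at k
    by_contra hne
    rw [if_neg hne] at k
    exact h.tr.ne ((mul_eq_one_iff_eq_inv.1 k.symm).trans h.xq.inv)
  subst this
  rw [eich_zero] at a
  exact h.tr.inter _ (h.xq.mem_of_ac a) hy.1

end XT

end Cfsg.Agent.XL
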