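import Cfsg.Agent.XL.Sift
import Cfsg.Agent.XL.Conv
import Cfsg.Agent.XL.L3
import Cfsg.Agent.XL.SE

/-! # Graphs on the centralizer and on the normalizer of the four-group; descent -/

set_option autoImplicit false

namespace Cfsg.Agent.XL

open Cfsg Cfsg.Agent.GT Cfsg.Agent.TT Cfsg.Agent.TC Cfsg.Agent.M24 Subgroup MulAction

variable {X G X' G' Ω : Type*} [Group X] [Group G] [Group X'] [Group G'] [MulAction X Ω] {idx : Ω → ℕ}
  {m : ℕ → X} {f : ℕ → ℕ → ℕ} {iv : ℕ → ℕ} {k : ℕ} {bs : List ℕ} {v : ℕ → X × G}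
  {M K A C : Subgroup (X × G)} {p r : X × G} {w ls : List ℕ} {z0 s0 y0 : X} {z y : G}

/-- the four-group with two elements moving its involutions -/
structure V4 (z s a b : G) : Prop where
  zz : z * z = 1
  ss : s * s = 1
  zs : Commute z s
  z1 : z ≠ 1
  s1 : s ≠ 1
  ne : s ≠ z
  az : a * z * a⁻¹ = z
  as : a * s * a⁻¹ = s * z
  bz : b * z * b⁻¹ = s * z
  bs : b * s * b⁻¹ = s

theorem norm_VV [Finite G] {s c : G} (h1 : c * z * c⁻¹ ∈ VV z s) (h2 : c * s * c⁻¹ ∈ VV z s) :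
    c ∈ N[VV z s] := mem_normalizer_of_conj fun x hx => by
  have : VV z s ≤ (VV z s).comap (MulAut.conj c).toMonoidHom := (closure_le _).2 (by
    rintro _ (rfl | rfl); exacts [h1, h2])
  exact this hx

theorem zVV (z s : G) : z ∈ VV z s := subset_closure (by simp)

theorem sVV (z s : G) : s ∈ VV z s := subset_closure (by simp)

theorem cent_le_norm_VV [Finite G] {s : G} : C1[z] ⊓ C1[s] ≤ N[VV z s] := fun c hc =>
  norm_VV (by rw [commute_iff_conj.1 (mem_cent1.1 hc.1)]; exact zVV _ _)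
    (by rw [commute_iff_conj.1 (mem_cent1.1 hc.2)]; exact sVV _ _)

theorem V4.na [Finite G] {s a b : G} (h : V4 z s a b) : a ∈ N[VV z s] :=
  norm_VV (h.az.symm ▸ zVV _ _) (h.as ▸ mul_mem (sVV _ _) (zVV _ _))

theorem V4.nb [Finite G] {s a b : G} (h : V4 z s a b) : b ∈ N[VV z s] :=
  norm_VV (h.bz ▸ mul_mem (sVV _ _) (zVV _ _)) (h.bs.symm ▸ sVV _ _)

theorem V4.one {s a b c : G} (h : V4 z s a b) (hc : c ∈ N[VV z s]) (e : c ∈ C1[z]) :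
    c ∈ C1[s] ∨ a⁻¹ * c ∈ C1[s] := by
  have e' := commute_iff_conj.1 (mem_cent1.1 e)
  rcases (mem_VV h.zz h.ss h.zs).1 (conj_mem_of_mem_norm hc (sVV z s)) with u | u | u | u
  · exact absurd (by simpa using u) h.s1
  · exact absurd (by simpa using u.trans e'.symm) h.ne
  · exact Or.inl (mem_cent1.2 (mul_inv_eq_iff_eq_mul.1 u))
  · refine Or.inr (mem_cent1.2 ?_)
    rw [← h.as] at u
    rw [mul_assoc, mul_inv_eq_iff_eq_mul.1 u]; group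

theorem V4.two {s a b c : G} (h : V4 z s a b) (hc : c ∈ N[VV z s]) :
    c ∈ C1[z] ∨ b⁻¹ * c ∈ C1[z] ∨ (a * b)⁻¹ * c ∈ C1[z] := by
  have k : ∀ u : G, u * z * u⁻¹ = c * z * c⁻¹ → u⁻¹ * c ∈ C1[z] := fun u e => mem_cent1.2 (by
    rw [mul_assoc, mul_inv_eq_iff_eq_mul.1 e.symm]; group)
  rcases (mem_VV h.zz h.ss h.zs).1 (conj_mem_of_mem_norm hc (zVV z s)) with u | u | u | u
  · exact absurd (by simpa using u) h.z1
  · exact Or.inl (mem_cent1.2 (mul_inv_eq_iff_eq_mul.1 u))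
  · refine Or.inr (Or.inr (k _ ?_))
    rw [u, show a * b * z * (a * b)⁻¹ = a * (b * z * b⁻¹) * a⁻¹ by group, h.bz, ← conj_mul, h.as, h.az,
      mul_assoc, h.zz, mul_one]
  · exact Or.inr (Or.inl (k _ (h.bz.trans u.symm)))

theorem V4.le [Finite G] {s a b : G} (h : V4 z s a b) {T : Subgroup G} (ha : a ∈ T) (hb : b ∈ T)
    (hc : C1[z] ⊓ C1[s] ≤ T) : N[VV z s] ≤ T := by
  have a1 : a ∈ C1[z] := mem_cent1.2 (mul_inv_eq_iff_eq_mul.1 h.az)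
  have k : ∀ c ∈ N[VV z s], c ∈ C1[z] → c ∈ T := fun c u e => (h.one u e).elim (fun o => hc ⟨e, o⟩)
    fun o => (mul_mem_cancel_left (inv_mem ha)).1 (hc (mem_inf.2 ⟨mul_mem (inv_mem a1) e, o⟩))
  intro c u
  rcases h.two u with o | o | o
  · exact k c u o
  · exact (mul_mem_cancel_left (inv_mem hb)).1 (k _ (mul_mem (inv_mem h.nb) u) o)
  · exact (mul_mem_cancel_left (inv_mem (mul_mem ha hb))).1 (k _ (mul_mem (inv_mem (mul_mem h.na h.nb)) u) o)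

/-- compatible graphs -/
structure RH (z0 s0 : X) (z : G) (K M : Subgroup (X × G)) : Prop where
  kz : KZ K (z0, z)
  gn : Gr M
  nf : ∀ c ∈ N[VV z0 s0], ∃ d, (c, d) ∈ M
  nn : ∀ p ∈ M, p.1 ∈ N[VV z0 s0]
  cp : ∀ p ∈ M, p.1 ∈ C1[z0] → p ∈ K

theorem KZ.c1 {y : X × G} (h : KZ K y) (hp : p ∈ K) : p.1 ∈ C1[y.1] :=
  mem_cent1.2 (congrArg Prod.fst (mem_cent1.1 (h.cent hp)))

theorem KZ.c2 {y : X × G} (h : KZ K y) (hp : p ∈ K) : p.2 ∈ C1[y.2] :=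
  mem_cent1.2 (congrArg Prod.snd (mem_cent1.1 (h.cent hp)))

theorem RH.mem (h : RH z0 s0 z K M) (hp : p ∈ K) (hn : p.1 ∈ N[VV z0 s0]) : p ∈ M :=
  let ⟨_, a⟩ := h.nf _ hn
  h.kz.gr.ext (h.cp _ a (h.kz.c1 hp :)) hp rfl ▸ a

theorem KH.rh {V : Type*} [AddCommGroup V] [Module (ZMod 2) V] {q : QuadraticForm (ZMod 2) V} {e f : V}
    {A : Dt X V} {B : Dt G V} {Δ : Subgroup (X × G)} [Finite X] [Finite G] (h : KH q e f A B Δ K)
    (hs : ∀ H : Subgroup X, (∀ u ∈ C1[A.z] ⊓ C1[A.s], u * u ∈ H) → C1[A.z] ⊓ C1[A.s] ≤ H) :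
    ∃ M, RH A.z A.s B.z K M := by
  have t := h.hA.tr
  have s1 : A.s ≠ 1 := t.hS.ne
  obtain ⟨q0, hq, e1⟩ := t.hQ.exists_not_commute t.sQ s1 t.ne
  obtain ⟨n0, hn, e2⟩ := t.hS.exists_not_commute t.zS t.hQ.ne t.ne.symm
  have e3 := t.hQ.conj_of_not hq t.sQ e1
  have e4 := (t.hS.conj_of_not hn t.zS e2).trans t.zs
  obtain ⟨a, b, rfl, rfl, n⟩ := h.exists_NH hq e3 hn e4
  have v4 : V4 A.z A.s a.1 b.1 := ⟨t.hQ.zz, t.hS.zz, t.zs, t.hQ.ne, s1, t.ne, t.qz hq, e3, e4, t.ns hn⟩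
  have aN : a ∈ NN A K a b := mem_sup_right (subset_closure (by simp))
  have bN : b ∈ NN A K a b := mem_sup_right (subset_closure (by simp))
  have nn : NN A K a b ≤ (N[VV A.z A.s]).comap (MonoidHom.fst X G) := sup_le
    (fun p hp => cent_le_norm_VV ⟨h.C1 (mem_MM.1 hp).1, (mem_MM.1 hp).2.1⟩)
    ((closure_le _).2 (by rintro _ (rfl | rfl); exacts [v4.na, v4.nb]))
  refine ⟨NN A K a b, h.kz, fun p hp => n.N_inj hp, fun c hc => ?_, nn, fun p hp e => ?_⟩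
  · obtain ⟨⟨_, d⟩, u, rfl⟩ := v4.le (T := (NN A K a b).map (MonoidHom.fst X G)) ⟨a, aN, rfl⟩ ⟨b, bN, rfl⟩
      (hs _ fun u hu => let ⟨_, o⟩ := h.kg.fst u hu.1; ⟨_, mem_sup_left (n.sqM o hu.2), rfl⟩) hc
    exact ⟨d, u⟩
  · refine (v4.one (nn hp) e).elim (fun o => n.MK (n.mem_M hp ⟨e, o⟩)) fun o => ?_
    exact (mul_mem_cancel_left (inv_mem n.aK)).1 (n.MK (n.mem_M (mul_mem (inv_mem aN) hp)
      (mem_inf.2 ⟨mul_mem (inv_mem (h.C1 n.aK)) e, o⟩)))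

theorem RH.start (h : RH z0 s0 z K M) {j : ℕ} (hj : m j ∈ N[VV z0 s0]) (hb : m j * m j = 1)
    (hm : ∀ i < k, iv i < k ∧ m (iv i) * m i = 1 ∧ (iv i = j ↔ i = j) ∧ (i ≠ j → Commute (m i) z0)) :
    ∃ v, AM m v iv k ∧ (∀ i < k, i ≠ j → v i ∈ K) ∧ ∀ i < k, m i ∈ N[VV z0 s0] → v i ∈ M := by
  obtain ⟨d, hd⟩ := h.nf _ hj
  obtain ⟨v, a1, a2, a3⟩ := h.kz.exists_v (h.cp _ (mul_mem hd hd) (by simp [hb])) rfl hm
  refine ⟨v, a1, a3, fun i hi e => ?_⟩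
  by_cases c : i = j
  · rwa [c, a2]
  · exact h.mem (a3 i hi c) (a1.fst i hi ▸ e)

theorem AM.extend {k0 : ℕ} (h : AM m v iv k0) (d : Md idx m f k bs) {wd : ℕ → List ℕ}
    (hc : nall k (fun i => bor (Nat.blt i k0) (band (band (Nat.blt (iv i) k) (Nat.ble k0 (iv i)))
      (band (band (llt k0 (wd i)) (wd (iv i) == invw iv (wd i))) (eqw f k bs (wd i) [i])))) = true)
    (hk : k0 ≤ k) : ∃ v' : ℕ → X × G, AM m v' iv k ∧ (∀ i < k0, v' i = v i) ∧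
      ∀ i < k, k0 ≤ i → v' i = evl v' (wd i) := by
  simp only [nall_iff, band_eq, bor_eq, Bool.and_eq_true, Bool.or_eq_true, Nat.blt_eq, Nat.ble_eq, llt_iff,
    beq_iff_eq] at hc
  refine ⟨fun i => if i < k0 then v i else evl v (wd i), ⟨fun i hi => ?_, fun i hi => ?_⟩,
    fun i hi => if_pos hi, fun i hi e => ?_⟩
  · split_ifs with c
    · exact h.fst i c
    · obtain ⟨-, ⟨a, -⟩, b⟩ := (hc i hi).resolve_left c
      rw [h.ev a, d.eq b, evl, evl, one_mul]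
  · by_cases c : i < k0
    · simp only [c, (h.inv i c).1, if_true]
      exact ⟨(h.inv i c).1.trans_le hk, (h.inv i c).2⟩
    · obtain ⟨⟨a1, a2⟩, ⟨a, b⟩, -⟩ := (hc i hi).resolve_left c
      simp only [c, Nat.not_lt.2 a2, if_false, b, evl_invw fun j hj => (h.inv j (a j hj)).2]
      exact ⟨a1, inv_mul_cancel _⟩
  · refine (if_neg (Nat.not_lt.2 e)).trans ?_
    exact evl_congr fun j hj => (if_pos (((hc i hi).resolve_left (Nat.not_lt.2 e)).2.1.1 j hj)).symm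

theorem Gr.sup (hA : Gr A) (hC : Gr C) (hn : C ≤ N[A]) (h : ∀ p ∈ A, ∀ r ∈ C, p.1 = r.1 → p ∈ C) :
    Gr (A ⊔ C) := fun p hp e => by
  obtain ⟨a, ha, c, hc, rfl⟩ := (mem_sup_of_le_norm' hn).1 hp
  have := h a ha c⁻¹ (inv_mem hc) (eq_inv_of_mul_eq_one_left e)
  exact hC _ (mul_mem this hc) e

theorem eq_bot_of_three [Finite X] {N : Subgroup X} [N.Normal] {z s g g' : X} (zz : z * z = 1)
    (h : ∀ n ∈ N, Commute n z → n = 1) (e : g * z * g⁻¹ = s) (e' : g' * z * g'⁻¹ = s * z) : N = ⊥ := by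
  have k : ∀ u : X, ∀ n ∈ N, u * z * u⁻¹ * n * (u * z * u⁻¹)⁻¹ = n⁻¹ := fun u n hn => by
    have := MonoidHom.FixedPointFree.coe_eq_inv_of_involutive (φ := MulAut.conjNormal (H := N) z)
      (fun x e => Subtype.ext (h x x.2 (commute_iff_conj.2 (congrArg Subtype.val e)).symm))
      fun x => by rw [← MulAut.mul_apply, ← map_mul, zz, map_one]; rfl
    have := congrArg Subtype.val (congrFun this ⟨u⁻¹ * n * u, Normal.conj_mem' inferInstance n hn u⟩)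
    simp only [MulAut.conjNormal_apply, InvMemClass.coe_inv] at this
    rw [show u * z * u⁻¹ * n * (u * z * u⁻¹)⁻¹ = u * (z * (u⁻¹ * n * u) * z⁻¹) * u⁻¹ by group, this]
    group
  refine eq_bot_iff.2 fun n hn => h n hn ?_
  have a := k 1 n hn
  have b := k g n⁻¹ (inv_mem hn)
  have c := k g' n hn
  rw [e] at b
  rw [e', show s * z * n * (s * z)⁻¹ = s * (1 * z * 1⁻¹ * n * (1 * z * 1⁻¹)⁻¹) * s⁻¹ by group, a, b] at c
  rw [← c, inv_inv] at a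
  exact (commute_iff_conj.2 (by simpa using a)).symm

theorem KZ.exists_hom' [Finite X] {y : X × G} (h : KZ K y) (a : AM m v iv k) (hl : ∀ i ∈ ls, i < k)
    (hG : Gr (Mb v ls)) (ht : Mb m ls = ⊤) {ls0 : List ℕ} (h0 : ∀ i ∈ ls0, i ∈ ls ∧ v i ∈ K)
    (hK : C1[y.1] ≤ Mb m ls0) (zz : y.1 * y.1 = 1) {s g g' : X} (e : g * y.1 * g⁻¹ = s)
    (e' : g' * y.1 * g'⁻¹ = s * y.1) : ∃ φ : X →* G, Function.Injective φ ∧
      ∀ p ∈ K ⊔ Mb v ls, φ p.1 = p.2 := by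
  obtain ⟨φ, e1⟩ := hG.exists_hom fun c => a.lift hl (ht ▸ mem_top c)
  have k : K ≤ Mb v ls := fun p hp => by
    obtain ⟨r, b, c⟩ := a.lift (fun i hi => hl i (h0 i hi).1) (hK (h.c1 hp))
    exact h.gr.ext (Mb.le (fun i hi => (h0 i hi).2) b) hp c ▸ Mb.mono (fun i hi => (h0 i hi).1) b
  refine ⟨φ, (MonoidHom.ker_eq_bot_iff φ).1 (eq_bot_of_three zz (fun n hn c => ?_) e e'),
    by rwa [sup_eq_right.2 k]⟩
  obtain ⟨d, hd⟩ := h.fst n (mem_cent1.2 c)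
  exact congrArg Prod.fst (h.gr' _ hd ((e1 _ (k hd)).symm.trans hn))

/-! ### descent to the centralizer of an element of odd order -/

/-- the quotient of the centralizer of `y` by `y` -/
structure Qt (y : G) (π : C1[y] →* G') : Prop where
  sur : Function.Surjective π
  ker : kr π = zpowers y
  odd : Odd (orderOf y)

theorem exists_Qt (hy : Odd (orderOf y)) [((zpowers y).subgroupOf C1[y]).Normal] :
    Qt y (QuotientGroup.mk' ((zpowers y).subgroupOf C1[y])) :=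
  ⟨QuotientGroup.mk'_surjective _, by
    rw [kr_eq_map, QuotientGroup.ker_mk', subgroupOf_map_subtype, inf_eq_left]
    exact zpowers_le.2 (mem_cent1.2 rfl), hy⟩

instance normal_zp_cent (y : G) : ((zpowers y).subgroupOf C1[y]).Normal :=
  ⟨fun x hx g => by
    rw [mem_subgroupOf, coe_mul, coe_mul, coe_inv, commute_iff_conj.1 (comm_zp (x := (x : G)) (mem_cent1.1 g.2) hx)]
    exact hx⟩

variable {π0 : C1[y0] →* X'} {π : C1[y] →* G'}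

theorem Qt.one (h : Qt y π) {a : C1[y]} : π a = 1 ↔ (a : G) ∈ zpowers y := h.ker ▸ (mem_kr' a.2).symm

theorem Qt.two (h : Qt y π) {a : C1[y]} (e : π a = 1) {n : ℕ} (h2 : (a : G) ^ 2 ^ n = 1) : a = 1 :=
  Subtype.ext (orderOf_eq_one_iff.1 (((Nat.coprime_two_right.2
    (h.odd.of_dvd_nat (orderOf_dvd_of_mem_zpowers (h.one.1 e)))).pow_right n).eq_one_of_dvd (orderOf_dvd_of_pow_eq_one h2)))

theorem Qt.eq (h : Qt y π) {a b : C1[y]} (ha : a * a = 1) (hb : b * b = 1) (e : π a = π b) : a = b := by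
  have e1 : π (a⁻¹ * b) = 1 := by rw [map_mul, map_inv, e, inv_mul_cancel]
  have c : Commute a (a⁻¹ * b) := Subtype.ext (comm_zp (mem_cent1.1 a.2) (h.one.1 e1))
  refine inv_mul_eq_one.1 (h.two e1 (n := 1) ?_)
  rw [pow_one, sq, ← coe_mul, show a⁻¹ * b * (a⁻¹ * b) = 1 from ?_, coe_one]
  rw [inv_of_sq ha] at c ⊢
  rw [← mul_assoc, ← c.eq, ← mul_assoc, ha, one_mul, hb]

theorem Qt.comm (h : Qt y π) {a c : C1[y]} (ha : a * a = 1) (e : Commute (π c) (π a)) : Commute c a :=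
  commute_iff_conj.2 (h.eq (conj_mul_self c ha) ha (by
    rw [map_mul, map_mul, map_inv]; exact commute_iff_conj.1 e))

theorem Qt.VV (h : Qt y π) {a b : C1[y]} : VV (π a) (π b) = im π (VV a b) := by
  have := im_map_subtype (f := π) (XL.VV a b)
  rw [MonoidHom.map_closure, MonoidHom.map_closure, Set.image_pair, Set.image_pair] at this
  exact this.symm

theorem Qt.normV [Finite G] (h : Qt y π) {a b c : C1[y]} (ha : a * a = 1) (hb : b * b = 1) (ab : Commute a b)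
    (e : π c ∈ N[XL.VV (π a) (π b)]) : (c : G) ∈ N[XL.VV (a : G) b] := by
  have k : ∀ x : C1[y], x * x = 1 → π x ∈ XL.VV (π a) (π b) → ((c * x * c⁻¹ : C1[y]) : G) ∈ XL.VV (a : G) b :=
    fun x hx u => by
      have := conj_mem_of_mem_norm e u
      rw [← map_inv, ← map_mul, ← map_mul, h.VV] at this
      obtain ⟨t, ht, u, o⟩ := mem_im.1 this
      exact h.eq (Subtype.ext (VV_sq (congrArg Subtype.val ha) (congrArg Subtype.val hb)
        (congrArg Subtype.val ab.eq) u)) (conj_mul_self c hx) o ▸ u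
  exact norm_VV (k a ha (zVV _ _)) (k b hb (sVV _ _))

/-- the product of the quotient maps -/
def qq (π0 : C1[y0] →* X') (π : C1[y] →* G') : (C1[y0].prod C1[y]) →* X' × G' :=
  (π0.prodMap π).comp (Subgroup.prodEquiv _ _).toMonoidHom

theorem mem_qq {p : X' × G'} : p ∈ im (qq π0 π) M ↔
    ∃ (a : C1[y0]) (b : C1[y]), ((a : X), (b : G)) ∈ M ∧ (π0 a, π b) = p :=
  mem_im.trans ⟨fun ⟨x, hx, a, b⟩ => ⟨⟨x.1, hx.1⟩, ⟨x.2, hx.2⟩, a, b⟩,
    fun ⟨a, b, c, d⟩ => ⟨(a, b), ⟨a.2, b.2⟩, c, d⟩⟩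

theorem Gr.qq (h : Gr M) (hy : (y0, y) ∈ M) (h0 : Qt y0 π0) (h1 : Qt y π) : Gr (im (qq π0 π) M) :=
  fun p hp e => by
    obtain ⟨a, b, c, rfl⟩ := mem_qq.1 hp
    obtain ⟨n, o⟩ := h0.one.1 e
    exact Prod.ext e (h1.one.2 ⟨n, congrArg Prod.snd (h.ext (zpow_mem hy n) c o)⟩)

theorem KZ.desc (h : KZ K (z0, z)) (hy : (y0, y) ∈ K) (h0 : Qt y0 π0) (h1 : Qt y π) {a0 : C1[y0]}
    {a : C1[y]} (e0 : a0 = z0) (e : a = z) (zz : z0 * z0 = 1) : KZ (im (qq π0 π) K) (π0 a0, π a) := by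
  subst e0 e
  have zz' : (a : G) * a = 1 := congrArg Prod.snd (h.gr _ (mul_mem h.mem h.mem) zz)
  refine ⟨h.gr.qq hy h0 h1, fun p hp e => ?_, fun c hc => ?_, fun c hc => ?_, fun p hp => ?_,
    mem_qq.2 ⟨_, _, h.mem, rfl⟩⟩
  · obtain ⟨a, b, c, rfl⟩ := mem_qq.1 hp
    obtain ⟨n, o⟩ := h1.one.1 e
    exact Prod.ext (h0.one.2 ⟨n, congrArg Prod.fst (h.ext' (zpow_mem hy n) c o)⟩) e
  · obtain ⟨c, rfl⟩ := h0.sur c
    obtain ⟨d, hd⟩ := h.fst c (mem_cent1.2 (congrArg Subtype.val (h0.comm (Subtype.ext zz) (mem_cent1.1 hc)).eq))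
    exact ⟨_, mem_qq.2 ⟨c, ⟨d, mem_cent1.2 (congrArg Prod.snd (h.gr.comm hd hy (mem_cent1.1 c.2)).eq)⟩, hd, rfl⟩⟩
  · obtain ⟨c, rfl⟩ := h1.sur c
    obtain ⟨d, hd⟩ := h.snd c (mem_cent1.2 (congrArg Subtype.val (h1.comm (Subtype.ext zz') (mem_cent1.1 hc)).eq))
    exact ⟨_, mem_qq.2 ⟨⟨d, mem_cent1.2 (congrArg Prod.fst (h.comm' hd hy (mem_cent1.1 c.2)).eq)⟩, c, hd, rfl⟩⟩
  · obtain ⟨b, c, d, rfl⟩ := mem_qq.1 hp
    refine mem_cent1.2 (Prod.ext ?_ ?_)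
    · exact ((show Commute b a0 from Subtype.ext (mem_cent1.1 (h.c1 d))).map π0).eq
    · exact ((show Commute c a from Subtype.ext (mem_cent1.1 (h.c2 d))).map π).eq

theorem RH.desc [Finite X] (h : RH z0 s0 z K M) (hy : (y0, y) ∈ K) (h0 : Qt y0 π0) (h1 : Qt y π)
    {a0 b0 : C1[y0]} {a : C1[y]} (e0 : a0 = z0) (e1 : b0 = s0) (e : a = z) (zz : z0 * z0 = 1)
    (ss : s0 * s0 = 1) (zs : Commute z0 s0) :
    RH (π0 a0) (π0 b0) (π a) (im (qq π0 π) K) (im (qq π0 π) M) := by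
  have k := h.kz.desc hy h0 h1 e0 e zz
  subst e0 e1 e
  have hM := h.mem hy (cent_le_norm_VV ⟨(mem_cent1.2 (mem_cent1.1 a0.2).symm :), (mem_cent1.2 (mem_cent1.1 b0.2).symm :)⟩)
  refine ⟨k, h.gn.qq hM h0 h1, fun c hc => ?_, fun p hp => ?_, fun p hp e => ?_⟩
  · obtain ⟨c, rfl⟩ := h0.sur c
    obtain ⟨d, hd⟩ := h.nf c (h0.normV (Subtype.ext zz) (Subtype.ext ss) (Subtype.ext zs) hc)
    exact ⟨_, mem_qq.2 ⟨c, ⟨d, mem_cent1.2 (congrArg Prod.snd (h.gn.comm hd hM (mem_cent1.1 c.2)).eq)⟩, hd, rfl⟩⟩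
  · obtain ⟨b, c, d, rfl⟩ := mem_qq.1 hp
    rw [h0.VV]
    exact im_norm (zpowers_le.2 (h.nn _ d)) (mem_im_of_mem b.2 (mem_zpowers _))
  · obtain ⟨b, c, d, rfl⟩ := mem_qq.1 hp
    exact mem_qq.2 ⟨b, c, h.cp _ d (mem_cent1.2 (congrArg Subtype.val
      (h0.comm (Subtype.ext zz) (mem_cent1.1 e)).eq)), rfl⟩

/-- the part commuting with a given element -/
def GY (K M : Subgroup (X × G)) (y0 : X) (y : G) : Subgroup (X × G) :=
  (K ⊓ C1[y0].prod C1[y]) ⊔ (M ⊓ C1[y0].prod C1[y])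

theorem GY.ker (h1 : Qt y π) {φ : X' →* G'} (hφ : ∀ p ∈ im (qq π0 π) K ⊔ im (qq π0 π) M, φ p.1 = p.2)
    (hp : p ∈ GY K M y0 y) (e : p.1 = 1) : p.2 ∈ zpowers y := by
  have a : GY K M y0 y ≤ C1[y0].prod C1[y] := sup_le inf_le_right inf_le_right
  have b := mem_im_of_mem (f := qq π0 π) (a hp) hp
  rw [GY, im_sup inf_le_right inf_le_right, im_inf_dom, im_inf_dom] at b
  refine (h1.one (a := ⟨p.2, (a hp).2⟩)).1 ((hφ _ b).symm.trans ?_)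
  exact (congrArg (fun x => φ (π0 x)) (Subtype.ext e : (⟨p.1, (a hp).1⟩ : C1[y0]) = 1)).trans (by simp)

theorem Gr.memY (h : Gr K) (hy : (y0, y) ∈ K) (hp : p ∈ K) (e : Commute p.1 y0) :
    p ∈ K ⊓ C1[y0].prod C1[y] := ⟨hp, mem_cent1.2 e, mem_cent1.2 (congrArg Prod.snd (h.comm hp hy e).eq)⟩

theorem eq_one_of_inv (hy : Odd (orderOf y)) {c r : G} (hc : c ∈ zpowers y) (e : Commute r c)
    (hr : r * y * r⁻¹ = y⁻¹) : c = 1 := by
  obtain ⟨n, rfl⟩ := hc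
  have := commute_iff_conj.1 e
  simp only [← conj_zpow, hr, inv_zpow] at this
  refine orderOf_eq_one_iff.1 ((Nat.coprime_two_right.2
    (hy.of_dvd_nat (orderOf_dvd_of_mem_zpowers ⟨n, rfl⟩))).eq_one_of_dvd (orderOf_dvd_of_pow_eq_one ?_))
  rw [sq]; exact inv_eq_iff_mul_eq_one.1 this

/-- data for the descent -/
structure Dsc (R : Subgroup G) (z g y : G) (w N : ℕ) : Prop where
  es : ES R z
  le : R ≤ C1[y]
  gy : g ∈ C1[y]
  cR : Nat.card R = 2 ^ (2 * w + 1)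
  cC : Nat.card (C1[z] ⊓ C1[y] : Subgroup G) = Nat.card R * N * orderOf y
  nR : C1[z] ⊓ C1[y] ≤ N[R]
  cen : ∀ c ∈ C1[z] ⊓ C1[y], c ∈ C[R] → c ∈ R ⊔ zpowers y
  sQ : g * z * g⁻¹ ∈ R
  sne : g * z * g⁻¹ ≠ z

theorem Qt.inf_bot (h : Qt y π) {R : Subgroup G} (e : ES R z) : R ⊓ kr π = ⊥ :=
  eq_bot_iff.2 fun x hx => let ⟨a, b⟩ := mem_kr.1 hx.2
    congrArg Subtype.val (h.two b (n := 2) (e.pow_four hx.1))

theorem Qt.cent (h : Qt y π) {a : C1[y]} (ha : a * a = 1) : C1[π a] = im π (C1[(a : G)] ⊓ C1[y]) := by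
  rw [im_inf_dom]
  refine le_antisymm (fun c hc => ?_) fun c hc => ?_
  · obtain ⟨c, rfl⟩ := h.sur c
    exact mem_im_of_mem c.2 (mem_cent1.2 (congrArg Subtype.val (h.comm ha (mem_cent1.1 hc)).eq))
  · obtain ⟨c, u, o, rfl⟩ := mem_im.1 hc
    exact mem_cent1.2 ((show Commute ⟨c, u⟩ a from Subtype.ext (mem_cent1.1 o)).map π).eq

theorem Dsc.lt [Finite G] {R : Subgroup G} {g : G} {w N : ℕ} (d : Dsc R z g y w N) (h : Qt y π) :
    LT (im π R) (π ⟨z, d.le d.es.mem⟩) (π ⟨g, d.gy⟩) w N := by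
  have hb := h.inf_bot d.es
  have zz : (⟨z, d.le d.es.mem⟩ : C1[y]) * ⟨z, d.le d.es.mem⟩ = 1 := Subtype.ext d.es.zz
  have es : ES (im π R) (π ⟨z, d.le d.es.mem⟩) := (d.es.subgroupOf d.le).map π fun x hx e =>
    Subtype.ext (mem_bot.1 (hb ▸ ⟨hx, (mem_kr' x.2).2 e⟩ : (x : G) ∈ ⊥))
  have yz : zpowers y ≤ C1[z] ⊓ C1[y] :=
    zpowers_le.2 ⟨mem_cent1.2 (mem_cent1.1 (d.le d.es.mem)).symm, mem_cent1.2 rfl⟩
  have cr := card_im_of_inf_eq_bot d.le hb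
  refine ⟨⟨es, fun c hc => ?_, h.cent zz ▸ im_norm d.nR⟩, cr ▸ d.cR, ?_, ?_, fun e => d.sne ?_⟩
  · have c1 := cent_le_cent1 es.mem hc
    rw [h.cent zz] at c1
    obtain ⟨c, u, o, rfl⟩ := mem_im.1 c1
    rw [mem_im_iff_mem_sup u d.le, h.ker]
    refine d.cen c o fun x hx => ?_
    have : x * (c * x⁻¹ * c⁻¹) ∈ R ⊓ kr π := ⟨mul_mem hx (conj_mem_of_mem_norm (d.nR o) (inv_mem hx)),
      mem_kr.2 ⟨mul_mem (d.le hx) (mul_mem (mul_mem u (inv_mem (d.le hx))) (inv_mem u)), by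
        have := hc _ (mem_im_of_mem (d.le hx) hx)
        rw [show (⟨x * (c * x⁻¹ * c⁻¹), _⟩ : C1[y]) = ⟨x, d.le hx⟩ * ⟨c, u⟩ * (⟨c, u⟩ * ⟨x, d.le hx⟩)⁻¹ from
          Subtype.ext (by simp [mul_assoc]), map_mul, map_inv, map_mul, map_mul, this, mul_inv_cancel]⟩⟩
    rw [hb, mem_bot] at this
    rw [← mul_inv_eq_one, ← this]; group
  · have := card_mul_relIndex yz
    rw [h.cent zz, card_im inf_le_right, h.ker, cr]
    rw [d.cC, Nat.card_zpowers, mul_comm] at this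
    exact Nat.eq_of_mul_eq_mul_right (orderOf_pos y) this
  · rw [← map_inv, ← map_mul, ← map_mul]; exact mem_im_of_mem _ d.sQ
  · rw [← map_inv, ← map_mul, ← map_mul] at e
    exact congrArg Subtype.val (h.eq (conj_mul_self _ zz) zz e)

end Cfsg.Agent.XL
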