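import Cfsg.Agent.TT.Singular

/-! # Pairs of large extraspecial subgroups meeting in a four-group -/

set_option autoImplicit false

namespace Cfsg.Agent.XL

open Cfsg Cfsg.Agent.GT Cfsg.Agent.TT Subgroup

/-- the four-group -/
abbrev VV {G : Type*} [Group G] (z s : G) : Subgroup G := closure ({z, s} : Set G)

/-- the commutator -/
def cm {G : Type*} [Group G] (x y : G) : G := x * y * x⁻¹ * y⁻¹

/-- a pair of large extraspecial subgroups meeting in the four-group -/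
structure TR {G : Type*} [Group G] (Q : Subgroup G) (z : G) (S : Subgroup G) (s : G) : Prop
    extends LP Q z S s where
  inter : ∀ x ∈ Q, x ∈ S → x ∈ VV z s

variable {G : Type*} [Group G] {Q S : Subgroup G} {z s q n x y a b c v w : G}

theorem VV_comm (z s : G) : VV z s = VV s z := by rw [VV, Set.pair_comm]

theorem cm_mul_right (a b c : G) : cm a (b * c) = cm a b * (b * cm a c * b⁻¹) := by
  unfold cm; group

theorem cm_mul_left (a b c : G) : cm (a * b) c = a * cm b c * a⁻¹ * cm a c := by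
  unfold cm; group

theorem cm_conj (g a b : G) : g * cm a b * g⁻¹ = cm (g * a * g⁻¹) (g * b * g⁻¹) := by
  unfold cm; group

theorem cm_inv (a b : G) : (cm a b)⁻¹ = cm b a := by unfold cm; group

theorem cm_eq_one : cm a b = 1 ↔ Commute a b := by
  unfold cm; rw [mul_inv_eq_one, mul_inv_eq_iff_eq_mul]; rfl

theorem cm_right_of (h : Commute a v) (b : G) : cm a (b * v) = cm a b := by
  rw [cm_mul_right, cm_eq_one.2 h]; simp

theorem cm_left_of (h : Commute v b) (a : G) : cm (a * v) b = cm a b := by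
  rw [cm_mul_left, cm_eq_one.2 h]; simp

theorem ES.cm_mem (h : ES Q z) (hx : x ∈ Q) (hy : y ∈ Q) : cm x y = 1 ∨ cm x y = z :=
  h.mem_zp.1 (h.commutator_mem hx hy)

namespace TR

theorem symm (h : TR Q z S s) : TR S s Q z :=
  ⟨h.toLP.symm, fun x a b => VV_comm z s ▸ h.inter x b a⟩

theorem zs (h : TR Q z S s) : z * s = s * z := h.comm.eq

theorem zV (_h : TR Q z S s) : z ∈ VV z s := subset_closure (by simp)

theorem sV (_h : TR Q z S s) : s ∈ VV z s := subset_closure (by simp)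

theorem V_comm (_h : TR Q z S s) (hv : v ∈ VV z s) (hc : c ∈ C1[z] ⊓ C1[s]) : Commute c v := by
  rw [← cent_closure_pair] at hc
  exact (mem_centralizer_iff.1 hc v hv).symm

theorem Y1P (h : TR Q z S s) (hx : x ∈ Q ⊓ C1[s]) : x ∈ C1[z] ⊓ C1[s] :=
  ⟨h.hQ.le_cent1 hx.1, hx.2⟩

theorem Y2P (h : TR Q z S s) (hy : y ∈ S ⊓ C1[z]) : y ∈ C1[z] ⊓ C1[s] :=
  ⟨hy.2, h.hS.le_cent1 hy.1⟩

theorem VY1 (h : TR Q z S s) (hv : v ∈ VV z s) : v ∈ Q ⊓ C1[s] := h.E_le (h.V_le hv)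

theorem VY2 (h : TR Q z S s) (hv : v ∈ VV z s) : v ∈ S ⊓ C1[z] := h.symm.VY1 (VV_comm z s ▸ hv)

theorem VP (h : TR Q z S s) (hv : v ∈ VV z s) : v ∈ C1[z] ⊓ C1[s] := h.Y1P (h.VY1 hv)

theorem V_sq (h : TR Q z S s) (hv : v ∈ VV z s) : v * v = 1 := by
  rcases h.memV.1 hv with rfl | rfl | rfl | rfl
  · simp
  · exact h.hQ.zz
  · exact h.hS.zz
  · rw [mul_assoc, ← mul_assoc z, h.zs, mul_assoc, h.hQ.zz, mul_one, h.hS.zz]

theorem conjQ (h : TR Q z S s) (hc : c ∈ C1[z]) (hx : x ∈ Q) : c * x * c⁻¹ ∈ Q :=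
  conj_mem_of_le_norm h.hQ.nQ hc hx

theorem conjY1 (h : TR Q z S s) (hc : c ∈ C1[z] ⊓ C1[s]) (hx : x ∈ Q ⊓ C1[s]) :
    c * x * c⁻¹ ∈ Q ⊓ C1[s] :=
  ⟨h.conjQ hc.1 hx.1, C1[s].mul_mem (C1[s].mul_mem hc.2 hx.2) (C1[s].inv_mem hc.2)⟩

theorem conjY2 (h : TR Q z S s) (hc : c ∈ C1[z] ⊓ C1[s]) (hy : y ∈ S ⊓ C1[z]) :
    c * y * c⁻¹ ∈ S ⊓ C1[z] := h.symm.conjY1 ⟨hc.2, hc.1⟩ hy

theorem cm_V (h : TR Q z S s) (hx : x ∈ Q ⊓ C1[s]) (hy : y ∈ S ⊓ C1[z]) : cm x y ∈ VV z s := by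
  refine h.inter _ ?_ (mul_mem (h.conjY2 (h.Y1P hx) hy).1 (inv_mem hy.1))
  have := mul_mem hx.1 (h.conjQ hy.2 (inv_mem hx.1))
  simpa [cm, mul_assoc] using this

/-- `[q, p]` lies in `Y₁` -/
theorem cm_Y1 (h : TR Q z S s) (hq : q ∈ Q) (hc : c ∈ C1[z] ⊓ C1[s]) : cm q c ∈ Q ⊓ C1[s] := by
  rw [← cm_inv]; exact inv_mem (h.comm_CV hc hq)

theorem conjP (h : TR Q z S s) (hq : q ∈ Q) (hc : c ∈ C1[z] ⊓ C1[s]) :
    q * c * q⁻¹ ∈ C1[z] ⊓ C1[s] := by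
  have := mul_mem (h.Y1P (h.cm_Y1 hq hc)) hc
  simpa [cm] using this

theorem qz (h : TR Q z S s) (hq : q ∈ Q) : q * z * q⁻¹ = z :=
  mul_inv_eq_iff_eq_mul.2 (h.hQ.zc q hq).symm.eq

theorem conj_sq_mod (h : TR Q z S s) (hy : y ∈ S ⊓ C1[z]) (hx : x ∈ Q) :
    y * y * x * (y * y)⁻¹ = x ∨ y * y * x * (y * y)⁻¹ = x * z := by
  rcases h.hS.sq y hy.1 with e | e <;> rw [e]
  · simp
  · exact h.hQ.conj s h.sQ x hx

theorem e1 (h : TR Q z S s) (hq : q ∈ Q) (hy : y ∈ S ⊓ C1[z]) :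
    cm y (cm q y) = 1 ∨ cm y (cm q y) = z := by
  have ha := h.conjQ hy.2 hq
  have e : cm y (cm q y) = (y * q * y⁻¹) * (y * y * q * (y * y)⁻¹)⁻¹ * (y * q * y⁻¹) * q⁻¹ := by
    unfold cm; group
  rw [e]
  generalize y * q * y⁻¹ = a at ha
  have k : ∀ b, b = q ∨ b = q * z → a * b⁻¹ * a * q⁻¹ ∈ zpowers z := by
    have m := mul_mem ha (inv_mem hq)
    have k1 : a * q⁻¹ * a * q⁻¹ ∈ zpowers z := by
      rw [mul_assoc (a * q⁻¹)]; exact h.hQ.mem_zp.2 (h.hQ.sq _ m)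
    rintro b (rfl | rfl)
    · exact k1
    · have : a * (q * z)⁻¹ * a * q⁻¹ = z * (a * q⁻¹ * a * q⁻¹) := by
        rw [mul_inv_rev, h.hQ.inv, ← mul_assoc a z, ← (h.hQ.zc a ha).eq]; group
      rw [this]; exact mul_mem (mem_zpowers z) k1
  exact h.hQ.mem_zp.1 (k _ (h.conj_sq_mod hy hq))

theorem cj_eq (h : TR Q z S s) (hq : q * s * q⁻¹ = s * z) (hn : n * z * n⁻¹ = s * z) :
    cj[q] S = cj[n] Q := by
  rw [← h.toLP.symm.cj (n⁻¹ * q) (by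
    rw [show n⁻¹ * q * s * (n⁻¹ * q)⁻¹ = n⁻¹ * (q * s * q⁻¹) * n by group, hq, ← hn]; group),
    ← mul_conj, mul_inv_cancel_left]

theorem decomp (h : TR Q z S s) (hqQ : q ∈ Q) (hq : q * s * q⁻¹ = s * z) (hnS : n ∈ S)
    (hn : n * z * n⁻¹ = s * z) (hy : y ∈ S ⊓ C1[z]) :
    ∃ x ∈ Q ⊓ C1[s], q * y * q⁻¹ = n * x * n⁻¹ ∧ (∃ v ∈ VV z s, cm q y = x * v) ∧
      ∃ v ∈ VV z s, y = cm n x * v := by
  have h1 : q * y * q⁻¹ ∈ cj[n] Q := h.cj_eq hq hn ▸ conj_mem_conj.2 hy.1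
  obtain ⟨x, hx, e⟩ := mem_conj_iff_exists.1 h1
  have hP := h.conjP hqQ (h.Y2P hy)
  have hx' : x ∈ Q ⊓ C1[s] := ⟨hx, by
    have := (h.symm.conjP (inv_mem hnS) ⟨hP.2, hP.1⟩).1
    rwa [← e, show n⁻¹ * (n * x * n⁻¹) * n⁻¹⁻¹ = x by group] at this⟩
  have hy' := h.symm.cm_Y1 hnS (show x ∈ C1[s] ⊓ C1[z] from ⟨hx'.2, (h.Y1P hx').1⟩)
  have hx1 := h.cm_Y1 hqQ (h.Y2P hy)
  have hv := h.cm_V hx' hy'
  have e2 : x⁻¹ * cm q y = x⁻¹ * cm n x * x * y⁻¹ := by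
    unfold cm; rw [← e]; group
  have hv1 : x⁻¹ * cm q y ∈ VV z s := h.inter _ (mul_mem (inv_mem hx) hx1.1) (by
    rw [e2]
    have := (h.conjY2 (inv_mem (h.Y1P hx')) hy').1
    rw [inv_inv] at this
    exact mul_mem this (inv_mem hy.1))
  refine ⟨x, hx', e.symm, ⟨_, hv1, by group⟩, (cm n x)⁻¹ * y, ?_, by group⟩
  have hv2 := h.cm_V (inv_mem hx') (inv_mem hy')
  have e3 : (cm n x)⁻¹ * y = (cm n x)⁻¹ * (x⁻¹ * cm q y)⁻¹ * cm n x * (cm x⁻¹ (cm n x)⁻¹)⁻¹ := by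
    rw [e2]; generalize cm n x = d; unfold cm; group
  rw [e3]
  refine mul_mem ?_ (inv_mem hv2)
  rw [((h.V_comm (inv_mem hv1) (h.Y2P hy')).inv_left).eq, inv_mul_cancel_right]
  exact inv_mem hv1

theorem comm_xy (h : TR Q z S s) (hqQ : q ∈ Q) (hq : q * s * q⁻¹ = s * z) (hy : y ∈ S ⊓ C1[z]) :
    Commute y (cm q y) := by
  obtain ⟨-, -, n, hnS, -, -, -, hn⟩ := h.exists_qn
  obtain ⟨x, hx, -, ⟨v, hv, e1⟩, w, hw, e2⟩ := h.decomp hqQ hq hnS hn hy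
  have a1 := h.e1 hqQ hy
  have a2 := h.symm.e1 hnS hx
  have : cm y (cm q y) = (cm x (cm n x))⁻¹ := by
    rw [e1, cm_right_of (h.V_comm hv (h.Y2P hy)), cm_inv]
    conv_lhs => rw [e2]
    exact cm_left_of (h.V_comm hw (h.Y1P hx)).symm _
  rw [← cm_eq_one]
  rcases a1 with a1 | a1
  · exact a1
  · rw [a1] at this
    rcases a2 with a2 | a2 <;> rw [a2] at this
    · exact absurd (by simpa using this) h.hQ.ne
    · exact absurd (this.trans h.hS.inv).symm h.ne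

/-- squares in `Y₂` -/
theorem sq_iff (h : TR Q z S s) (hqQ : q ∈ Q) (hq : q * s * q⁻¹ = s * z) (hy : y ∈ S ⊓ C1[z]) :
    y * y = 1 ↔ cm q y * cm q y = 1 := by
  have c := h.comm_xy hqQ hq hy
  have e : q * (y * y) * q⁻¹ = cm q y * cm q y * (y * y) := by
    rw [mul_assoc (cm q y), ← mul_assoc (cm q y) y y, ← c.eq]; unfold cm; group
  rcases h.hS.sq y hy.1 with a | a <;> rw [a] at e ⊢
  · simp only [mul_one, mul_inv_cancel] at e; simp [← e]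
  · rw [hq, ← h.zs] at e
    rw [← mul_right_cancel e]
    exact iff_of_false h.hS.ne h.hQ.ne

/-- commutators of `Y₁` with `Y₂` -/
theorem cm_sz (h : TR Q z S s) (hx : x ∈ Q ⊓ C1[s]) (hy : y ∈ S ⊓ C1[z]) :
    cm x y = 1 ∨ cm x y = s * z := by
  obtain ⟨q, hqQ, n, hnS, hqz, hq, hns, hn⟩ := h.exists_qn
  have hV := h.cm_V hx hy
  have hxy := h.cm_Y1 hqQ (h.Y2P hy)
  have hyx := h.symm.cm_Y1 hnS (show x ∈ C1[s] ⊓ C1[z] from ⟨hx.2, (h.Y1P hx).1⟩)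
  have e1 : q * cm x y * q⁻¹ = cm x (cm q y) * cm x y := by
    have : q * y * q⁻¹ = cm q y * y := by unfold cm; group
    rw [cm_conj, this]
    have k : cm (q * x * q⁻¹) (cm q y * y) = cm x (cm q y * y) := by
      rcases h.hQ.conj q hqQ x hx.1 with e | e <;> rw [e]
      exact cm_left_of (h.V_comm h.zV (mul_mem (h.Y1P hxy) (h.Y2P hy))).symm _
    rw [k, cm_mul_right, (h.V_comm hV (h.Y1P hxy)).eq, mul_inv_cancel_right]
  have e2 : n * cm x y * n⁻¹ = cm x y * cm (cm n x) y := by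
    have : n * x * n⁻¹ = cm n x * x := by unfold cm; group
    rw [cm_conj, this]
    have k : cm (cm n x * x) (n * y * n⁻¹) = cm (cm n x * x) y := by
      rcases h.hS.conj n hnS y hy.1 with e | e <;> rw [e]
      exact cm_right_of (h.V_comm h.sV (mul_mem (h.Y2P hyx) (h.Y1P hx))) _
    rw [k, cm_mul_left, (h.V_comm hV (h.Y2P hyx)).eq, mul_inv_cancel_right]
  have e3 : n * cm x (cm q y) * n⁻¹ = q * cm (cm n x) y * q⁻¹ := by
    obtain ⟨x', hx', a1, ⟨v, hv, a2⟩, -⟩ := h.decomp hqQ hq hnS hn hy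
    obtain ⟨y', hy', b1, ⟨w, hw, b2⟩, -⟩ := h.symm.decomp hnS (hn.trans h.zs.symm) hqQ
      (hq.trans h.zs.symm) hx
    rw [VV_comm] at hw
    rw [a2, b2, cm_right_of (h.V_comm hv (h.Y1P hx)), cm_left_of (h.V_comm hw (h.Y2P hy)).symm,
      cm_conj, cm_conj, a1, b1]
  rcases h.memV.1 hV with e | e | e | e
  · exact Or.inl e
  · rw [e] at e1 e2
    rw [hqz] at e1
    have k : cm x (cm q y) = 1 := by simpa using e1
    rw [k] at e3
    have k2 : cm (cm n x) y = 1 := by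
      have := e3.symm; simpa [mul_inv_eq_one] using this
    rw [k2, hn] at e2
    exact absurd (by simpa using e2) h.hS.ne
  · rw [e] at e1 e2
    rw [hns] at e2
    have k2 : cm (cm n x) y = 1 := by simpa using e2
    rw [k2] at e3
    have k : cm x (cm q y) = 1 := by simpa [mul_inv_eq_one] using e3
    rw [k, hq] at e1
    exact absurd (by simpa using e1) h.hQ.ne
  · exact Or.inr e

/-- the centralizer of `Y₁` in `Q` -/
theorem V_of_cent (h : TR Q z S s) (hx : x ∈ Q) (hc : ∀ y ∈ Q ⊓ C1[s], Commute y x) :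
    x ∈ VV z s :=
  h.memV.2 (h.hQ.cent_cent h.sQ hx fun y a b => hc y ⟨a, mem_cent1.2 b⟩)

theorem szV (h : TR Q z S s) : s * z ∈ VV z s := mul_mem h.sV h.zV

theorem conj_V (h : TR Q z S s) (hq : q ∈ Q) (hv : v ∈ VV z s) : q * v * q⁻¹ ∈ VV z s := by
  rcases h.hQ.conj q hq v (h.VY1 hv).1 with e | e <;> rw [e]
  exacts [hv, mul_mem hv h.zV]

end TR

end Cfsg.Agent.XL
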