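import Cfsg.Agent.XL.U4m
import Cfsg.Agent.XL.U4c1
import Cfsg.Agent.XL.U4c2
import Cfsg.Agent.XL.U4c3

/-! # Groups of type `U₄(3)` -/

set_option autoImplicit false
set_option maxRecDepth 100000

namespace Cfsg.Agent.XL.U4

open Cfsg Cfsg.Agent.GT Cfsg.Agent.TT Cfsg.Agent.TC Cfsg.Agent.M24 Cfsg.Agent.Leech Subgroup MulAction
open scoped Pointwise

/-- normalizer of the four-group -/
def Nl : List ℕ := [0, 1, 2, 3, 4, 5, 6, 7]
/-- first member -/
def M1 : List ℕ := [0, 1, 2, 3, 4, 5, 6, 7, 8, 9]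
/-- second member -/
def M2 : List ℕ := [0, 1, 2, 3, 4, 5, 6, 7, 10, 11]
/-- the element of order three -/
def gw : List ℕ := [6, 7, 8, 3, 7, 6]

theorem s1 : stepChk f iv 12 bs [Kl, Nl] [pww [3, 7, 8] 5, pww [3, 7, 8, 7, 8] 5] M1
    [0, 1, 2, 3, 4, 5, 6, 8, 9] U4c1.iv U4c1.base 895 = true ∧
    orbLe fS M1 [0, 1, 2, 3, 4, 5, 6, 8, 9] F (2 ^ 126) 15 tF1 = true := by decide +kernel

theorem s2 : stepChk f iv 12 bs [Kl, Nl] [pww [7, 10] 5, pww [2, 7, 10, 7, 10] 5] M2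
    [0, 1, 2, 3, 4, 5, 6, 10, 11] U4c2.iv U4c2.base 895 = true ∧
    orbLe fS M2 [0, 1, 2, 3, 4, 5, 6, 10, 11] F (2 ^ 126) 15 tF2 = true := by decide +kernel

theorem s3 : stepChk f iv 12 bs [Kl, Nl, M1, M2] [cmw iv [10] (invw iv gw ++ [10] ++ gw)] Al Kl
    U4c3.iv U4c3.base 3967 = true := by decide +kernel

variable {G : Type*} [Group G] [Finite G] {v : ℕ → X0 × G} {K : Subgroup (X0 × G)} {z : G}

/-- the starting amalgam -/
structure St (v : ℕ → X0 × G) (K : Subgroup (X0 × G)) (z : G) : Prop where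
  am : AM m v iv 12
  kz : KZ K (m 0, z)
  le : Mb v Kl ≤ K
  gn : Gr (Mb v Nl)

theorem start4 {X : Type*} [Group X] [Finite X] {Q0 : Subgroup X} {z0 g0 : X} (h0 : LT Q0 z0 g0 2 36)
    (ht0 : ∀ x ∈ Q0, x ∈ cj[g0] Q0 → x ∈ VV z0 (g0 * z0 * g0⁻¹)) {Q : Subgroup G} {g : G}
    (h : LT Q z g 2 36) (ht : ∀ x ∈ Q, x ∈ cj[g] Q → x ∈ VV z (g * z * g⁻¹)) :
    ∃ A B Δ K, KH (qP 2) (vP 2 1) (vP 2 4) A B Δ K ∧ A.z = z0 ∧ A.s = g0 * z0 * g0⁻¹ ∧ A.Q = Q0 ∧
      A.S = cj[g0] Q0 ∧ B.z = z := by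
  obtain ⟨π, hB⟩ := h.xp4 ht
  obtain ⟨π0, hA⟩ := h0.xp4 ht0
  obtain ⟨Δ, K, hK⟩ := exists_KH4 hA hB
  exact ⟨_, _, Δ, K, hK, rfl, rfl, rfl, rfl, rfl⟩

theorem inv_ok : ∀ i < 12, iv i < 12 ∧ m (iv i) * m i = 1 ∧ (iv i = 7 ↔ i = 7) ∧
    (i ≠ 7 → Commute (m i) (m 0)) := fun i hi => by
  have c : nall 12 (fun i => band (band (Nat.ble (Nat.succ (iv i)) 12) (eq [i, iv i] []))
    (band (Nat.beq (iv i) 7 == Nat.beq i 7) (bor (Nat.beq i 7) (cb [i] [0])))) = true := by decide +kernel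
  replace c := (nall_iff _ _).1 c i hi
  simp only [band_eq, bor_eq, Bool.and_eq_true, Bool.or_eq_true, md.eq_iff num, md.cm_iff num,
    Nat.ble_eq, evl, one_mul, beq_iff_eq, Nat.beq_eq] at c
  exact ⟨c.1.1, c.1.2.2, by rw [← Nat.beq_eq, c.2.1, Nat.beq_eq], fun e => (c.2.2.resolve_left e).2⟩

theorem nl_ok : ∀ i ∈ Nl, i < 12 ∧ (i ≠ 7 → i ≠ 6 → m i ∈ cj[m 6 * m 7] (Mb m Ql) ∨
    Commute (m i) (m 1) ∧ (m i ∈ Mb m Ql ∨ ∃ r, m i ^ (2 * r + 1) = 1)) :=
  fun i hi => ⟨by revert i; decide, fun a b => by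
    have c : lall Nl (fun i => bor (bor (Nat.beq i 7) (Nat.beq i 6)) (bor (iw wQ ([7, 6] ++ [i] ++ [6, 7]))
      (band (cb [i] [1]) (lm Ql i)))) = true := by decide +kernel
    simp only [lall_iff, band_eq, bor_eq, Bool.and_eq_true, Bool.or_eq_true, md.cm_iff num, Nat.beq_eq,
      ev1, lm_iff] at c
    exact ((c i hi).resolve_left (by simp [a, b])).imp (fun e => ev1 i ▸ mem_S e)
      fun e => ⟨e.1.2, Or.inl (Mb.of e.2)⟩⟩

theorem exists_St {Q : Subgroup G} {g : G} (h : LT Q z g 2 36)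
    (ht : ∀ x ∈ Q, x ∈ cj[g] Q → x ∈ VV z (g * z * g⁻¹)) : ∃ v K, St v K z := by
  obtain ⟨A, B, Δ, K, hK, e1, e2, e3, e4, rfl⟩ := start4 lt0 ht0 h ht
  obtain ⟨v, h1, h2, h3⟩ := hK.start e1 (e2.trans gz) e3 e4 (i0 := 6)
    (by norm_num) (Mb.of (by decide))
    (by simpa [evl, mul_assoc] using md.eq (w := [1, 6]) (w' := [6, 0, 1]) (by decide +kernel))
    (ev1 7 ▸ mem_S (by decide +kernel))
    (by simpa [evl, mul_assoc] using md.eq (w := [0, 7]) (w' := [7, 0, 1]) (by decide +kernel))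
    inv_ok nl_ok
  exact ⟨v, K, h1, e1 ▸ hK.kz, Mb.le fun i hi => h2 i (by revert i; decide) (by revert i; decide), h3⟩

theorem St.gk (h : St v K z) : Gr (Mb v Kl) := h.kz.gr.mono h.le

theorem St.v0 (h : St v K z) : v 0 = (m 0, z) :=
  h.kz.gr.ext (h.le (Mb.of (by decide))) h.kz.mem (h.am.fst 0 (by norm_num))

theorem St.fpf (h : St v K z) {A w : List ℕ} {ws rs : List (List ℕ)} (hl : Lists m 12 (Mb m A) ws)
    (hp : ∀ w, pK w 0 = true → pA A ws rs w = true) (hw : w ∈ rs)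
    (hc : band (band (band (llt 12 A) (lm A 0)) (band (lsub A Kl) (lsub A Nl)))
      (band (eq (pww w 5) []) (lall w fun i => band (band (Nat.ble (Nat.succ i) 12) (bor (lm Kl i) (lm Nl i)))
        (nmChk f 12 bs A ws [i]))) = true) : evl v (pww w 5) = 1 := by
  simp only [band_eq, bor_eq, Bool.and_eq_true, Bool.or_eq_true, lsub_iff, lm_iff, lall_iff, Nat.ble_eq] at hc
  obtain ⟨⟨⟨a, b⟩, c, d⟩, e, k⟩ := hc
  refine h.kz.fpf' h.am (llt_iff.1 a) ((Mb.mono c).trans h.le) (h.v0 ▸ Mb.of b) (fun i hi => ⟨(k i hi).1.1, ?_⟩)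
    (md.eq e) fun c hc hc' => ?_
  · have := ev1 i ▸ md.norm (k i hi).2
    rw [← h.am.fst i (k i hi).1.1] at this
    exact (k i hi).1.2.elim (fun o => h.am.norm h.gk (llt_iff.1 a) (Mb.mono c) (Mb.of o) this)
      fun o => h.am.norm h.gn (llt_iff.1 a) (Mb.mono d) (Mb.of o) this
  · obtain ⟨u, a1, rfl, a2⟩ := allK hc
    obtain ⟨b1, b2⟩ := pA_sound hl (hp u a2) a1 a hc'
    exact ⟨b1, b2 w hw (llt_iff.2 fun i hi => (k i hi).1.1)⟩

theorem St.g1 (h : St v K z) : Gr (Mb v M1) := by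
  have p : ∀ w, pK w 0 = true → pA [0, 1, 2, 4] wA1 [[3, 7, 8], [3, 7, 8, 7, 8]] w = true := fun w a => by
    simp only [pK, band_eq, Bool.and_eq_true] at a; exact a.1.2.1
  exact (h.am.step md U4c1.cert rfl (by simp [h.gk, h.gn]) (by
      simp [h.fpf lA1 p (w := [3, 7, 8]) (by simp) (by decide +kernel),
        h.fpf lA1 p (w := [3, 7, 8, 7, 8]) (by simp) (by decide +kernel)])
    (h.gk.mono (Mb.mono (by decide))) s1.1 (finEnc 126).mask_inj actS mask_Fz s1.2).1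

theorem St.g2 (h : St v K z) : Gr (Mb v M2) := by
  have p : ∀ w, pK w 0 = true → pA [0, 1, 3, 5] wA2 [[7, 10], [2, 7, 10, 7, 10]] w = true := fun w a => by
    simp only [pK, band_eq, Bool.and_eq_true] at a; exact a.1.2.2
  exact (h.am.step md U4c2.cert rfl (by simp [h.gk, h.gn]) (by
      simp [h.fpf lA2 p (w := [7, 10]) (by simp) (by decide +kernel),
        h.fpf lA2 p (w := [2, 7, 10, 7, 10]) (by simp) (by decide +kernel)])
    (h.gk.mono (Mb.mono (by decide))) s2.1 (finEnc 126).mask_inj actS mask_Fz s2.2).1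

theorem factE {c : X0} (hc : c ∈ C1[m 0]) :
    (Commute c (m 8) → (Commute c (m 10) → c ∈ Mb m [8, 10] ∨ c * m 0 ∈ Mb m [8, 10]) ∧
      (Odd (orderOf c) → c ∈ Mb m [8, 10])) ∧
    (c ∈ N[Mb m [8, 10]] → Commute (c * c) (m 8) ∧ Commute (c * c) (m 10)) := by
  obtain ⟨w, a, rfl, b⟩ := allK hc
  simp only [pK, band_eq, bor_eq, Bool.and_eq_true, Bool.or_eq_true, Bool.not_eq_true', ← Bool.not_eq_true,
    md.cm_iff num, md.eq_iff num, md.inw_iff num lE, List.any_eq_true, evl_append, evl_pww, evl,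
    one_mul] at b
  refine ⟨fun c1 => ?_, fun c1 => ?_⟩
  · obtain ⟨b1, b2⟩ := b.2.1.resolve_left fun e => e ⟨⟨a, by decide⟩, c1⟩
    refine ⟨fun c2 => (b1.resolve_left fun e => e ⟨⟨a, by decide⟩, c2⟩).imp And.right And.right,
      fun o => (b2.resolve_right fun e => e.2 ⟨⟨pww_lt a 3, by simp⟩, orderOf_dvd_iff_pow_eq_one.1 ?_⟩).2⟩
    exact (Nat.coprime_two_right.2 o).pow_right 2 |>.dvd_of_dvd_mul_left (orderOf_dvd_of_pow_eq_one e.1.2)
  · have k : ∀ i < 12, i ∈ [8, 10] → ∃ e ∈ wE, ((∀ j ∈ i :: w, j < 12) ∧ ∀ j ∈ w ++ e, j < 12) ∧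
        evl m w * m i = evl m e * evl m w := fun i hi h => by
      obtain ⟨e, he, d⟩ := lE.2 _ (conj_mem_of_mem_norm c1 (Mb.of h))
      exact ⟨e, he, ⟨List.forall_mem_cons.2 ⟨hi, a⟩, List.forall_mem_append.2 ⟨a, (lE.1 e he).1⟩⟩,
        by rw [d, inv_mul_cancel_right]⟩
    exact (b.2.2.resolve_left fun e => e ⟨k 8 (by norm_num) (by simp), k 10 (by norm_num) (by simp)⟩).imp
      And.right And.right

theorem St.J (h : St v K z) (hc : Nat.card C1[z] = 1152) (z1 : z ≠ 1) :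
    evl v (cmw iv [10] (invw iv gw ++ [10] ++ gw)) = 1 := by
  let u : ℕ → G := fun i => (v i).2
  have u0 : u 0 = z := congrArg Prod.snd h.v0
  have l8 : ∀ i ∈ [8, 10], i < 12 := by decide
  have eK : Mb v [8, 10] ≤ K := (Mb.mono (by decide)).trans h.le
  have mp : (Mb v [8, 10]).map (MonoidHom.snd X0 G) = Mb u [8, 10] := Mb.map _
  have r1 : ∀ {w w'}, band (band (lsub w M1) (lsub w' M1)) (eq w w') = true → evl u w = evl u w' :=
    fun e => by rw [← evl_snd', ← evl_snd', h.am.eq' md h.g1 e]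
  have rK : ∀ {w w'}, band (band (lsub w Kl) (lsub w' Kl)) (eq w w') = true → evl u w = evl u w' :=
    fun e => by rw [← evl_snd', ← evl_snd', h.am.eq' md h.gk e]
  have mE : ∀ p ∈ K, p.1 ∈ Mb m [8, 10] ↔ p.2 ∈ Mb u [8, 10] := fun p hp =>
    ⟨fun a => let ⟨r, b, c⟩ := h.am.lift l8 a; mp ▸ ⟨r, b, congrArg Prod.snd (h.kz.gr.ext (eK b) hp c)⟩,
      fun a => let ⟨r, b, c⟩ := mp.ge a; h.kz.ext' (eK b) hp c ▸ h.am.mem l8 b⟩
  have cE : Nat.card (Mb u [8, 10]) = 9 := by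
    rw [← mp, ← ((md.enum' num (t := tE) (ls := [8, 10]) (P := fun _ _ => true) (by decide +kernel)).2 (126 ^ 4)
      (by decide +kernel)).trans (show _ = 9 by decide +kernel), ← h.am.map l8,
      card_map_of fun p b => h.kz.gr' p (eK b), card_map_of fun p b => h.kz.gr p (eK b)]
  have nE : ∀ {w}, band (lsub w Kl) (band (llt 12 w) (nmChk f 12 bs [8, 10] wE w)) = true →
      evl u w ∈ N[Mb u [8, 10]] := fun {w} e => by
    simp only [band_eq, Bool.and_eq_true] at e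
    have := h.am.norm h.gk l8 (Mb.mono (by decide)) (Mb.ev' e.1) (h.am.ev (llt_iff.1 e.2.1) ▸ md.norm e.2.2)
    exact mp ▸ le_normalizer_map _ ⟨_, this, evl_snd' w⟩
  have cm : ∀ p ∈ K, ∀ i ∈ Kl, Commute p.1 (m i) ↔ Commute p.2 (u i) := fun p hp i hi => by
    have a := h.le (Mb.of (u := v) hi)
    rw [← h.am.fst i (by clear a; revert i; decide)]
    exact ⟨fun e => congrArg Prod.snd (h.kz.gr.comm hp a e).eq, fun e => congrArg Prod.fst (h.kz.comm' hp a e).eq⟩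
  have c1 : ∀ p ∈ K, p.1 ∈ C1[m 0] := fun p hp => mem_cent1.2 (congrArg Prod.fst (mem_cent1.1 (h.kz.cent hp)))
  have zE : Mb u [8, 10] ≤ C1[z] := mp ▸ by
    rintro _ ⟨p, hp, rfl⟩; exact mem_cent1.2 (congrArg Prod.snd (mem_cent1.1 (h.kz.cent (eK hp))))
  have c810 : Commute (u 8) (u 10) := by
    simpa [evl, Commute, SemiconjBy] using (rK (w := [10, 8]) (w' := [8, 10]) (by decide +kernel) :)
  have cC : ∀ c, Commute c (u 8) → Commute c (u 10) → c ∈ C[Mb u [8, 10]] := fun c a b x hx =>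
    (Mb.cent (by simp [a, b]) hx).symm
  have gz : evl u gw * z * (evl u gw)⁻¹ = evl u [0, 1, 4] := mul_inv_eq_iff_eq_mul.2 (by
    rw [← u0, ← evl_append]; exact r1 (w := 0 :: gw) (by decide +kernel))
  have key := loc3 (E := Mb u [8, 10]) (z := z) (d := u 8) (g := evl u gw) (u := evl u [3, 6, 7, 6])
    (t := evl u [1, 3, 5]) (by simpa [evl, u0] using (rK (w := [0, 0]) (w' := []) (by decide +kernel) :)) z1 cE
    (Mb.le fun i hi => by
      rcases List.mem_pair.1 hi with rfl | rfl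
      exacts [cC _ (Commute.refl _) c810, cC _ c810.symm (Commute.refl _)])
    (Mb.of (by simp))
    (orderOf_eq_prime (by simpa [evl, pow_succ] using (rK (w := [8, 8, 8]) (w' := []) (by decide +kernel) :))
      fun e => md.ne' num (w := [8]) (w' := []) (by decide +kernel) (by
        rw [ev1, ← h.am.fst 8 (by norm_num), h.kz.gr' _ (h.le (Mb.of (by decide))) e]; rfl))
    zE (syl_mk Nat.prime_three zE (IsPGroup.of_card (n := 2) cE) (by
      have := card_mul_relIndex zE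
      rw [cE, hc] at this; omega))
    (fun d hd hd' => by
      obtain ⟨c, hK⟩ := h.kz.snd d hd
      exact (((factE (c1 _ hK)).1 ((cm _ hK 8 (by decide)).2 (hd' _ (Mb.of (by simp))).symm)).1
        ((cm _ hK 10 (by decide)).2 (hd' _ (Mb.of (by simp))).symm)).imp (mE _ hK).1
        (mE _ (mul_mem hK h.kz.mem)).1)
    (fun d hd hd' ho => by
      obtain ⟨c, hK⟩ := h.kz.snd d hd
      refine (mE _ hK).1 (((factE (c1 _ hK)).1 ((cm _ hK 8 (by decide)).2 hd')).2 (ho.of_dvd_nat ?_))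
      exact orderOf_dvd_of_pow_eq_one (congrArg Prod.fst (h.kz.gr' _ (pow_mem hK _) (pow_orderOf_eq_one d))))
    (fun d hd hd' => by
      obtain ⟨c, hK⟩ := h.kz.snd d hd
      obtain ⟨a, b⟩ := (factE (c1 _ hK)).2 (Mb.norm fun i hi => by
        have hi' := eK (Mb.of (u := v) hi)
        rw [← h.am.fst i (l8 i hi)]
        exact (mE _ (mul_mem (mul_mem hK hi') (inv_mem hK))).2 (conj_mem_of_mem_norm hd' (Mb.of hi)))
      exact cC _ ((cm _ (mul_mem hK hK) 8 (by decide)).1 a) ((cm _ (mul_mem hK hK) 10 (by decide)).1 b))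
    (by simpa [evl, evl_append, Commute, SemiconjBy] using (r1 (w := 8 :: gw) (w' := gw ++ [8]) (by decide +kernel) :))
    (evl_pww (v := u) gw 3 ▸ r1 (w' := []) (by decide +kernel))
    (by rw [gz, ← u0]; simpa [evl, Commute, SemiconjBy, mul_assoc] using
      (rK (w := [0, 1, 4, 0]) (w' := [0, 0, 1, 4]) (by decide +kernel) :))
    (fun e => md.ne' num (w := [0, 1, 4]) (w' := [0]) (by decide +kernel) (by
      rw [← h.am.ev (by decide), ← h.am.ev (by decide), h.kz.ext' (h.le (Mb.ev (w := [0, 1, 4]) (by decide)))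
        (h.le (Mb.ev (w := [0]) (by decide))) (by rw [evl_snd', evl_snd', ← gz, e, ← u0]; simp [evl, u])]))
    (gz ▸ nE (by decide +kernel)) (nE (by decide +kernel))
    (by rw [gz, mul_inv_eq_iff_eq_mul, ← u0]; simpa [evl, mul_assoc] using
      (rK (w := [0, 1, 4, 1, 3, 5]) (w' := [1, 3, 5, 0, 0, 1, 4]) (by decide +kernel) :))
    (mul_inv_eq_iff_eq_mul.2 (by
      rw [← evl_append]; exact r1 (w := [8, 3, 6, 7, 6]) (by decide +kernel)))
    (by
      rw [mul_inv_eq_iff_eq_mul, eq_inv_mul_iff_mul_eq, ← evl_append]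
      simpa [evl, evl_append, mul_assoc] using (r1 (w := gw ++ [3, 6, 7, 6] ++ [8]) (w' := [3, 6, 7, 6]) (by decide +kernel) :))
  refine (cmw_ok h.am.inv (by decide) (by decide +kernel) ?_).2
  have e : evl v (invw iv gw ++ [10] ++ gw) = evl v gw * v 10 * (evl v gw)⁻¹ := by
    rw [evl_append, evl_append, evl_invw fun i hi => (h.am.inv i (by revert i; decide)).2]
    simp [evl, mul_assoc]
  refine Prod.ext ?_ ?_
  · rw [Prod.fst_mul, Prod.fst_mul, h.am.ev (by decide), h.am.ev (by decide +kernel)]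
    exact ((md.cm_iff num).1 (by decide +kernel)).2
  · have := key (conj_mem_conj.2 (Mb.of (i := 10) (by simp))) _ (Mb.of (i := 10) (by simp))
    rw [e]
    simpa [evl, evl_snd', u] using this

theorem iso {Q : Subgroup G} {g : G} (h : LT Q z g 2 36)
    (ht : ∀ x ∈ Q, x ∈ cj[g] Q → x ∈ VV z (g * z * g⁻¹)) : Nonempty (X0 ≃* G) := by
  obtain ⟨v, K, s⟩ := exists_St h ht
  have hc : Nat.card C1[z] = 1152 := by rw [h.cC, h.cQ']; norm_num
  obtain ⟨φ, h1, h2, h3, -⟩ := s.kz.exists_hom s.am (ls := Al) (ls0 := Kl) (by decide)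
    (s.am.step md U4c3.cert rfl (by simp [s.gk, s.gn, s.g1, s.g2]) (List.forall_mem_singleton.2 (s.J hc h.ne)) s.gk s3
      (finEnc 126).mask_inj actS mask_Fz oF).1 K_top.2
    (fun i hi => ⟨by revert i; decide, s.le (Mb.of hi)⟩) K_top.1.le h.ne
  change C1[z] ≤ _ at h3
  change φ (m 0) = z at h2
  have h4 : ∀ t ∈ φ.range, t * t = 1 → t ≠ 1 → ∃ y ∈ φ.range, t = y * z * y⁻¹ := by
    rintro _ ⟨t, rfl⟩ a b
    obtain ⟨y, e⟩ := cls (x := t) (h1 (by rw [map_mul, a, map_one])) fun e => b (by rw [e, map_one])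
    exact ⟨φ y, ⟨y, rfl⟩, by rw [e, map_mul, map_mul, map_inv, h2]⟩
  have h5 : Nat.card φ.range = 3265920 := card_X ▸ (Nat.card_congr (φ.ofInjective h1).toEquiv).symm
  have u : UF ⊤ φ.range z := ⟨le_top, ⟨_, h2⟩, h.zz, h.ne, fun y _ hy => by
    obtain ⟨k, hk, e⟩ := h4 _ hy (by simpa using conj_mul_self y⁻¹ h.zz) (fun e => h.ne (by simpa [mul_assoc] using congrArg (fun x => y * x * y⁻¹) e))
    exact (mul_mem_cancel_right hk).1 (h3 (mem_cent1.2 (by
      rw [mul_assoc, ← inv_mul_cancel_right (k * z) k, ← e]; group)))⟩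
  refine (u.se h4).elim (fun e => ⟨MulEquiv.ofBijective φ ⟨h1, fun y => e (mem_top y)⟩⟩) fun ⟨D, a, b, c⟩ => ?_
  have := card_mul_relIndex h3
  rw [hc, h5] at this
  replace this : (C1[z]).relIndex φ.range = 2835 := by omega
  obtain ⟨_, ⟨x, rfl⟩, _, ⟨y, rfl⟩, d1, d2, d3⟩ := pq_comm a b (p := 5) (q := 7) (by norm_num) (by norm_num)
    (by norm_num) (by norm_num) (Dvd.dvd.trans (by rw [this]; norm_num) c) (by rw [h5]; norm_num) (by rw [h5]; norm_num)
  rw [orderOf_injective φ h1] at d1 d2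
  exact absurd (h1 (by rw [map_mul, map_mul, d3.eq])) (no35 d1 d2)

end Cfsg.Agent.XL.U4
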