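import Cfsg.Agent.XL.U4d
import Cfsg.Agent.XL.Am
import Cfsg.Agent.XL.Conv
import Cfsg.Agent.XL.L3
import Cfsg.Agent.XL.SE
import Cfsg.Agent.Leech.U43

/-! # The model of `U₄(3)` -/

set_option autoImplicit false
set_option maxRecDepth 100000

namespace Cfsg.Agent.XL.U4

open Cfsg Cfsg.Agent.GT Cfsg.Agent.TT Cfsg.Agent.TC Cfsg.Agent.M24 Cfsg.Agent.Leech Subgroup MulAction
open scoped Pointwise

/-- the model -/
abbrev X0 : Type := gen ((finEnc 126).code 7) (gensOf U43.cB)
/-- action of the letters -/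
noncomputable def f (i q : ℕ) : ℕ := apw (nat_lit 7) (nat_lit 127) (lget cs (nat_lit 0) i) q
/-- action on subsets -/
noncomputable def fS (i q : ℕ) : ℕ :=
  force (lget cs (nat_lit 0) i) fun c => actG (nat_lit 7) (nat_lit 127) (nat_lit 126) c q
/-- the base -/
def bs : List ℕ := [0, 2, 1, 62]
/-- inverse letters -/
noncomputable def iv : ℕ → ℕ := lget [0, 1, 2, 3, 4, 5, 6, 7, 9, 8, 11, 10] 0

theorem card_X : Nat.card X0 = 3265920 := by
  rw [(chkG_sound (finEnc 126) rfl (by norm_num) U43.chk_B).2.1]; decide +kernel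

theorem exists_m : ∃ m : ℕ → X0, ∀ i < 12, (finEnc 126).code 7 (m i).1 = lget cs 0 i := by
  have h : nall 12 (fun i => force (lget cs 0 i) fun c => band (isPermG 7 127 126 c)
    (sift (mulG 7 127 126) (oneG 7 126) (apw 7 127) U43.cB c)) = true := by decide +kernel
  simp only [nall_iff, force_eq, band_eq, Bool.and_eq_true] at h
  have : ∀ i, ∃ x : X0, i < 12 → (finEnc 126).code 7 x.1 = lget cs 0 i := fun i => by
    by_cases hi : i < 12
    · obtain ⟨g, e⟩ := (finEnc 126).exists_code (h i hi).1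
      exact ⟨⟨g, ((chkG_sound (finEnc 126) rfl (by norm_num) U43.chk_B).2.2 g).2 (e ▸ (h i hi).2)⟩,
        fun _ => e⟩
    · exact ⟨1, fun h => absurd h hi⟩
  choose m hm using this
  exact ⟨m, hm⟩

/-- the letters -/
noncomputable def m : ℕ → X0 := exists_m.choose

theorem md : Md (Fin.val : Fin 126 → ℕ) m f 12 bs := by
  refine ⟨Fin.val_injective, fun i hi x => ?_, fun g hg => ?_⟩
  · rw [f, ← exists_m.choose_spec i hi]
    exact ((finEnc 126).ap_code rfl (by norm_num) _ x).symm
  · have h := U43.chk_B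
    simp only [chkG, band_eq, Bool.and_eq_true, force_eq, List.all_eq_true, decide_eq_true_iff] at h
    obtain ⟨h1, -⟩ := chain_sound ((finEnc 126).gc rfl (by norm_num)) ((finEnc 126).ac rfl (by norm_num))
      (fun L hL => ⟨(finEnc 126).pt L.b, trivial, (finEnc 126).idx_pt _ (h.1.2 L hL)⟩) h.2
      ((finEnc 126).valid_of_isPerm h.1.1)
    have := h1.mem_drop 4 g.2 fun L hL x _ e => hg x (by
      rw [show x.val = L.b from e]; clear e; revert L; decide)
    exact Subtype.ext (by rwa [show gensOf (List.drop 4 U43.cB) = [] from rfl, gen_nil, mem_bot] at this)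

theorem num : Md.Num (Fin.val : Fin 126 → ℕ) 126 bs :=
  ⟨fun x => x.2, fun q hq => ⟨⟨q, by revert q; decide⟩, rfl⟩⟩

theorem actS (i : ℕ) (hi : i < 12) (s : Finset (Fin 126)) :
    (finEnc 126).mask (m i • s) = fS i ((finEnc 126).mask s) := by
  rw [fS, force_eq, ← exists_m.choose_spec i hi]
  exact ((finEnc 126).act_mask rfl (by norm_num) _ s).symm

/-- fixed points of the involution -/
noncomputable def Fz : Finset (Fin 126) := (finEnc 126).unmask F

theorem mask_Fz : (finEnc 126).mask Fz = F := (finEnc 126).mask_unmask (by decide +kernel)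

theorem cent_le : C1[m 0] ≤ stabilizer X0 Fz := cent_le_stab fun x => by
  have h : nall 126 (fun q => F.testBit q == Nat.beq (f 0 q) q) = true := by decide +kernel
  have := (nall_iff _ _).1 h x x.2
  rw [Fz, Enc.mem_unmask, Fin.ext_iff, md.act 0 (by norm_num), ← Nat.beq_eq, ← eq_of_beq this]
  rfl

/-- all letters -/
def Al : List ℕ := [0, 1, 2, 3, 4, 5, 6, 7, 8, 9, 10, 11]
/-- the centralizer -/
def Kl : List ℕ := [0, 1, 2, 3, 4, 5, 6, 8, 9, 10, 11]
/-- the extraspecial group -/
def Ql : List ℕ := [0, 1, 2, 3, 6]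

theorem oF : orbLe fS Al Kl F (2 ^ 126) 2835 tF = true := by decide +kernel

theorem lQ : Lists m 12 (Mb m Ql) wQ := md.lists num (t := tQ) (by decide +kernel)
theorem lA1 : Lists m 12 (Mb m [0, 1, 2, 4]) wA1 := md.lists num (t := tA1) (by decide +kernel)
theorem lA2 : Lists m 12 (Mb m [0, 1, 3, 5]) wA2 := md.lists num (t := tA2) (by decide +kernel)
theorem lE : Lists m 12 (Mb m [8, 10]) wE := md.lists num (t := tE) (by decide +kernel)

/-- equality of words -/
noncomputable abbrev eq : List ℕ → List ℕ → Bool := eqw f 12 bs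
/-- commuting words -/
noncomputable abbrev cb : List ℕ → List ℕ → Bool := cmb f 12 bs
/-- membership -/
noncomputable abbrev iw : List (List ℕ) → List ℕ → Bool := inw f 12 bs

/-- the centralizer of the letters `ls` lies in the list and has no fixed points -/
noncomputable def pA (ls : List ℕ) (ws rs : List (List ℕ)) (w : List ℕ) : Bool :=
  bor (!lall ls fun i => cb w [i]) (band (iw ws w) (bor (eq w []) (rs.all fun r => !cb r w)))

theorem pA_sound {ls : List ℕ} {ws rs : List (List ℕ)} {w : List ℕ} {S : Subgroup X0}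
    (hl : Lists m 12 S ws) (h : pA ls ws rs w = true) (hw : ∀ i ∈ w, i < 12) (h1 : llt 12 ls = true)
    (hc : ∀ i ∈ ls, Commute (evl m w) (m i)) : evl m w ∈ S ∧
      ∀ r ∈ rs, llt 12 r = true → Commute (evl m r) (evl m w) → evl m w = 1 := by
  simp only [pA, bor_eq, band_eq, Bool.or_eq_true, Bool.and_eq_true, Bool.not_eq_true', ← Bool.not_eq_true,
    lall_iff, List.all_eq_true, md.cm_iff num, md.eq_iff num, md.inw_iff num hl] at h
  obtain ⟨a, b⟩ := h.resolve_left fun e => e fun i hi =>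
    ⟨⟨hw, by simpa using llt_iff.1 h1 i hi⟩, by simpa [evl] using hc i hi⟩
  exact ⟨a.2, fun r hr e c => (b.resolve_right fun k => k r hr ⟨⟨llt_iff.1 e, hw⟩, c⟩).2⟩

/-- the facts on the centralizer -/
noncomputable def pK (w : List ℕ) (_ : ℕ) : Bool :=
  band (band (pA Ql wQ [] w) (band (pA [0, 1, 2, 4] wA1 [[3, 7, 8], [3, 7, 8, 7, 8]] w)
    (pA [0, 1, 3, 5] wA2 [[7, 10], [2, 7, 10, 7, 10]] w)))
  (band (bor (!cb w [8]) (band (bor (!cb w [10]) (bor (iw wE w) (iw wE (0 :: w))))
      (bor (iw wE w) (band (eq (pww w 12) []) (!eq (pww w 3) [])))))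
    (bor (!band (wE.any fun e => eq (8 :: w) (w ++ e)) (wE.any fun e => eq (10 :: w) (w ++ e)))
      (band (cb (w ++ w) [8]) (cb (w ++ w) [10]))))

theorem eK : enumChk f 12 126 bs Kl tK pK = true := by decide +kernel

theorem card_K : Nat.card (Mb m Kl) = 1152 :=
  ((md.enum' num eK).2 (126 ^ 4) (by decide +kernel)).trans (by decide +kernel)

theorem K_top : C1[m 0] = Mb m Kl ∧ Mb m Al = ⊤ := by
  obtain ⟨a, b⟩ := orb_le (finEnc 126).mask_inj (u := m) (ls := Al) (ls0 := Kl)
    (fun i hi => actS i (by revert i; decide)) (by decide) (mask_Fz ▸ oF)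
  have b' := b.resolve_left index_ne_zero_of_finite
  have c := card_mul_relIndex (show stabilizer X0 Fz ⊓ Mb m Al ≤ Mb m Al from inf_le_right)
  rw [inf_relIndex_right] at c
  have d := card_le_of_le (show Mb m Kl ≤ stabilizer X0 Fz ⊓ Mb m Al from le_inf a (Mb.mono (by decide)))
  have e := card_le_card_group (Mb m Al)
  rw [card_K] at d
  rw [card_X] at e
  have t : Mb m Al = ⊤ := eq_top_of_card_eq _ (by rw [card_X]; nlinarith)
  rw [t, inf_top_eq] at c d
  refine ⟨(eq_of_le_of_card_ge (Mb.le fun i hi => mem_cent1.2 ?_) ?_).symm, t⟩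
  · have h : lall Kl (fun i => cb [i] [0]) = true := by decide +kernel
    simpa [evl] using ((md.cm_iff num).1 ((lall_iff _ _).1 h i hi)).2.eq
  · rw [t] at b' e
    have := card_le_of_le cent_le
    rw [card_K]; nlinarith

theorem allK {c : X0} (hc : c ∈ C1[m 0]) : ∃ w, (∀ i ∈ w, i < 12) ∧ evl m w = c ∧ pK w 0 = true :=
  let ⟨w, _, a⟩ := md.enum num eK c (K_top.1 ▸ hc); ⟨w, a⟩

theorem ev1 (i : ℕ) : evl m [i] = m i := one_mul _

theorem esQ : ES (Mb m Ql) (m 0) := by
  have h : (wQ.all fun x => band (bor (eq (x ++ x) []) (eq (x ++ x) [0])) (band (cb [0] x)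
      (band (bor (bor (eq x []) (eq x [0])) (lany Ql fun i => !cb x [i]))
      (wQ.all fun y => bor (cb x y) (eq (y ++ x) (0 :: x ++ y)))))) = true := by decide +kernel
  simp only [List.all_eq_true, bor_eq, band_eq, Bool.or_eq_true, Bool.and_eq_true, lany_iff,
    Bool.not_eq_true', ← Bool.not_eq_true, md.cm_iff num, md.eq_iff num, evl_append, ev1, evl,
    List.cons_append] at h
  have z : ∀ x ∈ Mb m Ql, Commute (m 0) x := fun x hx => by
    obtain ⟨x, hx', rfl⟩ := lQ.2 x hx; simpa using (h x hx').2.1.2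
  refine ⟨Mb.of (by decide), by simpa [evl] using md.eq (w := [0, 0]) (w' := []) (by decide +kernel),
    by simpa [evl] using md.ne (w := [0]) (w' := []) (x := 0) rfl (by decide +kernel), z,
    fun x hx y hy => ?_, fun x hx => ?_, fun x hx hc => ?_,
    ⟨m 2, Mb.of (by decide), m 3, Mb.of (by decide), fun e => ?_⟩⟩
  · have := z x hx
    obtain ⟨x, hx', rfl⟩ := lQ.2 x hx
    obtain ⟨y, hy', rfl⟩ := lQ.2 y hy
    refine ((h x hx').2.2.2 y hy').imp (fun e => commute_iff_conj.1 e.2) fun e => ?_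
    rw [e.2, mul_assoc, mul_assoc, ← mul_assoc (evl m x), ← this.eq, mul_assoc, mul_inv_cancel, mul_one]
  · obtain ⟨x, hx', rfl⟩ := lQ.2 x hx
    exact (h x hx').1.imp (fun e => e.2) fun e => by simpa using e.2
  · obtain ⟨x, hx', rfl⟩ := lQ.2 x hx
    refine (((h x hx').2.2.1).resolve_right fun ⟨i, hi, e⟩ => e ⟨⟨(lQ.1 x hx').1, ?_⟩, ?_⟩).imp
      (fun e => e.2) fun e => by simpa using e.2
    · clear e; revert i; decide
    · simpa using hc _ (Mb.of hi)
  · exact absurd ((md.cm_iff num (w := [2]) (w' := [3])).2 ⟨by decide, by simpa [evl] using e⟩)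
      (by decide +kernel)

theorem gz : m 6 * m 7 * m 0 * (m 6 * m 7)⁻¹ = m 1 := mul_inv_eq_iff_eq_mul.2 (by
  simpa [evl, mul_assoc] using md.eq (w := [0, 7, 6]) (w' := [7, 6, 1]) (by decide +kernel))

theorem lt0 : LT (Mb m Ql) (m 0) (m 6 * m 7) 2 36 := by
  have cq : Nat.card (Mb m Ql) = 32 :=
    ((md.enum' num (t := tQ) (P := fun _ _ => true) (by decide +kernel)).2 (126 ^ 4)
      (by decide +kernel)).trans (by decide +kernel)
  refine ⟨⟨esQ, fun c hc => ?_, K_top.1 ▸ Mb.le fun i hi => ?_⟩, cq, by rw [K_top.1, card_K, cq],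
    gz ▸ Mb.of (by decide), gz ▸ ?_⟩
  · obtain ⟨w, a, rfl, b⟩ := allK (cent_le_cent1 esQ.mem hc)
    simp only [pK, band_eq, Bool.and_eq_true] at b
    exact (pA_sound lQ b.1.1 a (by decide) fun i hi => (hc _ (Mb.of hi)).symm).1
  · have h : lall Kl (fun i => nmChk f 12 bs Ql wQ [i]) = true := by decide +kernel
    exact ev1 i ▸ md.norm ((lall_iff _ _).1 h i hi)
  · simpa [evl] using md.ne (w := [1]) (w' := [0]) (x := 0) rfl (by decide +kernel)

theorem mem_S {w : List ℕ} (h : iw wQ ([7, 6] ++ w ++ [6, 7]) = true) :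
    evl m w ∈ cj[m 6 * m 7] (Mb m Ql) := by
  have a := md.eq (w := [6, 7, 7, 6]) (w' := []) (by decide +kernel)
  have := ((md.inw_iff num lQ).1 h).2
  simp only [evl_append, evl, one_mul] at this a
  rw [mem_conj, inv_eq_of_mul_eq_one_right (show m 6 * m 7 * (m 7 * m 6) = 1 by rw [← a]; group)]
  simpa [mul_assoc] using this

theorem ht0 : ∀ x ∈ Mb m Ql, x ∈ cj[m 6 * m 7] (Mb m Ql) →
    x ∈ VV (m 0) (m 6 * m 7 * m 0 * (m 6 * m 7)⁻¹) := fun x hx hs => by
  have h : (wQ.all fun x => bor (!iw wQ ([7, 6] ++ x ++ [6, 7]))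
    ([[], [0], [1], [0, 1]].any (eq x))) = true := by decide +kernel
  obtain ⟨x, hx', rfl⟩ := lQ.2 x hx
  have a := md.eq (w := [6, 7, 7, 6]) (w' := []) (by decide +kernel)
  simp only [evl, one_mul] at a
  rw [mem_conj, inv_eq_of_mul_eq_one_right (show m 6 * m 7 * (m 7 * m 6) = 1 by rw [← a]; group)] at hs
  have := List.all_eq_true.1 h x hx'
  simp only [bor_eq, Bool.or_eq_true, Bool.not_eq_true', ← Bool.not_eq_true, md.inw_iff num lQ,
    List.any_eq_true] at this
  obtain ⟨y, hy, e⟩ := this.resolve_left fun e => e ⟨by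
    simp only [List.forall_mem_append]; exact ⟨⟨by decide, (lQ.1 x hx').1⟩, by decide⟩,
    by simpa [evl_append, evl, mul_assoc] using hs⟩
  rw [md.eq e, gz]
  refine evl_mem fun i hi => subset_closure ?_
  have : i = 0 ∨ i = 1 := by clear e; revert i y; decide
  rcases this with rfl | rfl <;> simp

theorem cls {x : X0} (h2 : x * x = 1) (h1 : x ≠ 1) : ∃ g, x = g * m 0 * g⁻¹ := by
  have h : enumChk f 12 126 bs [0, 1, 2, 3, 4, 5, 6] tT (fun w b => bor (bor (!eq (w ++ w) []) (eq w []))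
    (eq (0 :: dw b) (dw b ++ w))) = true := by decide +kernel
  have c := ((md.enum' num h).2 (126 ^ 4) (by decide +kernel)).trans (show _ = 2 ^ 7 by decide +kernel)
  obtain ⟨g, hg⟩ := exists_conj_mem_of_card (p := 2) (c.trans (by
    rw [card_X, show 3265920 = 2 ^ 7 * 25515 by norm_num, Nat.factorization_mul (by norm_num) (by norm_num),
      Nat.Prime.factorization_pow Nat.prime_two]
    simp [Nat.factorization_eq_zero_of_not_dvd])) (x := x) (n := 1) (by rw [pow_one, sq, h2])
  obtain ⟨w, b, a, e, p⟩ := md.enum num h _ hg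
  simp only [bor_eq, Bool.or_eq_true, Bool.not_eq_true', ← Bool.not_eq_true, md.eq_iff num, evl_append,
    evl, e] at p
  rcases p with (p | p) | p
  · exact absurd ⟨⟨List.forall_mem_append.2 ⟨a, a⟩, by simp⟩, conj_mul_self g h2⟩ p
  · exact absurd (by simpa using p.2) h1
  · exact ⟨g⁻¹ * evl m (dw b), by rw [mul_assoc g⁻¹, p.2]; group⟩

theorem no35 {a b : X0} (ha : orderOf a = 5) (hb : orderOf b = 7) : ¬ Commute a b := fun hc => by
  haveI : Fact (Nat.Prime 5) := ⟨by norm_num⟩
  have o : orderOf (evl m [3, 7, 8]) = 5 := orderOf_eq_prime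
    (evl_pww (v := m) [3, 7, 8] 5 ▸ md.eq (w' := []) (by decide +kernel))
    (md.ne (w' := []) (x := 0) rfl (by decide +kernel))
  obtain ⟨g, hg⟩ := exists_conj_mem_of_card (p := 5) (K := zpowers (evl m [3, 7, 8])) (by
    rw [Nat.card_zpowers, o, card_X, show 3265920 = 5 ^ 1 * 653184 by norm_num,
      Nat.factorization_mul (by norm_num) (by norm_num), Nat.Prime.factorization_pow (by norm_num)]
    simp [Nat.factorization_eq_zero_of_not_dvd]) (x := a) (n := 1) (by rw [pow_one, ← ha, pow_orderOf_eq_one])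
  have e := eq_of_le_of_card_ge (zpowers_le.2 hg) (by simp only [Nat.card_zpowers, orderOf_conj, o, ha, le_refl])
  have c : Commute (g * b * g⁻¹) (evl m [3, 7, 8]) :=
    comm_zp ((commute_conj_iff g).2 hc.symm) (e ▸ mem_zpowers _)
  have h : nall 126 (fun q => Nat.beq q 125 == Nat.beq (apl f [3, 7, 8] q) q) = true := by decide +kernel
  have k : ∀ x : Fin 126, x = 125 ↔ evl m [3, 7, 8] • x = x := fun x => by
    rw [Fin.ext_iff, Fin.ext_iff, md.ap (by decide), ← Nat.beq_eq, ← Nat.beq_eq,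
      ← eq_of_beq ((nall_iff _ _).1 h x x.2)]
    rfl
  have k1 : g * b * g⁻¹ ∈ stabilizer X0 (125 : Fin 126) :=
    (k _).2 (by rw [← mul_smul, ← c.eq, mul_smul, (k _).1 rfl])
  have k2 := (orb_le (D := X0) Fin.val_injective (u := m) (ls := Al) (ls0 := []) (x := 125) (n := 126)
    (N := 126) (t := tP) (fun i hi => md.act i (by revert i; decide)) (by simp)
    (by decide +kernel)).2.resolve_left index_ne_zero_of_finite
  rw [K_top.2, relIndex_top_right] at k2
  have k3 : (stabilizer X0 (125 : Fin 126)).index ≤ 126 := by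
    rw [index_stabilizer]; simpa using Set.ncard_le_card (orbit X0 (125 : Fin 126))
  have k4 := (stabilizer X0 (125 : Fin 126)).index_mul_card
  have k5 := orderOf_dvd_natCard _ k1
  rw [orderOf_conj, hb] at k5
  rw [le_antisymm k3 k2, card_X] at k4
  omega

instance simpleX0 : IsSimpleGroup X0 :=
  let ⟨e⟩ := U43.iso_PSU
  haveI := U43.frob.simple_psu (n := 4) (by norm_num) (by norm_num)
  e.isSimpleGroup

end Cfsg.Agent.XL.U4
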