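import Cfsg.Agent.XL.Tri
import Cfsg.Agent.Cl.OExtra
import Cfsg.Agent.Cl.OLow
import Cfsg.Agent.Cl.OQuad

/-! # Coordinates for a large extraspecial subgroup -/

set_option autoImplicit false

namespace Cfsg.Agent.XL

open Cfsg Cfsg.Agent.GT Cfsg.Agent.TT Cfsg.Agent.Cl.Orth Subgroup

variable {V : Type*} [AddCommGroup V] [Module (ZMod 2) V]

section forms

variable {q : QuadraticForm (ZMod 2) V} {e f : V}

theorem vadd_self (v : V) : v + v = 0 := XS.add_self v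

theorem vneg (v : V) : -v = v := neg_eq_of_add_eq_zero_left (vadd_self v)

theorem vsub (v w : V) : v - w = v + w := by rw [sub_eq_add_neg, vneg]

theorem B_self2 (v : V) : B q v v = 0 := by
  rw [B_self, show (2 : ZMod 2) = 0 from rfl, zero_mul]

theorem z2_ne {a : ZMod 2} (h : a ≠ 0) : a = 1 := (zmod2_cases a).resolve_left h

theorem z2_ne1 {a : ZMod 2} (h : a ≠ 1) : a = 0 := (zmod2_cases a).resolve_right h

theorem eich_app2 {u v : V} (hu : q u = 0) (hv : B q u v = 0) (x : V) :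
    (eich q u v hu hv).1 x = x + B q x v • u + B q x u • v + (q v * B q x u) • u := by
  rw [eich_apply, vsub, vsub]

theorem refl_app2 {v : V} (hv : q v = 1) (x : V) : (refl q v).1 x = x + B q x v • v := by
  rw [refl_apply, hv, vsub]; simp

theorem exists_eich_eq (h : Hyp q e f) {g : OG q} (he : g.1 e = e)
    (hg : ∀ v, B q e v = 0 → g.1 v = v ∨ g.1 v = v + e) :
    ∃ u, ∃ hu : B q e u = 0, B q f u = 0 ∧ g = eich q e u h.he hu := by
  have h' : Hyp q e (g.1 f) := by have := h.map g; rwa [he] at this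
  refine ⟨-pr q e f (g.1 f), by simp [pr_e h], by simp [pr_f h], ?_⟩
  refine h.ext (he.trans (eich_self _ _).symm) (h.eich_map_f h').symm fun w h1 h2 => ?_
  generalize hk : eich q e (-pr q e f (g.1 f)) h.he (by simp [pr_e h]) = k
  have kf : k.1 f = g.1 f := hk ▸ h.eich_map_f h'
  have k1 : k.1 w = w ∨ k.1 w = w + e := by
    rw [← hk, eich_app2, B_comm q w e, h1]
    rcases zmod2_cases (B q w (-pr q e f (g.1 f))) with a | a <;> rw [a] <;> simp
  have a1 : B q (g.1 f) (g.1 w) = 0 := by rw [OG.B_apply, h2]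
  have a2 : B q (g.1 f) (k.1 w) = 0 := by rw [← kf, OG.B_apply, h2]
  rcases hg w h1 with b | b <;> rcases k1 with c | c <;> rw [b] at a1 ⊢ <;> rw [c] at a2 ⊢
  · rw [map_add, a1, h'.hfe] at a2; exact absurd a2 (by decide)
  · rw [map_add, a2, h'.hfe] at a1; exact absurd a1 (by decide)

theorem index_EG [Finite V] (hB : BNondeg q) (h : Hyp q e f) (hV : 3 ≤ Module.finrank (ZMod 2) V) :
    (EG q).index = 2 ∧ ∀ v, q v = 1 → refl q v ∉ EG q := by
  obtain ⟨θ, h1, h2, h3⟩ := h.exists_theta_ker hB hV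
  refine ⟨?_, fun v hv hm => ?_⟩
  · rw [← h1, index_ker, MonoidHom.range_eq_top.2 h2, card_top, card_SpT]; simp
  · rw [← h1, MonoidHom.mem_ker, h3 v (by rw [hv]; decide)] at hm
    exact absurd (show Multiplicative.ofAdd (1 : ZMod 2) = 1 from congrArg Prod.fst hm) (by decide)

theorem finite_OG [Finite V] : Finite (OG q) :=
  Finite.of_injective (fun g : OG q => (g.1 : V → V)) fun _ _ e => OG.ext' (congrFun e)

end forms

/-- coordinates on the large extraspecial subgroup `Q` -/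
structure XQ {G : Type*} [Group G] (q : QuadraticForm (ZMod 2) V) (Q : Subgroup G) (z : G)
    (π : G → V) : Prop extends LQ Q z where
  mul : ∀ x ∈ Q, ∀ y ∈ Q, π (x * y) = π x + π y
  surj : ∀ v, ∃ x ∈ Q, π x = v
  ker : ∀ x ∈ Q, π x = 0 ↔ x = 1 ∨ x = z
  sq1 : ∀ x ∈ Q, x * x = 1 ↔ q (π x) = 0
  bn : BNondeg q

/-- `c` acts as `g` -/
def Ac {G : Type*} [Group G] {q : QuadraticForm (ZMod 2) V} (Q : Subgroup G) (z : G) (π : G → V)
    (c : G) (g : OG q) : Prop :=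
  c ∈ C1[z] ∧ ∀ x ∈ Q, π (c * x * c⁻¹) = g.1 (π x)

/-- the centralizer of `z` induces the group generated by the Eichler transformations -/
structure XC {G : Type*} [Group G] (q : QuadraticForm (ZMod 2) V) (Q : Subgroup G) (z : G)
    (π : G → V) : Prop extends XQ q Q z π where
  inE : ∀ c g, Ac (q := q) Q z π c g → g ∈ EG q
  onto : ∀ g ∈ EG q, ∃ c, Ac Q z π c g

variable {G : Type*} [Group G] {q : QuadraticForm (ZMod 2) V} {Q S : Subgroup G} {z s x y c d : G}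
  {π : G → V} {g g' : OG q}

namespace XQ

theorem xs (h : XQ q Q z π) : XS (⟨z, h.mem⟩ : Q) (fun x : Q => π x) q where
  mul x y := h.mul x x.2 y y.2
  surj v := let ⟨x, a, b⟩ := h.surj v; ⟨⟨x, a⟩, b⟩
  ker x := by rw [Subtype.ext_iff, Subtype.ext_iff]; exact h.ker x x.2
  ne := fun e => h.ne (congrArg Subtype.val e)
  sq x := Subtype.ext_iff.trans (h.sq1 x x.2)

theorem π1 (h : XQ q Q z π) : π 1 = 0 := (h.ker 1 Q.one_mem).2 (Or.inl rfl)

theorem πz (h : XQ q Q z π) : π z = 0 := (h.ker z h.mem).2 (Or.inr rfl)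

theorem πinv (h : XQ q Q z π) (hx : x ∈ Q) : π x⁻¹ = π x := h.xs.inv ⟨x, hx⟩

theorem eq_iff (h : XQ q Q z π) (hx : x ∈ Q) (hy : y ∈ Q) : π x = π y ↔ y = x ∨ y = x * z := by
  have := h.xs.eq_iff (x := ⟨x, hx⟩) (y := ⟨y, hy⟩)
  simpa [Subtype.ext_iff] using this

theorem comm_iff (h : XQ q Q z π) (hx : x ∈ Q) (hy : y ∈ Q) :
    Commute x y ↔ B q (π x) (π y) = 0 := by
  have := h.xs.comm_iff ⟨x, hx⟩ ⟨y, hy⟩
  rw [← this, Subtype.ext_iff]
  exact ⟨fun e => e.symm.eq, fun e => e.symm⟩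

theorem sq_z (h : XQ q Q z π) (hx : x ∈ Q) : x * x = z ↔ q (π x) = 1 := by
  have := h.xs.sq_z ⟨x, hx⟩
  simpa [Subtype.ext_iff] using this

theorem card_Q (h : XQ q Q z π) : Nat.card Q = 2 * Nat.card V := h.xs.card_eq

theorem finite_V [Finite G] (h : XQ q Q z π) : Finite V := Finite.of_surjective _ h.xs.surj

theorem conjQ (h : XQ q Q z π) (hc : c ∈ C1[z]) (hx : x ∈ Q) : c * x * c⁻¹ ∈ Q :=
  conj_mem_of_le_norm h.nQ hc hx

theorem conj_z (hc : c ∈ C1[z]) : c * z * c⁻¹ = z := mul_inv_eq_iff_eq_mul.2 (mem_cent1.1 hc)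

theorem ac_unique (h : XQ q Q z π) (a : Ac Q z π c g) (b : Ac Q z π c g') : g = g' :=
  OG.ext' fun v => by
    obtain ⟨x, hx, rfl⟩ := h.surj v
    rw [← a.2 x hx, ← b.2 x hx]

theorem ac_mul (h : XQ q Q z π) (a : Ac Q z π c g) (b : Ac Q z π d g') :
    Ac Q z π (c * d) (g * g') :=
  ⟨mul_mem a.1 b.1, fun x hx => by
    rw [OG.mul_apply, ← b.2 x hx, ← a.2 _ (h.conjQ b.1 hx)]; congr 1; group⟩

theorem ac_inv (h : XQ q Q z π) (a : Ac Q z π c g) : Ac Q z π c⁻¹ g⁻¹ :=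
  ⟨inv_mem a.1, fun x hx => by
    have := a.2 _ (h.conjQ (inv_mem a.1) hx)
    rw [show c * (c⁻¹ * x * c⁻¹⁻¹) * c⁻¹ = x by group] at this
    rw [this, OG.inv_apply_apply]⟩

theorem ac_Q (h : XQ q Q z π) (hc : c ∈ Q) : Ac Q z π c (1 : OG q) :=
  ⟨h.le_cent1 hc, fun x hx => ((h.eq_iff hx (h.conjQ (h.le_cent1 hc) hx)).2 (h.conj c hc x hx)).symm⟩

theorem ac_one (h : XQ q Q z π) : Ac Q z π 1 (1 : OG q) := h.ac_Q Q.one_mem

theorem ac_pow (h : XQ q Q z π) (a : Ac Q z π c g) (n : ℕ) : Ac Q z π (c ^ n) (g ^ n) := by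
  induction n with
  | zero => simpa using h.ac_one
  | succ n ih => rw [pow_succ, pow_succ]; exact h.ac_mul ih a

theorem mem_of_ac [Finite G] (h : XQ q Q z π) (a : Ac Q z π c (1 : OG q)) : c ∈ Q :=
  h.mem_of_trivial h.cQ fun y hy => (h.eq_iff hy (h.conjQ a.1 hy)).1 (a.2 y hy).symm

theorem mem_of_ac2 [Finite G] (h : XQ q Q z π) (a : Ac Q z π c g) (b : Ac Q z π d g) :
    c⁻¹ * d ∈ Q :=
  h.mem_of_ac (by simpa using h.ac_mul (h.ac_inv a) b)

theorem exists_ac (h : XQ q Q z π) (hc : c ∈ C1[z]) : ∃ g : OG q, Ac Q z π c g := by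
  choose t ht ht' using h.surj
  have hind : ∀ c ∈ C1[z], ∀ x ∈ Q, ∀ y ∈ Q, π x = π y → π (c * x * c⁻¹) = π (c * y * c⁻¹) := by
    intro c hc x hx y hy e
    rcases (h.eq_iff hx hy).1 e with rfl | rfl
    · rfl
    · rw [show c * (x * z) * c⁻¹ = c * x * c⁻¹ * (c * z * c⁻¹) by group, conj_z hc,
        h.mul _ (h.conjQ hc hx) _ h.mem, h.πz, add_zero]
  let L : C1[z] → V →ₗ[ZMod 2] V := fun c => (AddMonoidHom.mk' (fun v => π (c * t v * (c : G)⁻¹))
    fun v w => by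
      rw [← h.mul _ (h.conjQ c.2 (ht v)) _ (h.conjQ c.2 (ht w)),
        show (c : G) * t v * (c : G)⁻¹ * (c * t w * (c : G)⁻¹) = c * (t v * t w) * (c : G)⁻¹ by group]
      exact hind c c.2 _ (ht _) _ (mul_mem (ht v) (ht w))
        (by rw [h.mul _ (ht v) _ (ht w), ht', ht', ht'])).toZModLinearMap 2
  have hL : ∀ (c : C1[z]), ∀ x ∈ Q, L c (π x) = π (c * x * (c : G)⁻¹) := fun c x hx =>
    hind c c.2 _ (ht _) _ hx (ht' _)
  have hs : ∀ v, ∃ x ∈ Q, π x = v := fun v => ⟨t v, ht v, ht' v⟩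
  refine ⟨OG.mk' (L ⟨c, hc⟩) (L ⟨c, hc⟩⁻¹) (fun v => ?_) (fun v => ?_) fun v => ?_, hc,
    fun x hx => (hL ⟨c, hc⟩ x hx).symm⟩ <;> obtain ⟨x, hx, rfl⟩ := hs v
  · rw [hL _ x hx, hL _ _ (h.conjQ (Subtype.prop _) hx)]; congr 1; simp [mul_assoc]
  · rw [hL _ x hx, hL _ _ (h.conjQ (Subtype.prop _) hx)]; congr 1; simp [mul_assoc]
  · rw [hL _ x hx]
    have e : c * x * c⁻¹ * (c * x * c⁻¹) = c * (x * x) * c⁻¹ := by group
    rcases zmod2_cases (q (π x)) with a | a <;> rw [a]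
    · rw [← h.sq1 _ (h.conjQ hc hx), e, (h.sq1 x hx).2 a]; simp
    · rw [← h.sq_z (h.conjQ hc hx), e, (h.sq_z hx).2 a, conj_z hc]

theorem exists_rho (h : XQ q Q z π) : ∃ ρ : C1[z] →* OG q, ∀ c : C1[z], Ac Q z π (c : G) (ρ c) := by
  choose r hr using fun c : C1[z] => h.exists_ac c.2
  exact ⟨MonoidHom.mk' r fun a b => h.ac_unique (hr (a * b)) (h.ac_mul (hr a) (hr b)), hr⟩

theorem ker_rho [Finite G] (h : XQ q Q z π) {ρ : C1[z] →* OG q}
    (hρ : ∀ c : C1[z], Ac Q z π (c : G) (ρ c)) : ρ.ker = Q.subgroupOf C1[z] := by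
  ext c
  rw [MonoidHom.mem_ker, mem_subgroupOf]
  exact ⟨fun e => h.mem_of_ac (e ▸ hρ c), fun e => h.ac_unique (hρ c) (h.ac_Q e)⟩

theorem card_rho [Finite G] (h : XQ q Q z π) {ρ : C1[z] →* OG q}
    (hρ : ∀ c : C1[z], Ac Q z π (c : G) (ρ c)) :
    Nat.card C1[z] = Nat.card Q * Nat.card ρ.range := by
  rw [← ρ.ker.card_mul_index, index_ker, h.ker_rho hρ, card_subgroupOf h.le_cent1]

theorem mem_range_rho (h : XQ q Q z π) {ρ : C1[z] →* OG q}
    (hρ : ∀ c : C1[z], Ac Q z π (c : G) (ρ c)) : g ∈ ρ.range ↔ ∃ c, Ac Q z π c g :=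
  ⟨fun ⟨c, e⟩ => ⟨c, e ▸ hρ c⟩, fun ⟨c, a⟩ => ⟨⟨c, a.1⟩, h.ac_unique (hρ _) a⟩⟩

theorem dvd_OG [Finite G] (h : XQ q Q z π) {N : ℕ} (hN : Nat.card C1[z] = Nat.card Q * N) :
    N ∣ Nat.card (OG q) := by
  obtain ⟨ρ, hρ⟩ := h.exists_rho
  rw [h.card_rho hρ] at hN
  rw [← Nat.eq_of_mul_eq_mul_left Nat.card_pos hN]
  exact card_subgroup_dvd_card _

/-- if the image has index two and contains the group generated by the Eichler transformations -/
theorem toXC [Finite G] (h : XQ q Q z π) (hi : (EG q).index = 2) {N : ℕ}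
    (hN : Nat.card C1[z] = Nat.card Q * N) (h2 : Nat.card (OG q) = 2 * N)
    (hle : ∀ H : Subgroup (OG q), H.index = 2 → (∀ g, g ∈ H ↔ ∃ c, Ac Q z π c g) → EG q ≤ H) :
    XC q Q z π := by
  obtain ⟨ρ, hρ⟩ := h.exists_rho
  haveI := h.finite_V
  haveI := finite_OG (q := q)
  rw [h.card_rho hρ] at hN
  have e := Nat.eq_of_mul_eq_mul_left Nat.card_pos hN
  have h3 := ρ.range.card_mul_index
  have h4 := (EG q).card_mul_index
  have hp : 0 < N := e ▸ Nat.card_pos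
  have h5 : ρ.range.index = 2 := by
    rw [e, h2, mul_comm] at h3; exact Nat.eq_of_mul_eq_mul_right hp h3
  have h6 : EG q = ρ.range := eq_of_le_of_card_ge (hle _ h5 fun g => h.mem_range_rho hρ)
    (by rw [hi, h2] at h4; omega)
  exact ⟨h, fun c g a => h6 ▸ (h.mem_range_rho hρ).2 ⟨c, a⟩,
    fun g hg => (h.mem_range_rho hρ).1 (h6 ▸ hg)⟩

theorem le_of_comm {H : Subgroup (OG q)} (hc : commutator (OG q) = EG q) (hi : H.index = 2) :
    EG q ≤ H := by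
  haveI := normal_of_index_eq_two hi
  rw [← hc, _root_.commutator_def, commutator_le]
  intro a _ b _
  rw [commutatorElement_def, mul_mem_iff_of_index_two hi, mul_mem_iff_of_index_two hi,
    mul_mem_iff_of_index_two hi, inv_mem_iff, inv_mem_iff]
  tauto

theorem congr (h : XQ q Q z π) {W : Type*} [AddCommGroup W] [Module (ZMod 2) W]
    {q' : QuadraticForm (ZMod 2) W} (φ : V ≃ₗ[ZMod 2] W) (hφ : ∀ v, q' (φ v) = q v) :
    XQ q' Q z (φ ∘ π) where
  toLQ := h.toLQ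
  mul x hx y hy := by simp [h.mul x hx y hy]
  surj w := let ⟨x, a, b⟩ := h.surj (φ.symm w); ⟨x, a, by simp [b]⟩
  ker x hx := by rw [← h.ker x hx]; simp
  sq1 x hx := by rw [h.sq1 x hx, ← hφ]; rfl
  bn := BNondeg.congr φ.symm (fun w => by rw [← hφ]; simp) h.bn

end XQ

theorem exists_XQ [Finite G] (h : LQ Q z) {w : ℕ} (hc : Nat.card Q = 2 ^ (2 * w + 1)) :
    (∃ π, XQ (HS w (0 : QuadraticForm (ZMod 2) PUnit.{1})) Q z π) ∨
      ∃ m, w = m + 1 ∧ ∃ π, XQ (HS m (Q2 (1 : ZMod 2) 1)) Q z π := by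
  classical
  have h1 : ES (⊤ : Subgroup Q) ⟨z, h.mem⟩ := by
    have := h.toES.subgroupOf le_rfl
    rwa [subgroupOf_self] at this
  obtain ⟨_, q, π, hx, hB⟩ := exists_xs_of_es h1
  have hq : XQ q Q z fun x => if hx : x ∈ Q then π ⟨x, hx⟩ else 0 :=
    { toLQ := h
      mul := fun x a y b => by
        rw [dif_pos a, dif_pos b, dif_pos (mul_mem a b)]; exact hx.mul ⟨x, a⟩ ⟨y, b⟩
      surj := fun v => let ⟨x, e⟩ := hx.surj v; ⟨x, x.2, by rw [dif_pos x.2]; exact e⟩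
      ker := fun x a => by rw [dif_pos a, hx.ker]; simp [Subtype.ext_iff]
      sq1 := fun x a => by rw [dif_pos a, ← hx.sq]; simp [Subtype.ext_iff]
      bn := hB }
  haveI := hq.finite_V
  have hr : Module.finrank (ZMod 2) (Additive (Abelianization Q)) = 2 * w := by
    have e := hq.card_Q
    rw [hc, pow_succ', Module.natCard_eq_pow_finrank (K := ZMod 2)] at e
    simpa using (Nat.pow_right_injective le_rfl (by simpa using e)).symm
  rcases classify_two w _ q hB hr with ⟨φ, hφ⟩ | ⟨m, e, φ, hφ⟩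
  · exact Or.inl ⟨_, hq.congr φ hφ⟩
  · exact Or.inr ⟨m, e, _, hq.congr φ hφ⟩

theorem XC.twist (h : XC q Q z π) (σ : OG q) : XC q Q z (σ.1 ∘ π) ∧
    ∀ c g, Ac Q z π c g → Ac Q z (σ.1 ∘ π) c (σ * g * σ⁻¹) := by
  have k : ∀ (σ : OG q) (π : G → V) c g, Ac Q z π c g → Ac Q z (σ.1 ∘ π) c (σ * g * σ⁻¹) :=
    fun σ π c g a => ⟨a.1, fun x hx => by
      simp only [Function.comp, a.2 x hx, OG.mul_apply, OG.inv_apply_apply]⟩
  refine ⟨⟨h.toXQ.congr σ.1 σ.2, fun c g a => ?_, fun g hg => ?_⟩, k σ π⟩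
  · have := k σ⁻¹ _ c g a
    rw [show (σ⁻¹).1 ∘ σ.1 ∘ π = π from funext fun x => OG.inv_apply_apply σ _] at this
    simpa [mul_assoc] using EG_normal.conj_mem _ (h.inE c _ this) σ
  · obtain ⟨c, a⟩ := h.onto _ (EG_normal.conj_mem _ hg σ⁻¹)
    exact ⟨c, by simpa [mul_assoc] using k σ π c _ a⟩

end Cfsg.Agent.XL
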